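import Cfsg.Agent.Lib.Fischer.CoreTwo.Count

/-!
The second coordinate of a member not commuting with `x` and its behaviour under the basic conjugations.
-/
set_option autoImplicit false
set_option linter.unusedSectionVars false

namespace CfsgLib.Fischer.CoreTwo.Frame

open CfsgLib.Fischer CfsgLib.Fischer.CoreTwo

variable {G : Type*} [Group G] [Finite G] {D : Set G} {x y a d e e' p q t u v : G}
variable {F : Type} [Field F] [Fintype F] (R : Frame D x y F)
include R

open scoped Classical in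
/-- The vector of a member. -/
noncomputable def vq (q : G) : Fin R.m → F := if hh : ∃ w, R.Vec q w then hh.choose else 0

open scoped Classical in
/-- The second coordinate. -/
noncomputable def al (q : G) : F :=
  if Commute q y then 0 else if Commute q (fl x y) then 1
  else if R.vq (fl (fl x y) q) = R.K.ω • R.vq q then R.K.ω + 1 else R.K.ω

theorem vq_spec (hq : q ∈ R.opp) : R.Vec q (R.vq q) := by
  classical
  have hh := R.main.1 q hq
  have : R.vq q = hh.choose := dif_pos hh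
  rw [this]
  exact hh.choose_spec

theorem vq_eq {w : Fin R.m → F} (hq : q ∈ R.opp) (hw : R.Vec q w) : R.vq q = w :=
  R.vec_unique hq (R.vq_spec hq) hw

theorem fibre_two (hq : q ∈ R.opp) (hp : p ∈ R.opp) (h : R.vq p = R.vq q) : p = q ∨ p = fl x q :=
  R.main.2.1 q hq p hp _ (R.vq_spec hq) (h ▸ R.vq_spec hp)

theorem z_mem : fl x y ∈ D := fl_mem R.grp R.base.hx R.base.hy

theorem fl_x_z : fl x (fl x y) = y := fl_fl R.grp R.base.hx y

theorem fl_y_z : fl y (fl x y) = x := by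
  rw [fl_braid R.grp R.base.hx R.base.hy R.base.hxy, fl_fl R.grp R.base.hy]

theorem fl_z_x : fl (fl x y) x = y := by
  rw [fl_conj, fl_of_commute R.grp R.base.hx (Commute.refl x),
    fl_braid R.grp R.base.hy R.base.hx fun c => R.base.hxy c.symm, fl_fl R.grp R.base.hx]

theorem fl_z_y : fl (fl x y) y = x := by
  conv_lhs => arg 2; rw [← R.fl_z_x]
  exact fl_fl R.grp R.z_mem x

theorem z_x : ¬ Commute x (fl x y) := not_commute_third_left R.grp.1 R.base.hx R.base.hy R.base.hxy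

theorem z_y : ¬ Commute y (fl x y) := not_commute_third_right R.grp.1 R.base.hx R.base.hy R.base.hxy

theorem z_opp : fl x y ∈ R.opp := ⟨R.z_mem, R.z_x⟩

theorem fl_phi_z (hd : d ∈ phi D x y) : fl d (fl x y) = fl x y := by
  rw [fl_swap R.grp hd.1.1 R.base.hx hd.1.2.2.symm, fl_phi_y R.base hd]

theorem commute_phi_z (hd : d ∈ phi D x y) : Commute d (fl x y) :=
  commute_of_fl_eq R.grp hd.1.1 (R.fl_phi_z hd)

theorem not_both : ¬ (Commute q y ∧ Commute q (fl x y) ∧ q ∈ R.opp) := by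
  rintro ⟨h1, h2, hq⟩
  refine hq.2 ?_
  have := (h1.mul_right h2).mul_right h1
  rw [show y * fl x y * y = fl y (fl x y) from rfl, R.fl_y_z] at this
  exact this.symm

theorem fl_z_opp (hq : q ∈ R.opp) (h : ¬ Commute q y) : fl (fl x y) q ∈ R.opp :=
  ⟨fl_mem R.grp R.z_mem hq.1, fun c => h (by
    have := (commute_fl_iff R.grp R.z_mem).1 c.symm
    rwa [R.fl_z_x] at this)⟩

theorem fl_e_z (he : e ∈ ext' D x y) : fl e (fl x y) = fl (fl x y) e :=
  fl_braid R.grp he.1.1 R.z_mem fun c => he.2 (by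
    have := (commute_fl_iff R.grp R.base.hx).1 c.symm
    rw [fl_of_commute R.grp R.base.hx he.1.2.2] at this
    exact this.symm)

theorem fl_z_ext (he : e ∈ ext' D x y) :
    fl (fl x y) e ∈ R.opp ∧ Commute (fl (fl x y) e) y ∧ R.vq (fl (fl x y) e) = R.Ψ e ∧
      fl (fl x y) e = fl x (fl e y) := by
  have e1 : fl (fl x y) e = fl x (fl e y) := by
    rw [← R.fl_e_z he, fl_swap R.grp R.base.hx he.1.1 he.1.2.2]
  have h1 := R.tau_opp he R.y_opp
  have h2 := R.vec_tau he R.vec_y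
  rw [R.tau_y he] at h1 h2
  rw [zero_add] at h2
  refine ⟨e1 ▸ R.fl_x_opp h1, ?_, ?_, e1⟩
  · rw [commute_fl_iff R.grp R.z_mem, R.fl_z_y]; exact he.1.2.2.symm
  · rw [e1]; exact R.vq_eq (R.fl_x_opp h1) (R.vec_fl_x h2)

theorem vq_y : R.vq y = 0 := R.vq_eq R.y_opp R.vec_y

theorem vq_fl_x (hq : q ∈ R.opp) : R.vq (fl x q) = R.vq q :=
  R.vq_eq (R.fl_x_opp hq) (R.vec_fl_x (R.vq_spec hq))

theorem commute_fl_x_z (t : G) : Commute (fl x t) (fl x y) ↔ Commute t y := fl_commute_iff R.grp R.base.hx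

theorem commute_fl_x_y (t : G) : Commute (fl x t) y ↔ Commute t (fl x y) := commute_fl_iff R.grp R.base.hx

theorem opp_y_cases (hq : q ∈ R.opp) (h : Commute q y) : q = y ∨ ∃ e ∈ ext' D x y, q = fl (fl x y) e := by
  rcases eq_or_ne q y with rfl | hne
  · exact Or.inl rfl
  right
  have hG := R.grp
  have hm : fl (fl x y) q ∈ perp D x := by
    have := fl_perp hG R.z_mem (show q ∈ perp D y from ⟨hq.1, hne, h.symm⟩)
    rwa [R.fl_z_y] at this
  refine ⟨fl (fl x y) q, ⟨hm, fun c => ?_⟩, (fl_fl hG R.z_mem q).symm⟩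
  refine hq.2 ?_
  have := (commute_fl_iff hG R.z_mem).1 c
  rw [R.fl_z_y] at this
  exact this.symm

theorem simple_vec (hq : q ∈ R.opp) (h : Commute q y ∨ Commute q (fl x y)) : R.H (R.vq q) (R.vq q) = 0 := by
  have key : ∀ q, q ∈ R.opp → Commute q y → R.H (R.vq q) (R.vq q) = 0 := by
    intro q hq h
    rcases R.opp_y_cases hq h with rfl | ⟨e, he, rfl⟩
    · rw [R.vq_y, R.H_zero_left]
    · rw [(R.fl_z_ext he).2.2.1, R.H_Ψ_self he]
  rcases h with h | h
  · exact key q hq h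
  · rw [← R.vq_fl_x hq]
    exact key _ (R.fl_x_opp hq) ((R.commute_fl_x_y q).2 h)

theorem generic_norm (hq : q ∈ R.opp) (h1 : ¬ Commute q y) (h2 : ¬ Commute q (fl x y)) :
    R.H (R.vq q) (R.vq q) = 1 := by
  refine (R.K.fixed _ (R.H_symm _ _).symm).resolve_left fun h0 => ?_
  by_cases hw : R.vq q = 0
  · rcases R.fibre_two R.y_opp hq (hw.trans R.vq_y.symm) with rfl | rfl
    · exact h1 (Commute.refl _)
    · exact h2 (Commute.refl _)
  · obtain ⟨e, he, h⟩ := R.main.2.2 _ h0 hw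
    obtain ⟨k1, k2, k3, -⟩ := R.fl_z_ext he
    rcases R.fibre_two k1 hq (h.symm.trans k3.symm) with rfl | rfl
    · exact h1 k2
    · exact h2 ((R.commute_fl_x_z _).2 k2)

theorem generic_ne (hq : q ∈ R.opp) (h1 : ¬ Commute q y) (h2 : ¬ Commute q (fl x y)) : R.vq q ≠ 0 := fun h =>
  one_ne_zero (α := F) (by rw [← R.generic_norm hq h1 h2, h, R.H_zero_left])

theorem generic_ratio (hq : q ∈ R.opp) (h1 : ¬ Commute q y) (h2 : ¬ Commute q (fl x y)) :
    R.vq (fl (fl x y) q) = R.K.ω • R.vq q ∨ R.vq (fl (fl x y) q) = (R.K.ω + 1) • R.vq q := by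
  have hG := R.grp
  have hq' := R.fl_z_opp hq h1
  set w := R.vq q with hw
  set g := R.vq (fl (fl x y) q) with hg
  have hpt : ∀ e ∈ ext' D x y, Commute (fl (fl x y) q) (R.pt e (R.H (R.Ψ e) g)) := R.vq_spec hq'
  have hpw : ∀ e ∈ ext' D x y, Commute q (R.pt e (R.H (R.Ψ e) w)) := R.vq_spec hq
  have ratio : ∀ e ∈ ext' D x y, R.H (g + R.K.ω • w) (R.Ψ e) = 0 ∨ R.H (g + (R.K.ω + 1) • w) (R.Ψ e) = 0 := by
    intro e he
    have hd := bp_phi_mem R.base he.1
    have h0 : R.H (R.Ψ e) g = 0 ↔ R.H (R.Ψ e) w = 0 := by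
      rw [eq_comm, ← R.commute_pt_iff hq' (R.vq_spec hq') he, eq_comm, ← R.commute_pt_iff hq (R.vq_spec hq) he,
        R.pt_zero, commute_fl_iff hG R.z_mem, fl_of_commute hG R.z_mem (R.commute_phi_z hd).symm]
    simp only [R.H_add_left, R.H_smul_left, R.H_symm (R.Ψ e) g, R.H_symm (R.Ψ e) w]
    set b := R.H (R.Ψ e) g with hb
    set k := R.H (R.Ψ e) w with hk
    rcases eq_or_ne k 0 with hk0 | hk0
    · exact Or.inl (by rw [h0.2 hk0, hk0, map_zero, mul_zero, add_zero])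
    have hbk : b ≠ k := by
      intro hbk
      have c1 := hpw e he
      have c2 := hpt e he
      rw [← hb, hbk] at c2
      rw [← hk] at c1
      obtain ⟨hp, -, -⟩ := R.pt_ext he hk0
      have c3 : Commute q (fl (fl x y) (R.pt e k)) := (commute_fl_iff hG R.z_mem).1 c2
      rw [← R.fl_e_z hp] at c3
      have := (c1.mul_right c3).mul_right c1
      rw [show R.pt e k * fl (R.pt e k) (fl x y) * R.pt e k = fl (R.pt e k) (fl (R.pt e k) (fl x y)) from rfl,
        fl_fl hG hp.1.1] at this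
      exact h2 this
    rcases R.K.ratio (R.K.c.σ k) (R.K.c.σ b) (R.K.sig_ne _ hk0) (R.K.sig_ne _ fun c => hk0 (h0.1 c))
      (fun c => hbk (R.K.c.σ.injective c)) with c | c
    · left; rw [c, R.K.add_self]
    · right; rw [c, R.K.add_self]
  have hadd : ∀ {A B : Fin R.m → F}, A + B = 0 → A = B := fun {A B} h => funext fun i =>
    R.K.eq_of_add _ _ (congrFun h i)
  by_cases hA : g + R.K.ω • w = 0
  · exact Or.inl (hadd hA)
  by_cases hA' : g + (R.K.ω + 1) • w = 0
  · exact Or.inr (hadd hA')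
  exfalso
  set A := g + R.K.ω • w
  set A' := g + (R.K.ω + 1) • w
  obtain ⟨e1, he1, n1⟩ : ∃ e ∈ ext' D x y, R.H A (R.Ψ e) ≠ 0 := by
    by_contra hno
    push Not at hno
    exact hA (R.vec_ext fun e he => by rw [hno e he, R.H_zero_left])
  obtain ⟨e2, he2, n2⟩ : ∃ e ∈ ext' D x y, R.H A' (R.Ψ e) ≠ 0 := by
    by_contra hno
    push Not at hno
    exact hA' (R.vec_ext fun e he => by rw [hno e he, R.H_zero_left])
  have z1 := (ratio e1 he1).resolve_left n1
  have z2 := (ratio e2 he2).resolve_right n2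
  set s := R.H (R.Ψ e1) (R.Ψ e2) with hs
  obtain ⟨k, hk, hks⟩ : ∃ k : F, k ≠ 0 ∧ R.K.c.σ k * s + k * R.K.c.σ s = 0 := by
    rcases eq_or_ne s 0 with hs0 | hs0
    · exact ⟨1, one_ne_zero, by rw [hs0, map_zero, mul_zero, mul_zero, add_zero]⟩
    · refine ⟨R.K.c.σ s⁻¹, R.K.sig_ne _ (inv_ne_zero hs0), ?_⟩
      rw [R.K.c.invol, inv_mul_cancel₀ hs0, ← map_mul, inv_mul_cancel₀ hs0, map_one, R.K.add_self]
  set v := R.Ψ e1 + k • R.Ψ e2 with hv
  have hiso : R.H v v = 0 := by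
    rw [hv, R.H_add_left, R.H_add_right, R.H_add_right, R.H_smul_left, R.H_smul_left, R.H_smul_right,
      R.H_smul_right, R.H_Ψ_self he1, R.H_Ψ_self he2, ← hs, R.H_symm (R.Ψ e1) (R.Ψ e2), ← hs]
    linear_combination hks
  have hA1 : R.H A v ≠ 0 := by
    rw [hv, R.H_add_right, R.H_smul_right, z2, mul_zero, add_zero]
    exact n1
  have hA2 : R.H A' v ≠ 0 := by
    rw [hv, R.H_add_right, R.H_smul_right, z1, zero_add]
    exact mul_ne_zero (R.K.sig_ne _ hk) n2
  obtain ⟨e3, he3, h3⟩ := R.main.2.2 v hiso fun c => hA1 (by rw [c, R.H_zero_right])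
  rcases ratio e3 he3 with c | c
  · exact hA1 (h3 ▸ c)
  · exact hA2 (h3 ▸ c)

theorem al_zero (h : Commute q y) : R.al q = 0 := by
  classical
  exact if_pos h

theorem al_one (hq : q ∈ R.opp) (h : Commute q (fl x y)) : R.al q = 1 := by
  classical
  simp only [al]
  rw [if_neg fun c => R.not_both ⟨c, h, hq⟩, if_pos h]

theorem al_generic (hq : q ∈ R.opp) (h1 : ¬ Commute q y) (h2 : ¬ Commute q (fl x y)) :
    R.al q ≠ 0 ∧ R.al q ≠ 1 ∧ R.vq (fl (fl x y) q) = (R.al q)⁻¹ • R.vq q := by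
  classical
  simp only [al, if_neg h1, if_neg h2]
  split_ifs with h
  · exact ⟨R.K.w1_0, R.K.w1_1, by rw [R.K.inv_w1]; exact h⟩
  · refine ⟨R.K.ω0, R.K.ω1, ?_⟩
    rw [R.K.inv_w]
    exact (R.generic_ratio hq h1 h2).resolve_left h

theorem al_eq_zero (hq : q ∈ R.opp) : R.al q = 0 ↔ Commute q y := by
  refine ⟨fun h => by_contra fun h1 => ?_, R.al_zero⟩
  by_cases h2 : Commute q (fl x y)
  · exact one_ne_zero ((R.al_one hq h2).symm.trans h)
  · exact (R.al_generic hq h1 h2).1 h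

theorem al_eq_one (hq : q ∈ R.opp) : R.al q = 1 ↔ Commute q (fl x y) := by
  refine ⟨fun h => by_contra fun h2 => ?_, R.al_one hq⟩
  by_cases h1 : Commute q y
  · exact zero_ne_one ((R.al_zero h1).symm.trans h)
  · exact (R.al_generic hq h1 h2).2.1 h

theorem al_of_ratio (hq : q ∈ R.opp) (h1 : ¬ Commute q y) (h2 : ¬ Commute q (fl x y)) {k : F}
    (h : R.vq (fl (fl x y) q) = k • R.vq q) : R.al q = k⁻¹ := by
  rw [← smul_left_injective F (R.generic_ne hq h1 h2) ((R.al_generic hq h1 h2).2.2.symm.trans h), inv_inv]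

theorem al_trace (hq : q ∈ R.opp) : R.al q + R.K.c.σ (R.al q) + R.H (R.vq q) (R.vq q) = 0 := by
  by_cases h1 : Commute q y
  · rw [R.al_zero h1, R.simple_vec hq (Or.inl h1), map_zero, add_zero, add_zero]
  by_cases h2 : Commute q (fl x y)
  · rw [R.al_one hq h2, R.simple_vec hq (Or.inr h2), map_one, add_zero, R.K.add_self]
  rw [R.generic_norm hq h1 h2]
  obtain ⟨n0, n1, -⟩ := R.al_generic hq h1 h2
  rcases R.K.cases' _ n0 with c | c | c
  · exact absurd c n1
  · rw [c, R.K.sig_w]; linear_combination R.K.add_self R.K.ω + R.K.add_self (1 : F)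
  · rw [c, R.K.sig_w1]; linear_combination R.K.add_self R.K.ω + R.K.add_self (1 : F)

theorem al_fl_x (hq : q ∈ R.opp) : R.al (fl x q) = R.al q + 1 := by
  have hG := R.grp
  have hxq := R.fl_x_opp hq
  by_cases h1 : Commute q y
  · rw [R.al_zero h1, R.al_one hxq ((R.commute_fl_x_z q).2 h1), zero_add]
  by_cases h2 : Commute q (fl x y)
  · rw [R.al_one hq h2, R.al_zero ((R.commute_fl_x_y q).2 h2), R.K.add_self]
  have k1 : ¬ Commute (fl x q) y := fun c => h2 ((R.commute_fl_x_y q).1 c)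
  have k2 : ¬ Commute (fl x q) (fl x y) := fun c => h1 ((R.commute_fl_x_z q).1 c)
  obtain ⟨a0, a1, ea⟩ := R.al_generic hq h1 h2
  obtain ⟨b0, b1, eb⟩ := R.al_generic hxq k1 k2
  have hne : R.al (fl x q) ≠ R.al q := by
    intro h
    rw [h, R.vq_fl_x hq, ← ea] at eb
    rcases R.fibre_two (R.fl_z_opp hq h1) (R.fl_z_opp hxq k1) eb with c | c
    · exact R.fl_x_ne hq (fl_inj hG R.z_mem c)
    · have e1 : fl x (fl (fl x y) q) = fl y (fl x q) := by
        conv_rhs => rw [← R.fl_x_z, fl_conj, fl_fl hG R.base.hx]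
      rw [e1] at c
      rw [fl_braid hG R.z_mem hxq.1 fun c => k2 c.symm, fl_braid hG R.base.hy hxq.1 fun c => k1 c.symm] at c
      exact R.z_y ((fl_inj hG hxq.1 c).symm ▸ Commute.refl _)
  rcases R.K.cases' _ a0 with c | c | c
  · exact absurd c a1
  · rcases R.K.cases' _ b0 with d | d | d
    · exact absurd d b1
    · exact absurd (d.trans c.symm) hne
    · rw [c, d]
  · rcases R.K.cases' _ b0 with d | d | d
    · exact absurd d b1
    · rw [c, d, add_assoc, R.K.add_self, add_zero]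
    · exact absurd (d.trans c.symm) hne

theorem commute_fl_z_ext (hq : q ∈ R.opp) (he : e ∈ ext' D x y) :
    Commute q (fl (fl x y) e) ↔ R.H (R.vq q) (R.Ψ e) = R.al q := by
  have hG := R.grp
  by_cases h1 : Commute q y
  · rw [R.al_zero h1]
    rcases R.opp_y_cases hq h1 with rfl | ⟨e', he', rfl⟩
    · rw [R.vq_y, R.H_zero_left]
      exact iff_of_true (R.fl_z_ext he).2.1.symm rfl
    · rw [(R.fl_z_ext he').2.2.1, fl_commute_iff hG R.z_mem, R.H_Ψ_zero he' he]
  have hq' := R.fl_z_opp hq h1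
  rw [← commute_fl_iff hG R.z_mem, ← R.pt_one e, R.commute_pt_iff hq' (R.vq_spec hq') he, R.pt_one,
    R.H_symm (R.vq _) (R.Ψ e)]
  constructor
  · intro h
    have h' : R.H (R.vq (fl (fl x y) q)) (R.Ψ e) = 1 := by
      rw [← R.K.c.invol (R.H _ (R.Ψ e)), ← h, map_one]
    by_cases h2 : Commute q (fl x y)
    · rw [R.al_one hq h2]
      rwa [fl_of_commute hG R.z_mem h2.symm] at h'
    · obtain ⟨n0, -, e1⟩ := R.al_generic hq h1 h2
      rw [e1, R.H_smul_left, inv_mul_eq_one₀ n0] at h'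
      exact h'.symm
  · intro h
    suffices h' : R.H (R.vq (fl (fl x y) q)) (R.Ψ e) = 1 by rw [h', map_one]
    by_cases h2 : Commute q (fl x y)
    · rw [fl_of_commute hG R.z_mem h2.symm, h, R.al_one hq h2]
    · obtain ⟨n0, -, e1⟩ := R.al_generic hq h1 h2
      rw [e1, R.H_smul_left, h, inv_mul_cancel₀ n0]

theorem commute_simple (hq : q ∈ R.opp) (hp : p ∈ R.opp) (h : Commute p y ∨ Commute p (fl x y)) :
    Commute q p ↔ R.al q + R.al p + R.H (R.vq q) (R.vq p) = 0 := by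
  have key : ∀ q p, q ∈ R.opp → p ∈ R.opp → Commute p y →
      (Commute q p ↔ R.al q + R.al p + R.H (R.vq q) (R.vq p) = 0) := by
    intro q p hq hp h
    rw [R.al_zero h, add_zero]
    rcases R.opp_y_cases hp h with rfl | ⟨e, he, rfl⟩
    · rw [R.vq_y, R.H_zero_right, add_zero, R.al_eq_zero hq]
    · rw [R.commute_fl_z_ext hq he, (R.fl_z_ext he).2.2.1]
      exact ⟨fun c => by rw [c, R.K.add_self], fun c => (R.K.eq_of_add _ _ c).symm⟩
  rcases h with h | h
  · exact key q p hq hp h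
  · rw [← fl_commute_iff R.grp R.base.hx, key _ _ (R.fl_x_opp hq) (R.fl_x_opp hp) ((R.commute_fl_x_y p).2 h),
      R.vq_fl_x hq, R.vq_fl_x hp, R.al_fl_x hq, R.al_fl_x hp]
    constructor <;> intro c <;> first
      | linear_combination c - R.K.add_self (1 : F)
      | linear_combination c + R.K.add_self (1 : F)

theorem al_phi (hd : d ∈ phi D x y) (hq : q ∈ R.opp) : R.al (fl d q) = R.al q := by
  have hG := R.grp
  obtain ⟨he, hb⟩ := R.mate_spec hd
  have hq2 := R.fl_phi_opp hd hq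
  have i1 : Commute (fl d q) y ↔ Commute q y := fl_phi_commute_y R.base hd
  have i2 : Commute (fl d q) (fl x y) ↔ Commute q (fl x y) := by
    rw [commute_fl_iff hG hd.1.1, R.fl_phi_z hd]
  by_cases h1 : Commute q y
  · rw [R.al_zero h1, R.al_zero (i1.2 h1)]
  by_cases h2 : Commute q (fl x y)
  · rw [R.al_one hq h2, R.al_one hq2 (i2.2 h2)]
  obtain ⟨n0, -, ea⟩ := R.al_generic hq h1 h2
  rw [R.al_of_ratio hq2 (mt i1.1 h1) (mt i2.1 h2) (k := (R.al q)⁻¹) ?_, inv_inv]
  have v1 := R.vec_phi he (R.vq_spec hq)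
  have v2 := R.vec_phi he (R.vq_spec (R.fl_z_opp hq h1))
  rw [hb] at v1 v2
  rw [← fl_swap hG hd.1.1 R.z_mem (R.commute_phi_z hd),
    R.vq_eq (R.fl_phi_opp hd (R.fl_z_opp hq h1)) v2, R.vq_eq hq2 v1, ea, R.H_smul_left, smul_add, smul_smul]

theorem vq_tau (he : e ∈ ext' D x y) (hq : q ∈ R.opp) : R.vq (R.tau e q) = R.vq q + R.Ψ e :=
  R.vq_eq (R.tau_opp he hq) (R.vec_tau he (R.vq_spec hq))

theorem al_tau (he : e ∈ ext' D x y) (hq : q ∈ R.opp) :
    R.al (R.tau e q) = R.al q + 1 + R.H (R.vq q) (R.Ψ e) := by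
  have hG := R.grp
  have ty_opp := R.tau_opp he R.y_opp
  have ty_vq : R.vq (R.tau e y) = R.Ψ e := by rw [R.vq_tau he R.y_opp, R.vq_y, zero_add]
  have ty_z : Commute (R.tau e y) (fl x y) := by
    rw [R.tau_y he, ← R.commute_fl_x_y, ← (R.fl_z_ext he).2.2.2]
    exact (R.fl_z_ext he).2.1
  have tz : R.tau e (fl x y) = fl (fl x y) e := by
    show fl e (fl _ _) = _
    rw [R.fl_phi_z (bp_phi_mem R.base he.1), R.fl_e_z he]
  have test : ∀ q, q ∈ R.opp →
      (Commute (R.tau e q) y ↔ R.al q + 1 + R.H (R.vq q) (R.Ψ e) = 0) ∧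
      (Commute (R.tau e q) (fl x y) ↔ R.al q + 1 + R.H (R.vq q) (R.Ψ e) = 1) := by
    intro q hq
    constructor
    · rw [← R.tau_commute he, R.tau_tau he, R.commute_simple hq ty_opp (Or.inr ty_z), R.al_one ty_opp ty_z,
        ty_vq]
    · rw [← R.tau_commute he, R.tau_tau he, tz, R.commute_fl_z_ext hq he]
      constructor
      · intro c; rw [c]; linear_combination R.K.add_self (R.al q)
      · intro c; linear_combination c - R.K.add_self (R.al q)
  have htq := R.tau_opp he hq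
  set M := R.al q + 1 + R.H (R.vq q) (R.Ψ e) with hM
  by_cases h1 : Commute (R.tau e q) y
  · exact (R.al_zero h1).trans ((test q hq).1.1 h1).symm
  by_cases h2 : Commute (R.tau e q) (fl x y)
  · exact (R.al_one htq h2).trans ((test q hq).2.1 h2).symm
  set w := R.vq (R.tau e q) with hw
  have hnorm : R.H w w = 1 := R.generic_norm htq h1 h2
  obtain ⟨e', he', hval, hh⟩ : ∃ e' ∈ ext' D x y, R.H w (R.Ψ e') = M ∧
      (R.H (R.Ψ e') (R.Ψ e) = 0 ∨ R.H (R.Ψ e') (R.Ψ e) = 1) := by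
    have hM0 : M ≠ 0 := fun c => h1 ((test q hq).1.2 c)
    rcases eq_or_ne (R.H w (R.Ψ e)) 0 with ha | ha
    · obtain ⟨v, hv, hn⟩ := exists_ncomm R.base (bp_phi_mem R.base he.1)
      obtain ⟨e₀, he₀, -, h₀⟩ := R.exists_norm he (⟨hv, hn⟩ : v ∈ R.nb (bp D x y e))
      obtain ⟨s, hs⟩ : ∃ s, s = R.Ψ e₀ + R.K.c.σ (M + R.H w (R.Ψ e₀)) • w := ⟨_, rfl⟩
      have hsu : R.H s (R.Ψ e) = 1 := by
        rw [hs, R.H_add_left, R.H_smul_left, h₀, ha, mul_zero, add_zero]
      have hws : R.H w s = M := by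
        rw [hs, R.H_add_right, R.H_smul_right, R.K.c.invol, hnorm, mul_one]
        linear_combination R.K.add_self (R.H w (R.Ψ e₀))
      obtain ⟨k, hk⟩ : ∃ k : F, k + R.K.c.σ k = R.H s s := by
        rcases R.K.fixed _ (R.H_symm s s).symm with c | c
        · exact ⟨0, by rw [c, map_zero, add_zero]⟩
        · exact ⟨R.K.ω, by rw [c, R.K.sig_w]; linear_combination R.K.add_self R.K.ω⟩
      obtain ⟨v', hv'⟩ : ∃ v', v' = s + k • R.Ψ e := ⟨_, rfl⟩
      have hvu : R.H v' (R.Ψ e) = 1 := by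
        rw [hv', R.H_add_left, R.H_smul_left, hsu, R.H_Ψ_self he, mul_zero, add_zero]
      have hiso : R.H v' v' = 0 := by
        rw [hv', R.H_add_left, R.H_add_right, R.H_add_right, R.H_smul_left, R.H_smul_left, R.H_smul_right,
          R.H_smul_right, R.H_Ψ_self he, hsu, R.H_symm s (R.Ψ e), hsu, map_one]
        linear_combination R.K.add_self (R.H s s) + hk
      obtain ⟨e', he', hΨ⟩ := R.main.2.2 v' hiso fun c => zero_ne_one (by rw [← hvu, c, R.H_zero_left])
      refine ⟨e', he', ?_, Or.inr (by rw [hΨ]; exact hvu)⟩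
      rw [hΨ, hv', R.H_add_right, R.H_smul_right, ha, mul_zero, add_zero, hws]
    · obtain ⟨e', he', -, hΨ⟩ := R.exists_smul he (k := R.K.c.σ (M / R.H w (R.Ψ e)))
        (R.K.sig_ne _ (div_ne_zero hM0 ha))
      refine ⟨e', he', ?_, Or.inl ?_⟩
      · rw [hΨ, R.H_smul_right, R.K.c.invol, div_mul_cancel₀ _ ha]
      · rw [hΨ, R.H_smul_left, R.H_Ψ_self he, mul_zero]
  obtain ⟨hz, hzy, hzv, -⟩ := R.fl_z_ext he'
  have hp := R.tau_opp he hz
  have t0 := test _ hz
  rw [R.al_zero hzy, zero_add, hzv] at t0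
  have hsimple : (Commute (R.tau e (fl (fl x y) e')) y ∨ Commute (R.tau e (fl (fl x y) e')) (fl x y)) ∧
      R.al (R.tau e (fl (fl x y) e')) = 1 + R.H (R.Ψ e') (R.Ψ e) := by
    rcases hh with c | c <;> rw [c] at t0 ⊢
    · have := t0.2.2 (add_zero _)
      exact ⟨Or.inr this, by rw [R.al_one hp this, add_zero]⟩
    · have := t0.1.2 (R.K.add_self 1)
      exact ⟨Or.inl this, by rw [R.al_zero this, R.K.add_self]⟩
  have hc : Commute (R.tau e q) (fl (fl x y) e') := by
    rw [← R.tau_commute he, R.tau_tau he, R.commute_simple hq hp hsimple.1, hsimple.2, R.vq_tau he hz, hzv,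
      R.H_add_right]
    have hσ : R.H (R.Ψ e) (R.Ψ e') = R.H (R.Ψ e') (R.Ψ e) := by
      rw [R.H_symm]
      rcases hh with c | c <;> rw [c]
      · exact map_zero _
      · exact map_one _
    rw [hw, R.vq_tau he hq, R.H_add_left, hσ] at hval
    linear_combination hval - hM + R.K.add_self M
  exact ((R.commute_fl_z_ext htq he').1 hc).symm.trans hval

end CfsgLib.Fischer.CoreTwo.Frame
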