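import Cfsg.Agent.Lib.Fischer.CoreTwo.Lines

/-!
A line has three or five points: the translations of a line minus a point form a regular abelian set of
permutations, and two commuting members outside give incompatible such structures when there are more points.
-/
set_option autoImplicit false
set_option linter.unusedSectionVars false

namespace CfsgLib.Fischer.CoreTwo

open CfsgLib.Fischer

variable {G : Type*} [Group G] [Finite G] {D : Set G} {a b c d p q r s x y t u v w P : G}
variable (h : Hyp D)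
include h

theorem trn_trn (hy : y ∈ D) (hv : v ∈ D) : trn y u v (trn y v s t) = trn y u s t := by
  show fl y (fl u (fl v (fl y (fl y (fl v (fl s (fl y t))))))) = _
  rw [fl_fl h.grp hy, fl_fl h.grp hv]; rfl

theorem trn_self (hy : y ∈ D) (hu : u ∈ D) : trn y u u t = t := by
  show fl y (fl u (fl u (fl y t))) = t
  rw [fl_fl h.grp hu, fl_fl h.grp hy]

theorem trn_inj (hy : y ∈ D) (hu : u ∈ D) (hv : v ∈ D) (e : trn y u v s = trn y u v t) : s = t :=
  fl_inj h.grp hy (fl_inj h.grp hv (fl_inj h.grp hu (fl_inj h.grp hy e)))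

/-- A member opposite to a line, with its point on the line. -/
structure Opp (D : Set G) (x a y P : G) : Prop where
  hx : x ∈ D
  ha : a ∈ perp D x
  hy : y ∈ D
  hP : P ∈ line D x a
  hc : Commute y P
  hno : ∀ t ∈ line D x a, t ≠ P → ¬ Commute y t

theorem opp_of (hx : x ∈ D) (ha : a ∈ perp D x) (hy : y ∈ D) (hP : P ∈ line D x a) (hc : Commute y P)
    (hu : u ∈ line D x a) (hyu : ¬ Commute y u) : Opp D x a y P :=
  ⟨hx, ha, hy, hP, hc, fun _ ht hne e => hne (hit_unique h hx ha hy ht hP e hc hu hyu)⟩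

variable (o : Opp D x a y P)
include o

theorem trn_fix (hu : u ∈ line D x a) (hv : v ∈ line D x a) : trn y u v P = P := by
  have hG := h.grp
  show fl y (fl u (fl v (fl y P))) = P
  rw [fl_of_commute hG o.hy o.hc, fl_of_commute hG hv.1 (commute_of_mem_line o.hx o.ha hv o.hP),
    fl_of_commute hG hu.1 (commute_of_mem_line o.hx o.ha hu o.hP), fl_of_commute hG o.hy o.hc]

theorem opp_mem (hu : u ∈ line D x a) (hv : v ∈ line D x a) (huP : u ≠ P) (hvP : v ≠ P)
    (ht : t ∈ line D x a) : trn y u v t ∈ line D x a := by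
  rcases eq_or_ne u v with rfl | hne
  · rwa [trn_self h o.hy hu.1]
  · exact trn_mem h o.hx o.ha o.hy hu hv hne (o.hno u hu huP) (o.hno v hv hvP) ht

theorem opp_ne (hu : u ∈ line D x a) (hv : v ∈ line D x a) (htP : t ≠ P) : trn y u v t ≠ P := fun e =>
  htP (trn_inj h o.hy hu.1 hv.1 (e.trans (trn_fix h o hu hv).symm))

theorem opp_left (hu : u ∈ line D x a) (hv : v ∈ line D x a) (huP : u ≠ P) (hvP : v ≠ P) :
    trn y u v u = v :=
  trn_left h hu.1 hv.1 (commute_of_mem_line o.hx o.ha hu hv) o.hy (o.hno u hu huP) (o.hno v hv hvP)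

theorem opp_right (hu : u ∈ line D x a) (hv : v ∈ line D x a) (huP : u ≠ P) (hvP : v ≠ P) :
    trn y u v v = u :=
  (trn_comm h hu.1 hv.1 (commute_of_mem_line o.hx o.ha hu hv) v).trans (opp_left h o hv hu hvP huP)

theorem opp_comm (hu : u ∈ line D x a) (hv : v ∈ line D x a) (hs : s ∈ line D x a) (ht : t ∈ line D x a)
    (r : G) : trn y u v (trn y s t r) = trn y s t (trn y u v r) := by
  have hG := h.grp
  have hc : ∀ {p q}, p ∈ line D x a → q ∈ line D x a → Commute p q := fun hp hq =>
    commute_of_mem_line o.hx o.ha hp hq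
  show fl y (fl u (fl v (fl y (fl y (fl s (fl t (fl y r))))))) =
    fl y (fl s (fl t (fl y (fl y (fl u (fl v (fl y r)))))))
  rw [fl_fl hG o.hy, fl_fl hG o.hy, fl_swap hG hv.1 hs.1 (hc hv hs), fl_swap hG hv.1 ht.1 (hc hv ht),
    fl_swap hG hu.1 hs.1 (hc hu hs), fl_swap hG hu.1 ht.1 (hc hu ht)]

/-- The translations are regular. -/
theorem opp_regular (hu : u ∈ line D x a) (hv : v ∈ line D x a) (hs : s ∈ line D x a) (ht : t ∈ line D x a)
    (hr : r ∈ line D x a) (hrP : r ≠ P) (hp : p ∈ line D x a) (hpP : p ≠ P)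
    (e : trn y u v r = trn y s t r) : trn y u v p = trn y s t p := by
  rw [← opp_left h o hr hp hrP hpP, opp_comm h o hu hv hr hp, e, opp_comm h o hr hp hs ht]

omit o

/-- Two commuting members outside a line exchange their translations. -/
theorem exchange (o : Opp D x a y P) {X : G} (o' : Opp D x a d X) (hyd : Commute y d) (hne : X ≠ P)
    (hu : u ∈ line D x a) (hv : v ∈ line D x a) (huv : u ≠ v) (huP : u ≠ P) (hvP : v ≠ P) (huX : u ≠ X)
    (hvX : v ≠ X) : trn d u v (trn y u v X) = P := by
  have hG := h.grp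
  have hcuv := commute_of_mem_line o.hx o.ha hu hv
  have hX : X ∈ line D x a := o'.hP
  have hul : u ∈ perp D X := ⟨hu.1, huX, commute_of_mem_line o.hx o.ha hX hu⟩
  have hdy := o'.hy
  have hdX : d ∈ perp D X := ⟨o'.hy, fun e => o.hno X hX hne (e ▸ hyd), o'.hc.symm⟩
  have hLeq : line D X u = line D x a := line_eq h o.hx o.ha hX hu (Ne.symm huX)
  have hw := opp_mem h o hu hv huP hvP hX
  set wv := trn y u v X with hwv
  set f := fl v (fl u d) with hfdef
  have hfL : f ∈ line D X d := by
    have := kernel_mem h hX.1 hul (hLeq ▸ hv) hvX (Ne.symm huv) hdX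
    rwa [fl_swap hG hu.1 hv.1 hcuv, ← hfdef] at this
  have hdu : ¬ Commute d u := o'.hno u hu huX
  have hdv : ¬ Commute d v := o'.hno v hv hvX
  have hfd : f ≠ d := by
    intro e
    apply huv
    have e1 : fl u d = fl v d := by
      conv_rhs => rw [← e, hfdef, fl_fl hG hv.1]
    rw [fl_braid hG hu.1 hdy fun c => hdu c.symm, fl_braid hG hv.1 hdy fun c => hdv c.symm] at e1
    exact fl_inj hG hdy e1
  have hfy : ¬ Commute f y := fun e => o.hno X hX hne
    (commute_all h hX.1 hdX hfL (right_mem_line hdy) hfd o.hy e.symm hyd (left_mem_line hX.1))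
  have key := key_commute h hu.1 hv.1 hdy o.hy hcuv o'.hc hyd.symm hfy
  rw [← hwv] at key
  have e : fl d (fl f wv) = trn d u v wv := by
    rw [hfdef, fl_conj, fl_conj, fl_of_commute hG hv.1 (commute_of_mem_line o.hx o.ha hv hw),
      fl_of_commute hG hu.1 (commute_of_mem_line o.hx o.ha hu hw)]
    exact (congrArg (fl d) (fl_swap hG hv.1 hu.1 hcuv.symm _))
  rw [← hfdef, e] at key
  by_contra hcon
  exact o.hno _ (opp_mem h o' hu hv huX hvX hw) hcon key.symm

theorem line_bound (hx : x ∈ D) (hP : P ∈ perp D x) (hy : y ∈ D) (hyP : Commute y P) (hyx : ¬ Commute y x)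
    (hd : d ∈ D) (hdx : Commute d x) (hdy : Commute d y) (hdP : ¬ Commute d P)
    (ha : a ∈ line D x P) (hb : b ∈ line D x P) (hab : a ≠ b) (hax : a ≠ x) (haP : a ≠ P) (hbx : b ≠ x)
    (hbP : b ≠ P) : (line D x P).ncard = 5 := by
  have hL1 := left_mem_line (D := D) (b := P) hx
  have hL2 := right_mem_line (D := D) (a := x) hP.1
  have oy := opp_of h hx hP hy hL2 hyP hL1 hyx
  have od := opp_of h hx hP hd hL1 hdx hL2 hdP
  have hydp : d ∈ perp D y := ⟨hd, fun e => hdP (e ▸ hyP), hdy.symm⟩
  obtain ⟨e, he, hea⟩ := exists_hit h hy hydp ha.1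
  have hey : Commute e y := commute_of_mem_line hy hydp he (left_mem_line hy)
  have hed : Commute e d := commute_of_mem_line hy hydp he (right_mem_line hd)
  have hne_y : e ≠ y := by rintro rfl; exact oy.hno a ha haP hea
  have hne_d : e ≠ d := by rintro rfl; exact od.hno a ha hax hea
  have hex : ¬ Commute e x := fun c => hyx (commute_all h hy hydp he (right_mem_line hd) hne_d hx c.symm
    hdx.symm (left_mem_line hy)).symm
  have oe := opp_of h hx hP he.1 ha hea hL1 hex
  set wv := trn y a b x with hwdef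
  have hw : wv ∈ line D x P := opp_mem h oy ha hb haP hbP hL1
  have hwP : wv ≠ P := opp_ne h oy ha hb (Ne.symm hP.2.1)
  have hwa : wv ≠ a := fun e => hbx (trn_inj h hy ha.1 hb.1 ((opp_right h oy ha hb haP hbP).trans e.symm))
  have hwb : wv ≠ b := fun e => hax (trn_inj h hy ha.1 hb.1 ((opp_left h oy ha hb haP hbP).trans e.symm))
  have hwx : wv ≠ x := by
    intro e
    apply hab
    have h1 : trn y a b x = trn y a a x := e.trans (trn_self h hy ha.1).symm
    have := opp_regular h oy ha hb ha ha hL1 (Ne.symm hP.2.1) ha haP h1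
    rw [opp_left h oy ha hb haP hbP, trn_self h hy ha.1] at this
    exact this.symm
  have hset : line D x P = {P, x, a, b, wv} := by
    refine Set.Subset.antisymm (fun c hc => ?_) ?_
    · simp only [Set.mem_insert_iff, Set.mem_singleton_iff]
      by_contra hcon
      push Not at hcon
      obtain ⟨hcP, hcx, hca, hcb, hcw⟩ := hcon
      have hcomm : ∀ {p q}, p ∈ line D x P → q ∈ line D x P → Commute p q := fun hp hq =>
        commute_of_mem_line hx hP hp hq
      -- the value of the first triple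
      set t1 := trn y a b c with ht1
      have k2 : trn e b c t1 = P := by
        have hyb := oy.hno b hb hbP
        have hyc := oy.hno c hc hcP
        have hya := oy.hno a ha haP
        have := exchange h oy oe hey.symm haP hb hc (Ne.symm hcb) hbP hcP (Ne.symm hab) hca
        rwa [trn_perm h hy hc.1 ha.1 (hcomm hc ha) hyc hya, trn_comm h hb.1 ha.1 (hcomm hb ha), ← ht1] at this
      -- the value of the second triple
      have k3 : trn e b c (trn d a b c) = x := by
        have hdb := od.hno b hb hbx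
        have hdc := od.hno c hc hcx
        have hda := od.hno a ha hax
        have := exchange h od oe hed.symm hax hb hc (Ne.symm hcb) hbx hcx (Ne.symm hab) hca
        rwa [trn_perm h hd hc.1 ha.1 (hcomm hc ha) hdc hda, trn_comm h hb.1 ha.1 (hcomm hb ha)] at this
      -- the triples have the same value
      have e1 : trn d a b wv = P := exchange h oy od hdy.symm (Ne.symm hP.2.1) ha hb hab haP hbP hax hbx
      have e2 : trn d a b P = wv := trn_inj h hd ha.1 hb.1 (by
        rw [e1]
        show trn d a b (trn d a b P) = P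
        rw [trn_comm h ha.1 hb.1 (hcomm ha hb) (trn d a b P), trn_comm h ha.1 hb.1 (hcomm ha hb) P]
        rw [trn_comm h hb.1 ha.1 (hcomm hb ha) (trn d b a P), trn_trn h hd hb.1, trn_self h hd ha.1])
      have e3 : trn d a b c = trn d P wv c :=
        opp_regular h od ha hb hL2 hw hL2 hP.2.1 hc hcx
          (e2.trans (opp_left h od hL2 hw hP.2.1 hwx).symm)
      have e4 : trn d c wv (trn y c wv x) = P :=
        exchange h oy od hdy.symm (Ne.symm hP.2.1) hc hw hcw hcP hwP hcx hwx
      have e5 : trn y c wv x = trn y a b c := by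
        rw [trn_perm h hy hw.1 hL1.1 (hcomm hw hL1) (oy.hno _ hw hwP) (oy.hno _ hL1 (Ne.symm hP.2.1)),
          trn_comm h hc.1 hL1.1 (hcomm hc hL1), trn_perm h hy hc.1 hw.1 (hcomm hc hw) (oy.hno _ hc hcP)
          (oy.hno _ hw hwP)]
        refine opp_regular h oy hL1 hw ha hb hL1 (Ne.symm hP.2.1) hc hcP ?_
        rw [opp_left h oy hL1 hw (Ne.symm hP.2.1) hwP, hwdef]
      have e6 : trn d c wv P = trn y a b c := by
        apply trn_inj h hd hc.1 hw.1
        rw [← e5, e4, trn_comm h hc.1 hw.1 (hcomm hc hw) (trn d c wv P), trn_trn h hd hc.1, trn_self h hd hw.1]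
      have e7 : trn d P wv c = trn d c wv P := by
        rw [trn_comm h hL2.1 hw.1 (hcomm hL2 hw), trn_perm h hd hL2.1 hc.1 (hcomm hL2 hc)
          (od.hno _ hL2 hP.2.1) (od.hno _ hc hcx), trn_comm h hw.1 hc.1 (hcomm hw hc)]
      rw [e3, e7, e6, ← ht1, k2] at k3
      exact hP.2.1 k3
    · intro c hc
      simp only [Set.mem_insert_iff, Set.mem_singleton_iff] at hc
      rcases hc with rfl | rfl | rfl | rfl | rfl
      exacts [hL2, hL1, ha, hb, hw]
  rw [hset, Set.ncard_insert_of_notMem (by simp [hP.2.1, Ne.symm haP, Ne.symm hbP, Ne.symm hwP]),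
    Set.ncard_insert_of_notMem (by simp [Ne.symm hax, Ne.symm hbx, Ne.symm hwx]),
    Set.ncard_insert_of_notMem (by simp [hab, Ne.symm hwa]),
    Set.ncard_insert_of_notMem (by simp [Ne.symm hwb]), Set.ncard_singleton]

theorem exists_not_commute (hx : x ∈ D) (ha : a ∈ perp D x) : ∃ y ∈ D, ¬ Commute x y := by
  by_contra hno
  push Not at hno
  refine ha.2.1 (h.ext a ha.1 x hx fun e he => iff_of_true ?_ (hno e he))
  obtain ⟨g, rfl⟩ := h.conjugate x hx a ha.1
  have e1 : e = g * (g⁻¹ * e * g) * g⁻¹ := by group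
  rw [e1] at he ⊢
  exact (conj_commute_iff g x _).2 (hno _ ((conj_iff h.grp g).1 he))

theorem exists_not_commute_perp (hx : x ∈ D) (ha : a ∈ perp D x) : ∃ q ∈ perp D x, ¬ Commute a q := by
  by_contra hno
  push Not at hno
  obtain ⟨b, hb, hbx, hba⟩ := exists_third h hx ha
  obtain ⟨k, hk, e⟩ := h.trans x hx a ha b (mem_line_perp h hx ha hb hbx)
  have hc : Commute k a := Subgroup.mem_centralizer_singleton_iff.1
    ((Subgroup.closure_le _).2 (fun s hs => Subgroup.mem_centralizer_singleton_iff.2 (hno s hs).symm.eq) hk)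
  rw [hc.eq, mul_inv_cancel_right] at e
  exact hba e.symm

/-- A line has three or five points. -/
theorem line_card (hx : x ∈ D) (ha : a ∈ perp D x) :
    (line D x a).ncard = 3 ∨ (line D x a).ncard = 5 := by
  obtain ⟨y, hy, hxy⟩ := exists_not_commute h hx ha
  obtain ⟨P, hP, hPy⟩ := exists_hit h hx ha hy
  have hPx : P ≠ x := by rintro rfl; exact hxy hPy
  have hPp := mem_line_perp h hx ha hP hPx
  rw [← line_eq h hx ha (left_mem_line hx) hP (Ne.symm hPx)]
  obtain ⟨q, hq, hqP⟩ := exists_not_commute_perp h hx hPp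
  obtain ⟨d, hd, hdy⟩ := exists_hit h hx hq hy
  have hdx : d ≠ x := by rintro rfl; exact hxy hdy
  have hdp := mem_line_perp h hx hq hd hdx
  have hdP : ¬ Commute d P := fun e => hqP
    (commute_all h hx hq (left_mem_line hx) hd (Ne.symm hdx) hPp.1 hPp.2.2.symm e.symm (right_mem_line hq.1))
  obtain ⟨c, hc, hcx, hcP⟩ := exists_third h hx hPp
  by_cases hall : line D x P ⊆ {x, P, c}
  · left
    have hsub : ({x, P, c} : Set G) ⊆ line D x P := by
      rintro t (rfl | rfl | rfl)
      exacts [left_mem_line hx, right_mem_line hPp.1, hc]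
    rw [Set.Subset.antisymm hall hsub, Set.ncard_insert_of_notMem (by simp [Ne.symm hPx, Ne.symm hcx]),
      Set.ncard_insert_of_notMem (by simp [Ne.symm hcP]), Set.ncard_singleton]
  · obtain ⟨b, hb, hb'⟩ := Set.not_subset.1 hall
    simp only [Set.mem_insert_iff, Set.mem_singleton_iff, not_or] at hb'
    exact Or.inr (line_bound h hx hPp hy hPy.symm (fun e => hxy e.symm) hdp.1 hdp.2.2.symm hdy hdP hc hb
      (Ne.symm hb'.2.2) hcx hcP hb'.1 hb'.2.1)

end CfsgLib.Fischer.CoreTwo
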