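import Cfsg.Agent.Lib.Fischer.CoreTwo.Points
import Mathlib.Combinatorics.Enumerative.DoubleCounting

/-!
Counting the members not commuting with `x`: every one has a vector, two have the same, and every non-zero isotropic
vector belongs to a point.
-/
set_option autoImplicit false
set_option linter.unusedSectionVars false

namespace CfsgLib.Fischer.CoreTwo.Frame

open CfsgLib.Fischer CfsgLib.Fischer.CoreTwo

variable {G : Type*} [Group G] [Finite G] {D : Set G} {x y a d e e' p q t u v : G}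
variable {F : Type} [Field F] [Fintype F] (R : Frame D x y F)
include R

theorem exists_vec_mem (K : Subgroup G) (hy : y ∈ K) (hK : perp D x ⊆ (K : Set G)) (w : Fin R.m → F) :
    ∃ q ∈ R.opp, q ∈ K ∧ R.Vec q w := by
  suffices ∀ (k : F) (q : G) (w0 : Fin R.m → F), q ∈ R.opp → q ∈ K → R.Vec q w0 →
      ∃ q' ∈ R.opp, q' ∈ K ∧ R.Vec q' (w0 + k • w) by
    simpa using this 1 y 0 R.y_opp hy R.vec_y
  have hw : w ∈ Submodule.span F (R.Ψ '' ext' D x y) := R.span ▸ Submodule.mem_top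
  induction hw using Submodule.span_induction with
  | mem s hs =>
    obtain ⟨e, he, rfl⟩ := hs
    intro k q w0 hq hqK hv
    rcases eq_or_ne k 0 with rfl | hk
    · exact ⟨q, hq, hqK, by rwa [zero_smul, add_zero]⟩
    obtain ⟨e', he', -, h⟩ := R.exists_smul he hk
    refine ⟨R.tau e' q, R.tau_opp he' hq, ?_, h ▸ R.vec_tau he' hv⟩
    have h1 := hK he'.1
    have h2 := hK (bp_phi_mem R.base he'.1).1
    exact mul_mem (mul_mem h1 (mul_mem (mul_mem h2 hqK) h2)) h1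
  | zero => intro k q w0 hq hqK hv; exact ⟨q, hq, hqK, by rwa [smul_zero, add_zero]⟩
  | add a b _ _ iha ihb =>
    intro k q w0 hq hqK hv
    obtain ⟨q1, h1, k1, v1⟩ := iha k q w0 hq hqK hv
    obtain ⟨q2, h2, k2, v2⟩ := ihb k q1 _ h1 k1 v1
    exact ⟨q2, h2, k2, by rwa [smul_add, ← add_assoc]⟩
  | smul l a _ iha =>
    intro k q w0 hq hqK hv
    obtain ⟨q1, h1, k1, v1⟩ := iha (k * l) q w0 hq hqK hv
    exact ⟨q1, h1, k1, by rwa [smul_smul]⟩

theorem exists_vec (w : Fin R.m → F) : ∃ q ∈ R.opp, R.Vec q w := by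
  obtain ⟨q, hq, -, hv⟩ := R.exists_vec_mem ⊤ (Subgroup.mem_top y) (fun t _ => Subgroup.mem_top t) w
  exact ⟨q, hq, hv⟩

/-- The blocks not commuting with a block. -/
def nb (_R : Frame D x y F) (u : G) : Set G := {v | v ∈ phi D x y ∧ ¬ Commute u v}

theorem pt_mate_inj {d d' : G} (hd : d ∈ phi D x y) (hd' : d' ∈ phi D x y) {k k' : F}
    (h : R.pt (R.mate d) k = R.pt (R.mate d') k') : d = d' ∧ k = k' := by
  obtain ⟨h1, h2⟩ := R.mate_spec hd
  obtain ⟨h1', h2'⟩ := R.mate_spec hd'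
  have e1 : d = d' := by
    have := (R.pt_perp h1 k).2
    rw [h, (R.pt_perp h1' k').2, h2, h2'] at this
    exact this.symm
  subst e1
  exact ⟨rfl, R.pt_inj h1 h⟩

theorem ncard_sub (s : Set G) (hs : s ⊆ phi D x y) :
    {p | p ∈ perp D x ∧ bp D x y p ∈ s}.ncard = s.ncard * 4 := by
  classical
  have e : {p | p ∈ perp D x ∧ bp D x y p ∈ s} =
      (fun dk : G × F => R.pt (R.mate dk.1) dk.2) '' (s ×ˢ Set.univ) := by
    ext p
    constructor
    · rintro ⟨hp, hb⟩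
      obtain ⟨h1, h2⟩ := R.mate_spec (hs hb)
      obtain ⟨k, hk⟩ := R.pt_surj h1 hp h2.symm
      exact ⟨(bp D x y p, k), ⟨hb, Set.mem_univ _⟩, hk⟩
    · rintro ⟨⟨d, k⟩, ⟨hd, -⟩, rfl⟩
      obtain ⟨h1, h2⟩ := R.mate_spec (hs hd)
      obtain ⟨h3, h4⟩ := R.pt_perp h1 k
      exact ⟨h3, by rw [h4, h2]; exact hd⟩
  rw [e, Set.InjOn.ncard_image, Set.ncard_prod, Set.ncard_univ, Nat.card_eq_fintype_card, R.K.card]
  rintro ⟨d, k⟩ ⟨hd, -⟩ ⟨d', k'⟩ ⟨hd', -⟩ h
  obtain ⟨rfl, rfl⟩ := R.pt_mate_inj (hs hd) (hs hd') h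
  rfl

theorem ncard_perp : (perp D x).ncard = (phi D x y).ncard * 4 := by
  rw [← R.ncard_sub _ Set.Subset.rfl]
  congr 1
  ext p
  exact ⟨fun hp => ⟨hp, bp_phi_mem R.base hp⟩, fun hp => hp.1⟩

theorem ncard_nc (hu : u ∈ phi D x y) :
    {p | p ∈ perp D x ∧ ¬ Commute u p}.ncard = (R.nb u).ncard * 4 := by
  rw [← R.ncard_sub (R.nb u) fun v hv => hv.1]
  congr 1
  ext p
  refine and_congr_right fun hp => ⟨fun h => ⟨bp_phi_mem R.base hp, fun c => h ?_⟩, fun h c => h.2 ?_⟩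
  · exact ((commute_bp_left R.base hp hu.1.1 hu.1.2.2.symm).1 c.symm).symm
  · exact ((commute_bp_left R.base hp hu.1.1 hu.1.2.2.symm).2 c.symm).symm

theorem nc_const (hu : u ∈ phi D x y) (hp : p ∈ perp D x) :
    {t | t ∈ perp D x ∧ ¬ Commute p t}.ncard = {t | t ∈ perp D x ∧ ¬ Commute u t}.ncard := by
  have hG := R.grp
  obtain ⟨k, hk, e⟩ := R.base.hyp.trans x R.base.hx u hu.1 p hp
  have hset : {t | t ∈ perp D x ∧ ¬ Commute p t} =
      (fun t => k * t * k⁻¹) '' {t | t ∈ perp D x ∧ ¬ Commute u t} := by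
    ext t
    constructor
    · rintro ⟨ht, hn⟩
      refine ⟨k⁻¹ * t * k, ⟨?_, fun c => hn ?_⟩, by group⟩
      · have := Transitivity.perp_conj_mem hG (inv_mem hk) ht
        rwa [inv_inv] at this
      · rw [← e, show t = k * (k⁻¹ * t * k) * k⁻¹ by group, conj_commute_iff]
        exact c
    · rintro ⟨s, ⟨hs, hn⟩, rfl⟩
      exact ⟨Transitivity.perp_conj_mem hG hk hs, fun c => hn ((conj_commute_iff k u s).1 (e ▸ c))⟩
  rw [hset, Set.ncard_image_of_injective _ fun s s' h => Transitivity.conj_injective (g := k) h]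

theorem ncard_opp (hu : u ∈ phi D x y) : R.opp.ncard = (R.nb u).ncard * 16 := by
  classical
  haveI := Fintype.ofFinite G
  have B := R.base
  have hG := R.grp
  let r : G → G → Prop := fun q p => Commute q p
  have hm : ∀ q ∈ R.opp.toFinset, ((perp D x).toFinset.bipartiteAbove r q).card = (phi D x y).ncard := by
    intro q hq
    rw [Set.mem_toFinset] at hq
    rw [← Set.ncard_coe_finset]
    have hh : ∀ d, d ∈ phi D x y → ∃ t ∈ line D x d, Commute t q := fun d hd => exists_hit B.hyp B.hx hd.1 hq.1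
    choose hit hit1 hit2 using hh
    have hp : ∀ d hd, hit d hd ∈ perp D x ∧ bp D x y (hit d hd) = d := fun d hd => by
      have hne : hit d hd ≠ x := fun c => hq.2 (by rw [← c]; exact hit2 d hd)
      exact ⟨mem_line_perp B.hyp B.hx hd.1 (hit1 d hd) hne,
        (bp_same B hd.1 (hit1 d hd) hne).trans (bp_self B hd)⟩
    refine (Set.ncard_congr hit (fun d hd => ?_) (fun d d' hd hd' h => ?_) fun p hp' => ?_).symm
    · simp only [Finset.coe_bipartiteAbove, Set.coe_toFinset, Set.mem_setOf_eq, Set.mem_toFinset]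
      exact ⟨(hp d hd).1, (hit2 d hd).symm⟩
    · rw [← (hp d hd).2, ← (hp d' hd').2, h]
    · simp only [Finset.coe_bipartiteAbove, Set.coe_toFinset, Set.mem_setOf_eq, Set.mem_toFinset] at hp'
      refine ⟨bp D x y p, bp_phi_mem B hp'.1, hit_unique B.hyp B.hx hp'.1 hq.1 ?_ (right_mem_line hp'.1.1)
        (hit2 _ _).symm hp'.2 (left_mem_line B.hx) fun c => hq.2 c.symm⟩
      rw [← bp_line B hp'.1]
      exact hit1 _ _
  have hn : ∀ p ∈ (perp D x).toFinset, (R.opp.toFinset.bipartiteBelow r p).card =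
      {t | t ∈ perp D x ∧ ¬ Commute u t}.ncard := by
    intro p hp
    rw [Set.mem_toFinset] at hp
    rw [← R.nc_const hu hp, ← Set.ncard_coe_finset, Finset.coe_bipartiteBelow]
    simp only [Set.mem_toFinset]
    obtain ⟨g, g1, g2⟩ := exists_move B.hyp B.hx hp hp.1 (q := x) ⟨B.hx, Ne.symm hp.2.1, hp.2.2.symm⟩
    have : {q | q ∈ R.opp ∧ r q p} = (fun t => g * t * g⁻¹) '' {t | t ∈ perp D x ∧ ¬ Commute p t} := by
      ext q
      constructor
      · rintro ⟨hq, hqp⟩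
        refine ⟨g⁻¹ * q * g, ⟨⟨(conj_iff hG g).1 (by
          rw [show g * (g⁻¹ * q * g) * g⁻¹ = q by group]; exact hq.1), fun c => hq.2 ?_, ?_⟩, fun c => hq.2 ?_⟩, by group⟩
        · rw [show q = g * (g⁻¹ * q * g) * g⁻¹ by group, c, g1]; exact hp.2.2
        · rw [← conj_commute_iff g x, g1, show g * (g⁻¹ * q * g) * g⁻¹ = q by group]
          exact hqp.symm
        · rw [← conj_commute_iff g p, g2, show g * (g⁻¹ * q * g) * g⁻¹ = q by group] at c
          exact c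
      · rintro ⟨t, ⟨ht, hn⟩, rfl⟩
        refine ⟨⟨hG.2.1 g t ht.1, fun c => hn ?_⟩, ?_⟩
        · rw [← g2, conj_commute_iff] at c; exact c
        · show Commute (g * t * g⁻¹) p
          have := (conj_commute_iff g t x).2 ht.2.2.symm
          rwa [g1] at this
    rw [this, Set.ncard_image_of_injective _ fun s s' h => Transitivity.conj_injective (g := g) h]
  have key := Finset.card_mul_eq_card_mul r hm hn
  rw [← Set.ncard_eq_toFinset_card', ← Set.ncard_eq_toFinset_card', R.ncard_perp, R.ncard_nc hu] at key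
  have hpos : 0 < (phi D x y).ncard := (Set.ncard_pos (Set.toFinite _)).2 ⟨u, hu⟩
  exact Nat.eq_of_mul_eq_mul_right hpos (by rw [key]; ring)

theorem exists_norm (he : e ∈ ext' D x y) (hv : v ∈ R.nb (bp D x y e)) :
    ∃ e' ∈ ext' D x y, bp D x y e' = v ∧ R.H (R.Ψ e') (R.Ψ e) = 1 := by
  obtain ⟨h1, h2⟩ := R.mate_spec hv.1
  have hne : R.H (R.Ψ (R.mate v)) (R.Ψ e) ≠ 0 := fun h => hv.2
    (h2 ▸ ((commute_bp R.base h1.1 he.1).2 ((R.H_Ψ_zero h1 he).1 h)).symm)
  obtain ⟨e', he', hb, hΨ⟩ := R.exists_smul h1 (inv_ne_zero hne)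
  exact ⟨e', he', hb.trans h2, by rw [hΨ, R.H_smul_left, inv_mul_cancel₀ hne]⟩

theorem main : (∀ q ∈ R.opp, ∃ w, R.Vec q w) ∧
    (∀ q ∈ R.opp, ∀ q' ∈ R.opp, ∀ w, R.Vec q w → R.Vec q' w → q' = q ∨ q' = fl x q) ∧
    (∀ w, R.H w w = 0 → w ≠ 0 → ∃ e ∈ ext' D x y, R.Ψ e = w) := by
  classical
  choose qw hqw1 hqw2 using R.exists_vec
  let f : (Fin R.m → F) × Bool → G := fun wb => cond wb.2 (fl x (qw wb.1)) (qw wb.1)
  have hfm : ∀ wb, f wb ∈ R.opp ∧ R.Vec (f wb) wb.1 := by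
    rintro ⟨w, _ | _⟩
    exacts [⟨hqw1 w, hqw2 w⟩, ⟨R.fl_x_opp (hqw1 w), R.vec_fl_x (hqw2 w)⟩]
  have hfinj : Function.Injective f := by
    rintro ⟨w, b⟩ ⟨w', b'⟩ h
    obtain rfl : w = w' := R.vec_unique (hfm (w, b)).1 (hfm _).2 (h ▸ (hfm (w', b')).2)
    rcases b <;> rcases b'
    · rfl
    · exact absurd h.symm (R.fl_x_ne (hqw1 w))
    · exact absurd h (R.fl_x_ne (hqw1 w))
    · rfl
  have hsub : Set.range f ⊆ R.opp := by rintro _ ⟨wb, rfl⟩; exact (hfm wb).1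
  have hrange : (Set.range f).ncard = Nat.card (Fin R.m → F) * 2 := by
    rw [← Nat.card_coe_set_eq, Nat.card_range_of_injective hfinj, Nat.card_prod]
    simp
  have fibre : ∀ e₀ ∈ ext' D x y, (Set.range f = R.opp) ∧
      ∀ w, R.H w w = 0 → R.H w (R.Ψ e₀) = 1 → ∃ e ∈ ext' D x y, R.Ψ e = w := by
    intro e₀ he₀
    set Z : Set (Fin R.m → F) := {w | R.H w (R.Ψ e₀) = 1} with hZdef
    have hne := R.Ψ_ne he₀
    obtain ⟨v1, hv1⟩ : ∃ v, R.H v (R.Ψ e₀) = 1 := by
      obtain ⟨v, hv, hn⟩ := exists_ncomm R.base (bp_phi_mem R.base he₀.1)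
      obtain ⟨e', he', -, h⟩ := R.exists_norm he₀ (⟨hv, hn⟩ : v ∈ R.nb (bp D x y e₀))
      exact ⟨_, h⟩
    have hcardZ : Nat.card (Fin R.m → F) = 4 * Z.ncard := by
      rw [← Nat.card_coe_set_eq, ← R.K.card, ← Nat.card_eq_fintype_card, ← Nat.card_prod]
      refine Nat.card_congr
        { toFun := fun w => (R.H w (R.Ψ e₀), ⟨w + (R.H w (R.Ψ e₀) + 1) • v1, ?_⟩)
          invFun := fun aw => aw.2 + (aw.1 + 1) • v1
          left_inv := fun w => ?_
          right_inv := fun aw => ?_ }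
      · show R.H _ _ = 1
        rw [R.H_add_left, R.H_smul_left, hv1, mul_one, ← add_assoc, R.K.add_self, zero_add]
      · show w + _ + _ = w
        rw [add_assoc, ← add_smul, R.K.add_self, zero_smul, add_zero]
      · obtain ⟨k, ⟨w, hw⟩⟩ := aw
        have hw' : R.H w (R.Ψ e₀) = 1 := hw
        have e1 : R.H (w + (k + 1) • v1) (R.Ψ e₀) = k := by
          rw [R.H_add_left, R.H_smul_left, hv1, hw', mul_one, add_comm k 1, ← add_assoc, R.K.add_self, zero_add]
        refine Prod.ext e1 (Subtype.ext ?_)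
        show w + (k + 1) • v1 + (R.H (w + (k + 1) • v1) (R.Ψ e₀) + 1) • v1 = w
        rw [e1, add_assoc, ← add_smul, R.K.add_self, zero_smul, add_zero]
    choose g hg1 hg2 hg3 using fun v : R.nb (bp D x y e₀) => R.exists_norm he₀ v.2
    let i : R.nb (bp D x y e₀) × Bool → (Fin R.m → F) := fun vb =>
      cond vb.2 (R.Ψ (g vb.1) + R.K.ω • R.Ψ e₀) (R.Ψ (g vb.1))
    have hnorm : ∀ v, R.H (R.Ψ (g v) + R.K.ω • R.Ψ e₀) (R.Ψ (g v) + R.K.ω • R.Ψ e₀) = 1 := fun v => by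
      rw [R.H_add_left, R.H_add_right, R.H_add_right, R.H_smul_left, R.H_smul_left, R.H_smul_right,
        R.H_smul_right, R.H_Ψ_self (hg1 v), R.H_Ψ_self he₀, hg3, R.H_symm (R.Ψ (g v)) (R.Ψ e₀), hg3, map_one,
        R.K.sig_w]
      linear_combination R.K.add_self R.K.ω
    have hi : ∀ vb, i vb ∈ Z := by
      rintro ⟨v, _ | _⟩
      · exact hg3 v
      · show R.H (R.Ψ (g v) + R.K.ω • R.Ψ e₀) _ = 1
        rw [R.H_add_left, R.H_smul_left, hg3, R.H_Ψ_self he₀, mul_zero, add_zero]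
    have hiinj : Function.Injective i := by
      rintro ⟨v, b⟩ ⟨v', b'⟩ h
      have key : ∀ v v', R.Ψ (g v) = R.Ψ (g v') → v = v' := fun v v' h =>
        Subtype.ext ((hg2 v).symm.trans ((congrArg _ (R.Ψ_inj (hg1 v) (hg1 v') h)).trans (hg2 v')))
      rcases b <;> rcases b' <;> simp only [i, cond_true, cond_false] at h
      · rw [key _ _ h]
      · have := hnorm v'
        rw [← h, R.H_Ψ_self (hg1 v)] at this
        exact absurd this zero_ne_one
      · have := hnorm v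
        rw [h, R.H_Ψ_self (hg1 v')] at this
        exact absurd this zero_ne_one
      · rw [key _ _ (add_right_cancel h)]
    have hisub : Set.range i ⊆ Z := by rintro _ ⟨vb, rfl⟩; exact hi vb
    have hir : (Set.range i).ncard = (R.nb (bp D x y e₀)).ncard * 2 := by
      rw [← Nat.card_coe_set_eq, Nat.card_range_of_injective hiinj, Nat.card_prod, Nat.card_coe_set_eq]
      simp
    have h1 := Set.ncard_le_ncard hisub (Set.toFinite _)
    have h2 := Set.ncard_le_ncard hsub (Set.toFinite _)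
    rw [hrange, R.ncard_opp (bp_phi_mem R.base he₀.1)] at h2
    rw [hir] at h1
    refine ⟨Set.eq_of_subset_of_ncard_le hsub
      (by rw [hrange, R.ncard_opp (bp_phi_mem R.base he₀.1)]; omega) (Set.toFinite _), fun w hw hw1 => ?_⟩
    have heq := Set.eq_of_subset_of_ncard_le hisub (by rw [hir]; omega) (Set.toFinite _)
    obtain ⟨⟨v, b⟩, rfl⟩ : w ∈ Set.range i := heq ▸ (hw1 : w ∈ Z)
    rcases b
    · exact ⟨g v, hg1 v, rfl⟩
    · exact absurd ((hnorm v).symm.trans hw).symm zero_ne_one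
  obtain ⟨d₀, hd₀, hd₀y⟩ := exists_common R.base.hyp R.base.hx R.base.hy R.base.hxy
  obtain ⟨hm, -⟩ := R.mate_spec (⟨hd₀, hd₀y⟩ : d₀ ∈ phi D x y)
  have hA := (fibre _ hm).1
  refine ⟨fun q hq => ?_, fun q hq q' hq' w hw hw' => ?_, fun w hw hw0 => ?_⟩
  · obtain ⟨wb, rfl⟩ := hA.symm ▸ hq
    exact ⟨_, (hfm wb).2⟩
  · obtain ⟨⟨a, b⟩, rfl⟩ := hA.symm ▸ hq
    obtain ⟨⟨a', b'⟩, rfl⟩ := hA.symm ▸ hq'
    obtain rfl := R.vec_unique hq hw (hfm (a, b)).2
    obtain rfl := R.vec_unique hq' hw' (hfm (a', b')).2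
    rcases b <;> rcases b'
    exacts [Or.inl rfl, Or.inr rfl, Or.inr (fl_fl R.grp R.base.hx _).symm, Or.inl rfl]
  · obtain ⟨e₁, he₁, hne⟩ : ∃ e₁ ∈ ext' D x y, R.H w (R.Ψ e₁) ≠ 0 := by
      by_contra hno
      push Not at hno
      exact hw0 (R.vec_ext fun e he => by rw [hno e he, R.H_zero_left])
    obtain ⟨e₂, he₂, -, h⟩ := R.exists_smul he₁ (k := R.K.c.σ (R.H w (R.Ψ e₁))⁻¹)
      (R.K.sig_ne _ (inv_ne_zero hne))
    exact (fibre e₂ he₂).2 w hw (by rw [h, R.H_smul_right, R.K.c.invol, inv_mul_cancel₀ hne])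

end CfsgLib.Fischer.CoreTwo.Frame
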