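import Cfsg.Agent.Lib.Fischer.Transitivity

/-!
Conjugation by members of a class of 3-transpositions, and lines: the members commuting with everything commuting
with two given commuting members.
-/
set_option autoImplicit false

namespace CfsgLib.Fischer.CoreTwo

open CfsgLib.Fischer

set_option linter.unusedSectionVars false

variable {G : Type*} [Group G] {D : Set G} {a b p q x y t u v : G}

/-- Conjugation by an involution. -/
def fl (a t : G) : G := a * t * a

/-- The members commuting with two members. -/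
def com (D : Set G) (a b : G) : Set G := {t | t ∈ D ∧ Commute t a ∧ Commute t b}

/-- The members commuting with all members commuting with two members. -/
def line (D : Set G) (a b : G) : Set G := {t | t ∈ D ∧ ∀ s ∈ com D a b, Commute t s}

theorem com_comm (a b : G) : com D a b = com D b a := by
  ext t; exact ⟨fun h => ⟨h.1, h.2.2, h.2.1⟩, fun h => ⟨h.1, h.2.2, h.2.1⟩⟩

theorem line_comm (a b : G) : line D a b = line D b a := by rw [line, line, com_comm]

theorem left_mem_line (ha : a ∈ D) : a ∈ line D a b := ⟨ha, fun _ hs => hs.2.1.symm⟩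

theorem right_mem_line (hb : b ∈ D) : b ∈ line D a b := ⟨hb, fun _ hs => hs.2.2.symm⟩

theorem commute_of_mem_line (hx : x ∈ D) (ha : a ∈ perp D x) (hu : u ∈ line D x a) (hv : v ∈ line D x a) :
    Commute u v := by
  have hxa : x ∈ com D x a := ⟨hx, Commute.refl x, ha.2.2⟩
  have haa : a ∈ com D x a := ⟨ha.1, ha.2.2.symm, Commute.refl a⟩
  exact hu.2 v ⟨hv.1, hv.2 x hxa, hv.2 a haa⟩

variable (hD : Cfsg.IsThreeTranspositionGroup D)
include hD

theorem fl_fl (ha : a ∈ D) (t : G) : fl a (fl a t) = t := by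
  show a * (a * t * a) * a = t
  rw [show a * (a * t * a) * a = a * a * t * (a * a) by group, sq_eq_one hD.1 ha, one_mul, mul_one]

theorem fl_mem (ha : a ∈ D) (ht : t ∈ D) : fl a t ∈ D := CfsgLib.Fischer.conj_mem hD ha ht

theorem fl_mem_iff (ha : a ∈ D) : fl a t ∈ D ↔ t ∈ D :=
  ⟨fun h => fl_fl hD ha t ▸ fl_mem hD ha h, fl_mem hD ha⟩

theorem fl_of_commute (ha : a ∈ D) (h : Commute a t) : fl a t = t := by
  show a * t * a = t
  rw [h.eq, mul_assoc, sq_eq_one hD.1 ha, mul_one]

theorem commute_of_fl_eq (ha : a ∈ D) (h : fl a t = t) : Commute a t := by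
  show a * t = t * a
  conv_rhs => rw [← h]
  show a * t = a * t * a * a
  rw [mul_assoc (a * t), sq_eq_one hD.1 ha, mul_one]

theorem fl_braid (ha : a ∈ D) (hb : b ∈ D) (h : ¬ Commute a b) : fl a b = fl b a := braid hD.1 ha hb h

theorem fl_commute_iff (ha : a ∈ D) : Commute (fl a t) (fl a u) ↔ Commute t u := by
  have := conj_commute_iff a t u
  rwa [inv_eq hD.1 ha] at this

theorem commute_fl_iff (ha : a ∈ D) : Commute (fl a t) u ↔ Commute t (fl a u) := by
  conv_lhs => rw [← fl_fl hD ha u]
  exact fl_commute_iff hD ha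

theorem fl_inj (ha : a ∈ D) (h : fl a t = fl a u) : t = u := by rw [← fl_fl hD ha t, h, fl_fl hD ha u]

theorem fl_swap (_ha : a ∈ D) (_hb : b ∈ D) (h : Commute a b) (t : G) : fl a (fl b t) = fl b (fl a t) := by
  show a * (b * t * b) * a = b * (a * t * a) * b
  calc a * (b * t * b) * a = (a * b) * t * (b * a) := by group
    _ = (b * a) * t * (a * b) := by rw [h.eq]
    _ = _ := by group

omit hD in
theorem fl_conj (a b t : G) : fl (fl a b) t = fl a (fl b (fl a t)) := by
  simp only [fl, mul_assoc]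

theorem fl_com (ha : a ∈ D) (h : t ∈ com D p q) : fl a t ∈ com D (fl a p) (fl a q) :=
  ⟨fl_mem hD ha h.1, (fl_commute_iff hD ha).2 h.2.1, (fl_commute_iff hD ha).2 h.2.2⟩

theorem fl_line (ha : a ∈ D) (h : t ∈ line D p q) : fl a t ∈ line D (fl a p) (fl a q) := by
  refine ⟨fl_mem hD ha h.1, fun s hs => ?_⟩
  have hs' := fl_com hD ha hs
  rw [fl_fl hD ha, fl_fl hD ha] at hs'
  exact (commute_fl_iff hD ha).2 (h.2 _ hs')

theorem fl_perp (ha : a ∈ D) (h : t ∈ perp D p) : fl a t ∈ perp D (fl a p) :=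
  ⟨fl_mem hD ha h.1, fun e => h.2.1 (fl_inj hD ha e), (fl_commute_iff hD ha).2 h.2.2⟩

end CfsgLib.Fischer.CoreTwo
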