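import Cfsg.Agent.Lib.ClassicalForms.Unitary.Basic
import Mathlib.FieldTheory.Finite.GaloisField

/-!
Arithmetic of the field with four elements and its conjugation.
-/
set_option autoImplicit false
set_option linter.unusedSectionVars false

namespace CfsgLib.Fischer.CoreTwo

open CfsgLib.ClassicalForms

/-- A field with four elements, its conjugation and a primitive element. -/
structure Four (F : Type) [Field F] [Fintype F] where
  card : Fintype.card F = 4
  c : Conj F 2
  ω : F
  ω0 : ω ≠ 0
  ω1 : ω ≠ 1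

theorem exists_four : ∃ (F : Type) (_ : Field F) (_ : Fintype F), Nonempty (Four F) := by
  classical
  haveI : Fact (Nat.Prime 2) := ⟨Nat.prime_two⟩
  let F := GaloisField 2 2
  haveI : Fintype F := Fintype.ofFinite F
  have hc : Fintype.card F = 4 := by
    rw [← Nat.card_eq_fintype_card, GaloisField.card 2 2 two_ne_zero]
    norm_num
  obtain ⟨w, hw⟩ : ∃ w : F, w ∉ ({0, 1} : Finset F) := by
    by_contra hno
    push Not at hno
    have := Finset.card_le_card (show (Finset.univ : Finset F) ⊆ {0, 1} from fun a _ => hno a)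
    rw [Finset.card_univ, hc] at this
    exact absurd (this.trans Finset.card_le_two) (by norm_num)
  obtain ⟨c⟩ := exists_conj (F := F) (q := 2) (by rw [Nat.card_eq_fintype_card, hc]; norm_num)
  simp only [Finset.mem_insert, Finset.mem_singleton, not_or] at hw
  exact ⟨F, inferInstance, inferInstance, ⟨⟨hc, c, w, hw.1, hw.2⟩⟩⟩

namespace Four

variable {F : Type} [Field F] [Fintype F] (K : Four F)
include K

theorem two : (2 : F) = 0 := by
  have h := Nat.cast_card_eq_zero F
  rw [K.card] at h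
  exact mul_self_eq_zero.1 (by rw [← h]; norm_num)

theorem add_self (a : F) : a + a = 0 := by rw [← two_mul, K.two, zero_mul]

theorem eq_of_add (a b : F) (h : a + b = 0) : a = b := by linear_combination h - K.add_self b

theorem sigma (a : F) : K.c.σ a = a * a := by rw [K.c.apply, pow_two]

theorem sq : K.ω * K.ω = K.ω + 1 := by
  have h4 : K.ω ^ 4 = K.ω := by rw [← K.card]; exact FiniteField.pow_card _
  have : (K.ω * (K.ω - 1)) * (K.ω * K.ω + K.ω + 1) = 0 := by linear_combination h4
  rcases mul_eq_zero.1 this with h | h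
  · rcases mul_eq_zero.1 h with h | h
    · exact absurd h K.ω0
    · exact absurd (sub_eq_zero.1 h) K.ω1
  · exact K.eq_of_add _ _ (by linear_combination h)

theorem w1_0 : K.ω + 1 ≠ 0 := fun h => K.ω1 (K.eq_of_add _ _ h)

theorem w1_1 : K.ω + 1 ≠ 1 := fun h => K.ω0 (by linear_combination h)

theorem w1_w : K.ω + 1 ≠ K.ω := fun h => one_ne_zero (α := F) (by linear_combination h)

theorem cases (a : F) : a = 0 ∨ a = 1 ∨ a = K.ω ∨ a = K.ω + 1 := by
  classical
  by_contra hno
  push Not at hno
  obtain ⟨h0, h1, h2, h3⟩ := hno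
  have := Finset.card_le_univ ({a, 0, 1, K.ω, K.ω + 1} : Finset F)
  rw [K.card, Finset.card_insert_of_notMem (by simp [h0, h1, h2, h3]),
    Finset.card_insert_of_notMem (by simp [Ne.symm K.ω0, Ne.symm K.w1_0]),
    Finset.card_insert_of_notMem (by simp [Ne.symm K.ω1, Ne.symm K.w1_1]),
    Finset.card_insert_of_notMem (by simp), Finset.card_singleton] at this
  omega

theorem cases' (a : F) (h : a ≠ 0) : a = 1 ∨ a = K.ω ∨ a = K.ω + 1 := (K.cases a).resolve_left h

theorem sig_w : K.c.σ K.ω = K.ω + 1 := by rw [K.sigma, K.sq]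

theorem sig_w1 : K.c.σ (K.ω + 1) = K.ω := by
  rw [map_add, K.sig_w, map_one, add_assoc, K.add_self, add_zero]

theorem sig_ne (a : F) (h : a ≠ 0) : K.c.σ a ≠ 0 := fun e => h (K.c.eq_zero e)

theorem w_mul_w1 : K.ω * (K.ω + 1) = 1 := by
  linear_combination K.sq + K.add_self K.ω

theorem w1_mul_w1 : (K.ω + 1) * (K.ω + 1) = K.ω := by
  linear_combination K.sq + K.add_self K.ω + K.add_self 1

theorem cube : K.ω * (K.ω * K.ω) = 1 := by rw [K.sq, K.w_mul_w1]

theorem norm (a : F) (h : a ≠ 0) : a * K.c.σ a = 1 := by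
  rcases K.cases' a h with rfl | rfl | rfl
  · simp
  · rw [K.sig_w, K.w_mul_w1]
  · rw [K.sig_w1, mul_comm, K.w_mul_w1]

theorem fixed (a : F) (h : K.c.σ a = a) : a = 0 ∨ a = 1 := by
  rcases K.cases a with rfl | rfl | rfl | rfl
  · exact Or.inl rfl
  · exact Or.inr rfl
  · rw [K.sig_w] at h; exact absurd h K.w1_w
  · rw [K.sig_w1] at h; exact absurd h.symm K.w1_w

theorem sum_three (a b c : F) (ha : a ≠ 0) (hb : b ≠ 0) (hc : c ≠ 0) (hab : a ≠ b) (hac : a ≠ c)
    (hbc : b ≠ c) : c = a + b := by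
  refine K.eq_of_add _ _ ?_
  rcases K.cases' a ha with rfl | rfl | rfl <;> rcases K.cases' b hb with rfl | rfl | rfl <;>
    rcases K.cases' c hc with rfl | rfl | rfl <;>
    first
      | exact absurd rfl hab
      | exact absurd rfl hac
      | exact absurd rfl hbc
      | linear_combination K.add_self K.ω + K.add_self (1 : F)

/-- The fourth element. -/
theorem fourth (s a b : F) (hs : s ≠ 0) (ha : a ≠ 0) (has : a ≠ s) (hb : b ≠ 0) (hbs : b ≠ s) (hab : b ≠ a) :
    b = a + s := by
  rw [add_comm]; exact K.sum_three s a b hs ha hb (Ne.symm has) (Ne.symm hbs) (Ne.symm hab)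

theorem ratio (a b : F) (ha : a ≠ 0) (hb : b ≠ 0) (hab : b ≠ a) : b = K.ω * a ∨ b = (K.ω + 1) * a := by
  have e : b = b / a * a := (div_mul_cancel₀ b ha).symm
  rcases K.cases' (b / a) (div_ne_zero hb ha) with h | h | h
  · exact absurd (by rw [e, h, one_mul]) hab
  · exact Or.inl (by rw [e, h])
  · exact Or.inr (by rw [e, h])

theorem inv_w : K.ω⁻¹ = K.ω + 1 := inv_eq_of_mul_eq_one_right K.w_mul_w1

theorem inv_w1 : (K.ω + 1)⁻¹ = K.ω := inv_eq_of_mul_eq_one_left K.w_mul_w1

end Four

end CfsgLib.Fischer.CoreTwo
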