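import Cfsg.Agent.Lib.Fischer.CoreTwo.Orient
import Cfsg.Agent.Lib.Fischer.CoreTwo.Four
import Cfsg.Agent.Lib.Forms.Hermitian

/-!
The Hermitian values of pairs of neighbours of `x` and the space they span.
-/
set_option autoImplicit false
set_option linter.unusedSectionVars false

namespace CfsgLib.Fischer.CoreTwo

open CfsgLib.Fischer

variable {G : Type*} [Group G] [Finite G] {D : Set G} {a b d e e' p q t u v x y : G} {J : G → G}
variable {F : Type} [Field F] [Fintype F]

open scoped Classical in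
/-- The value of a pair. -/
noncomputable def hv (K : Four F) (y : G) (J : G → G) (e e' : G) : F :=
  if Commute e e' then 0 else if Commute (fl e e') y then 1
  else if Commute (fl (J (J e)) e') y then K.ω else K.ω + 1

variable (B : Base D x y) (hJ : Ori D x y J) (K : Four F)
include B hJ

theorem commute_J (he : e ∈ ext' D x y) (hq : q ∈ D) (hqx : Commute q x) :
    Commute (J e) q ↔ Commute e q := by
  rw [← commute_bp_left B (hJ.mem e he).1 hq hqx, hJ.same e he, commute_bp_left B he.1 hq hqx]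

theorem mates_cases (he : e ∈ ext' D x y) (ht : t ∈ ext' D x y) (h : bp D x y t = bp D x y e) :
    t = e ∨ t = J e ∨ t = J (J e) := by
  have h1 := hJ.mem e he
  have h2 := hJ.mem _ h1
  have hsub : ({e, J e, J (J e)} : Set G) ⊆ mates D x (bp D x y e) := by
    rintro s (rfl | rfl | rfl)
    · exact mem_mates_bp B he
    · exact hJ.same e he ▸ mem_mates_bp B h1
    · have := mem_mates_bp B h2
      rwa [hJ.same _ h1, hJ.same e he] at this
  have heq := Set.eq_of_subset_of_ncard_le hsub (by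
    rw [mates_card B (bp_phi_mem B he.1), Set.ncard_insert_of_notMem ?_, Set.ncard_insert_of_notMem ?_,
      Set.ncard_singleton]
    · exact fun c => hJ.ne _ h1 (Set.mem_singleton_iff.1 c).symm
    · rintro (c | c)
      · exact hJ.ne e he c.symm
      · have := hJ.cube e he
        rw [← Set.mem_singleton_iff.1 c] at this
        exact hJ.ne e he this) (Set.toFinite _)
  have := mem_mates_bp B ht
  rw [h, ← heq] at this
  simpa using this

omit hJ in
theorem fl_eq_bp (he : e ∈ ext' D x y) (he' : e' ∈ ext' D x y) (h : Commute (fl e e') y) :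
    fl e e' = fl (bp D x y e) (bp D x y e') := by
  rw [← bp_fl B he.1 he'.1, bp_self B ⟨fl_perp_x B he.1 he'.1, h⟩]

theorem R_J (he : e ∈ ext' D x y) (he' : e' ∈ ext' D x y) (hc : ¬ Commute e e')
    (h : Commute (fl e e') y) : Commute (fl (J e) (J e')) y := by
  have hG := B.hyp.grp
  have hd : fl e e' ∈ phi D x y := ⟨fl_perp_x B he.1 he'.1, h⟩
  have hn : ¬ Commute e (fl e e') := not_commute_third_left hG.1 he.1.1 he'.1.1 hc
  have e1 : e' = fl (fl e e') e := by rw [← fl_braid hG he.1.1 hd.1.1 hn, fl_fl hG he.1.1]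
  have hn' : ¬ Commute (J e) (fl e e') := fun c => hn ((commute_J B hJ he hd.1.1 hd.1.2.2.symm).1 c)
  conv in J e' => rw [e1, ← hJ.equi _ hd e he]
  rw [← fl_braid hG (hJ.mem e he).1.1 hd.1.1 hn', fl_fl hG (hJ.mem e he).1.1]
  exact h

theorem R_cases (he : e ∈ ext' D x y) (he' : e' ∈ ext' D x y) (hc : ¬ Commute e e') :
    Commute (fl e e') y ∨ Commute (fl (J e) e') y ∨ Commute (fl (J (J e)) e') y := by
  have hG := B.hyp.grp
  have hd := bp_phi_mem B he.1
  have hd' := bp_phi_mem B he'.1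
  have hdd : ¬ Commute (bp D x y e) (bp D x y e') := fun c => hc ((commute_bp B he.1 he'.1).1 c)
  have hd'' := fl_mem_phi B hd hd'
  have hn : ¬ Commute e' (bp D x y e) := fun c => hc
    ((commute_bp_left B he.1 he'.1.1 he'.1.2.2.symm).1 c.symm)
  have ht : fl e' (fl (bp D x y e) (bp D x y e')) ∈ perp D x := fl_perp_x B he'.1 hd''.1
  have hbt : bp D x y (fl e' (fl (bp D x y e) (bp D x y e'))) = bp D x y e := by
    rw [bp_fl B he'.1 hd''.1, bp_self B hd'', fl_braid hG hd.1.1 hd'.1.1 hdd, fl_fl hG hd'.1.1]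
  have htE : fl e' (fl (bp D x y e) (bp D x y e')) ∈ ext' D x y := by
    refine ⟨ht, fun c => ?_⟩
    have h1 := bp_self B (u := fl e' (fl (bp D x y e) (bp D x y e'))) ⟨ht, c⟩
    rw [hbt] at h1
    have h2 : fl e' (bp D x y e) = fl (bp D x y e) (bp D x y e') := by
      conv_lhs => rw [h1, fl_fl hG he'.1.1]
    rw [fl_braid hG he'.1.1 hd.1.1 hn] at h2
    exact he'.2 (by rw [fl_inj hG hd.1.1 h2]; exact hd'.2)
  have hres : Commute (fl (fl e' (fl (bp D x y e) (bp D x y e'))) e') y := by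
    rw [fl_braid hG htE.1.1 he'.1.1 fun c => hc ?_, fl_fl hG he'.1.1]
    · exact hd''.2
    · rw [← commute_bp B ht he'.1, hbt, commute_bp B he.1 he'.1] at c
      exact c
  rcases mates_cases B hJ he htE hbt with h | h | h <;> rw [h] at hres
  exacts [Or.inl hres, Or.inr (Or.inl hres), Or.inr (Or.inr hres)]

theorem R_unique (he : e ∈ ext' D x y) (he' : e' ∈ ext' D x y) (hc : ¬ Commute e e')
    (h : Commute (fl e e') y) : ¬ Commute (fl (J e) e') y := by
  intro h'
  have hG := B.hyp.grp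
  have hc' : ¬ Commute (J e) e' := fun c => hc ((commute_J B hJ he he'.1.1 he'.1.2.2.symm).1 c)
  have e1 := fl_eq_bp B (hJ.mem e he) he' h'
  rw [hJ.same e he, ← fl_eq_bp B he he' h, fl_braid hG (hJ.mem e he).1.1 he'.1.1 hc',
    fl_braid hG he.1.1 he'.1.1 hc] at e1
  exact hJ.ne e he (fl_inj hG he'.1.1 e1)

theorem hv_one (_he : e ∈ ext' D x y) (hc : ¬ Commute e e') (h : Commute (fl e e') y) :
    hv K y J e e' = 1 := by
  simp only [hv, if_neg hc, if_pos h]

theorem hv_w (he : e ∈ ext' D x y) (he' : e' ∈ ext' D x y) (hc : ¬ Commute e e')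
    (h : Commute (fl (J (J e)) e') y) : hv K y J e e' = K.ω := by
  have h1 := hJ.mem e he
  have h2 := hJ.mem _ h1
  have hn : ¬ Commute (fl e e') y := by
    have := R_unique B hJ h2 he' (fun c => hc ((commute_J B hJ he he'.1.1 he'.1.2.2.symm).1
      ((commute_J B hJ h1 he'.1.1 he'.1.2.2.symm).1 c))) h
    rwa [hJ.cube e he] at this
  simp only [hv, if_neg hc, if_neg hn, if_pos h]

theorem hv_w1 (he : e ∈ ext' D x y) (he' : e' ∈ ext' D x y) (hc : ¬ Commute e e')
    (h : Commute (fl (J e) e') y) : hv K y J e e' = K.ω + 1 := by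
  have h1 := hJ.mem e he
  have hc1 : ¬ Commute (J e) e' := fun c => hc ((commute_J B hJ he he'.1.1 he'.1.2.2.symm).1 c)
  have hn : ¬ Commute (fl e e') y := fun c => R_unique B hJ he he' hc c h
  have hn2 := R_unique B hJ h1 he' hc1 h
  simp only [hv, if_neg hc, if_neg hn, if_neg hn2]

theorem hv_zero (he : e ∈ ext' D x y) (he' : e' ∈ ext' D x y) : hv K y J e e' = 0 ↔ Commute e e' := by
  refine ⟨fun h => by_contra fun hc => ?_, fun h => by simp only [hv, if_pos h]⟩
  rcases R_cases B hJ he he' hc with r | r | r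
  · exact one_ne_zero ((hv_one B hJ K he hc r).symm.trans h)
  · exact K.w1_0 ((hv_w1 B hJ K he he' hc r).symm.trans h)
  · exact K.ω0 ((hv_w B hJ K he he' hc r).symm.trans h)

theorem hv_self (he : e ∈ ext' D x y) : hv K y J e e = 0 := (hv_zero B hJ K he he).2 (Commute.refl e)

theorem of_hv_one (he : e ∈ ext' D x y) (he' : e' ∈ ext' D x y) (h : hv K y J e e' = 1) :
    ¬ Commute e e' ∧ Commute (fl e e') y := by
  have hc : ¬ Commute e e' := fun c => zero_ne_one (((hv_zero B hJ K he he').2 c).symm.trans h)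
  refine ⟨hc, ?_⟩
  rcases R_cases B hJ he he' hc with r | r | r
  · exact r
  · exact absurd ((hv_w1 B hJ K he he' hc r).symm.trans h) K.w1_1
  · exact absurd ((hv_w B hJ K he he' hc r).symm.trans h) K.ω1

theorem hv_J_left (he : e ∈ ext' D x y) (he' : e' ∈ ext' D x y) :
    hv K y J (J e) e' = K.ω * hv K y J e e' := by
  have h1 := hJ.mem e he
  have hiff := commute_J B hJ he he'.1.1 he'.1.2.2.symm
  by_cases hc : Commute e e'
  · rw [(hv_zero B hJ K he he').2 hc, (hv_zero B hJ K h1 he').2 (hiff.2 hc), mul_zero]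
  have hc1 : ¬ Commute (J e) e' := fun c => hc (hiff.1 c)
  rcases R_cases B hJ he he' hc with r | r | r
  · rw [hv_one B hJ K he hc r, hv_w B hJ K h1 he' hc1 (by rwa [hJ.cube e he]), mul_one]
  · rw [hv_w1 B hJ K he he' hc r, hv_one B hJ K h1 hc1 r, K.w_mul_w1]
  · rw [hv_w B hJ K he he' hc r, hv_w1 B hJ K h1 he' hc1 r, K.sq]

theorem hv_symm (he : e ∈ ext' D x y) (he' : e' ∈ ext' D x y) :
    hv K y J e' e = K.c.σ (hv K y J e e') := by
  have hG := B.hyp.grp
  by_cases hc : Commute e e'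
  · rw [(hv_zero B hJ K he he').2 hc, (hv_zero B hJ K he' he).2 hc.symm, map_zero]
  have hc' : ¬ Commute e' e := fun c => hc c.symm
  have h1 := hJ.mem e he
  have h1' := hJ.mem e' he'
  have h2 := hJ.mem _ h1
  have h2' := hJ.mem _ h1'
  have cJ : ∀ {a b : G}, a ∈ ext' D x y → b ∈ ext' D x y → ¬ Commute a b → ¬ Commute (J a) b :=
    fun ha hb hn c => hn ((commute_J B hJ ha hb.1.1 hb.1.2.2.symm).1 c)
  have br : ∀ {a b : G}, a ∈ ext' D x y → b ∈ ext' D x y → ¬ Commute a b → Commute (fl a b) y →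
      Commute (fl b a) y := fun ha hb hn c => fl_braid hG ha.1.1 hb.1.1 hn ▸ c
  rcases R_cases B hJ he he' hc with r | r | r
  · rw [hv_one B hJ K he hc r, hv_one B hJ K he' hc' (br he he' hc r), map_one]
  · rw [hv_w1 B hJ K he he' hc r, K.sig_w1]
    have r1 := R_J B hJ h1 he' (cJ he he' hc) r
    have n1 : ¬ Commute (J (J e)) (J e') := fun c => cJ h1 he' (cJ he he' hc) ((commute_J B hJ he' h2.1.1
      h2.1.2.2.symm).1 c.symm).symm
    have r2 := R_J B hJ h2 h1' n1 r1
    rw [hJ.cube e he] at r2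
    have n2 : ¬ Commute (J (J e')) e := cJ h1' he (cJ he' he hc')
    exact hv_w B hJ K he' he hc' (br he h2' (fun c => n2 c.symm) r2)
  · rw [hv_w B hJ K he he' hc r, K.sig_w]
    have r1 := R_J B hJ h2 he' (cJ h1 he' (cJ he he' hc)) r
    rw [hJ.cube e he] at r1
    exact hv_w1 B hJ K he' he hc' (br he h1' (fun c => cJ he' he hc' c.symm) r1)

theorem hv_J_right (he : e ∈ ext' D x y) (he' : e' ∈ ext' D x y) :
    hv K y J e (J e') = (K.ω + 1) * hv K y J e e' := by
  rw [hv_symm B hJ K (hJ.mem e' he') he, hv_J_left B hJ K he' he, map_mul, K.sig_w, hv_symm B hJ K he he',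
    K.c.invol]

theorem hv_fl (hd : d ∈ phi D x y) (he : e ∈ ext' D x y) (he' : e' ∈ ext' D x y) :
    hv K y J (fl d e) (fl d e') = hv K y J e e' := by
  have hG := B.hyp.grp
  have hdD := hd.1.1
  have hiff := fl_commute_iff hG hdD (t := e) (u := e')
  have hR : ∀ a b : G, Commute (fl (fl d a) (fl d b)) y ↔ Commute (fl a b) y := fun a b => by
    rw [fl_conj, fl_fl hG hdD, fl_phi_commute_y B hd]
  have hfe := fl_mem_ext B hd he
  have hfe' := fl_mem_ext B hd he'
  by_cases hc : Commute e e'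
  · rw [(hv_zero B hJ K he he').2 hc, (hv_zero B hJ K hfe hfe').2 (hiff.2 hc)]
  have hc1 : ¬ Commute (fl d e) (fl d e') := fun c => hc (hiff.1 c)
  rcases R_cases B hJ he he' hc with r | r | r
  · rw [hv_one B hJ K he hc r, hv_one B hJ K hfe hc1 ((hR _ _).2 r)]
  · rw [hv_w1 B hJ K he he' hc r, hv_w1 B hJ K hfe hfe' hc1]
    rw [← hJ.equi d hd e he]
    exact (hR _ _).2 r
  · rw [hv_w B hJ K he he' hc r, hv_w B hJ K hfe hfe' hc1]
    rw [← hJ.equi d hd e he, ← hJ.equi d hd _ (hJ.mem e he)]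
    exact (hR _ _).2 r

theorem false_of_eq (ha : a ∈ ext' D x y) (hb : b ∈ ext' D x y) (hq : q ∈ ext' D x y) (hab : ¬ Commute a b)
    (hR : Commute (fl a b) y) (haq : ¬ Commute a q)
    (hn : ¬ Commute (fl (bp D x y a) (bp D x y b)) (bp D x y q)) (heq : hv K y J a q = hv K y J b q) : False := by
  have hG := B.hyp.grp
  have h1 := hJ.mem q hq
  obtain ⟨q', hq', hbp, hone⟩ : ∃ q' ∈ ext' D x y, bp D x y q' = bp D x y q ∧
      ∀ c ∈ ext' D x y, hv K y J c q = hv K y J a q → hv K y J c q' = 1 := by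
    rcases K.cases' _ (fun h => haq ((hv_zero B hJ K ha hq).1 h)) with h | h | h
    · exact ⟨q, hq, rfl, fun c _ e => e.trans h⟩
    · refine ⟨J q, h1, hJ.same q hq, fun c hc e => ?_⟩
      rw [hv_J_right B hJ K hc hq, e, h, mul_comm, K.w_mul_w1]
    · refine ⟨J (J q), hJ.mem _ h1, (hJ.same _ h1).trans (hJ.same q hq), fun c hc e => ?_⟩
      rw [hv_J_right B hJ K hc h1, hv_J_right B hJ K hc hq, e, h, K.w1_mul_w1, mul_comm, K.w_mul_w1]
  obtain ⟨na, ra⟩ := of_hv_one B hJ K ha hq' (hone a ha rfl)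
  obtain ⟨nb, rb⟩ := of_hv_one B hJ K hb hq' (hone b hb heq.symm)
  refine triangle_false B ha hb hq' ra rb hR nb fun c => hn ?_
  have h' := (commute_bp B ha.1 (fl_perp_x B hb.1 hq'.1)).2 c
  have hA := bp_phi_mem B ha.1
  have hBb := bp_phi_mem B hb.1
  rw [bp_fl B hb.1 hq'.1, hbp] at h'
  rw [fl_braid hG hA.1.1 hBb.1.1 fun c => hab ((commute_bp B ha.1 hb.1).1 c)]
  exact (commute_fl_iff hG hBb.1.1).2 h'

theorem hv_add_R (he : e ∈ ext' D x y) (he' : e' ∈ ext' D x y) (hc : ¬ Commute e e')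
    (hR : Commute (fl e e') y) (hq : q ∈ ext' D x y) :
    hv K y J (fl (bp D x y e) e') q = hv K y J e' q + hv K y J e q := by
  have hG := B.hyp.grp
  have hd := bp_phi_mem B he.1
  have hd' := bp_phi_mem B he'.1
  have hd2 : fl e e' ∈ phi D x y := ⟨fl_perp_x B he.1 he'.1, hR⟩
  have hdd : ¬ Commute (bp D x y e) (bp D x y e') := fun c => hc ((commute_bp B he.1 he'.1).1 c)
  have hbp2 := fl_eq_bp B he he' hR
  have hde : Commute e (bp D x y e) :=
    ((commute_bp_left B he.1 he.1.1 he.1.2.2.symm).2 (Commute.refl e)).symm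
  have hde' : Commute e' (bp D x y e') :=
    ((commute_bp_left B he'.1 he'.1.1 he'.1.2.2.symm).2 (Commute.refl e')).symm
  have e1 : e' = fl (fl e e') e := by
    rw [← fl_braid hG he.1.1 hd2.1.1 (not_commute_third_left hG.1 he.1.1 he'.1.1 hc), fl_fl hG he.1.1]
  have e3 : fl (bp D x y e) e' = fl (bp D x y e') e := by
    conv_lhs => rw [e1, hbp2, fl_conj, fl_of_commute hG hd.1.1 hde.symm, fl_fl hG hd.1.1]
  have he2 := fl_mem_ext B hd he'
  have hb2 : bp D x y (fl (bp D x y e) e') = fl (bp D x y e) (bp D x y e') := bp_fl_phi B hd he'.1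
  have fix : ∀ {c : G}, c ∈ phi D x y → Commute c (bp D x y q) → fl c q = q := fun hc hcq =>
    fl_of_commute hG hc.1.1 ((commute_bp_left B hq.1 hc.1.1 hc.1.2.2.symm).1 hcq.symm).symm
  by_cases h1 : Commute e q
  · rw [(hv_zero B hJ K he hq).2 h1, add_zero]
    conv_lhs => rw [← fix hd ((commute_bp B he.1 hq.1).2 h1)]
    exact hv_fl B hJ K hd he' hq
  by_cases h2 : Commute e' q
  · rw [(hv_zero B hJ K he' hq).2 h2, zero_add, e3]
    conv_lhs => rw [← fix hd' ((commute_bp B he'.1 hq.1).2 h2)]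
    exact hv_fl B hJ K hd' he hq
  by_cases h3 : Commute (fl e e') (bp D x y q)
  · rw [(hv_zero B hJ K he2 hq).2 ((commute_bp B he2.1 hq.1).1 (by rw [hb2, ← hbp2]; exact h3))]
    have e4 : hv K y J e' q = hv K y J e q := by
      conv_lhs => rw [e1, ← fix hd2 h3]
      exact hv_fl B hJ K hd2 he hq
    rw [e4, K.add_self]
  have h3' : ¬ Commute (fl (bp D x y e) e') q := fun c => h3
    (by rw [hbp2, ← hb2]; exact (commute_bp B he2.1 hq.1).2 c)
  have n1 : ¬ Commute e (fl (bp D x y e) e') := fun c => hc (by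
    have h' := (commute_fl_iff hG hd.1.1).1 c.symm
    rw [fl_of_commute hG hd.1.1 hde.symm] at h'
    exact h'.symm)
  have n2 : ¬ Commute e' (fl (bp D x y e) e') := by
    rw [e3]
    exact fun c => hc (by
      have h' := (commute_fl_iff hG hd'.1.1).2 c
      rw [fl_of_commute hG hd'.1.1 hde'.symm] at h'
      exact h'.symm)
  have r1 : Commute (fl e (fl (bp D x y e) e')) y := by
    rw [fl_swap hG he.1.1 hd.1.1 hde, fl_phi_commute_y B hd]
    exact hR
  have r2 : Commute (fl e' (fl (bp D x y e) e')) y := by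
    rw [e3, fl_swap hG he'.1.1 hd'.1.1 hde', fl_phi_commute_y B hd',
      fl_braid hG he'.1.1 he.1.1 fun c => hc c.symm]
    exact hR
  refine K.sum_three _ _ _ (fun h => h2 ((hv_zero B hJ K he' hq).1 h))
    (fun h => h1 ((hv_zero B hJ K he hq).1 h)) (fun h => h3' ((hv_zero B hJ K he2 hq).1 h)) ?_ ?_ ?_
  · exact fun h => false_of_eq B hJ K he he' hq hc hR h1 (by rw [← hbp2]; exact h3) h.symm
  · refine fun h => false_of_eq B hJ K he' he2 hq n2 r2 h2 ?_ h
    rw [hb2, fl_braid hG hd.1.1 hd'.1.1 hdd, fl_fl hG hd'.1.1]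
    exact fun c => h1 ((commute_bp B he.1 hq.1).1 c)
  · refine fun h => false_of_eq B hJ K he he2 hq n1 r1 h1 ?_ h
    rw [hb2, fl_fl hG hd.1.1]
    exact fun c => h2 ((commute_bp B he'.1 hq.1).1 c)

theorem hv_add (he : e ∈ ext' D x y) (he' : e' ∈ ext' D x y) (hq : q ∈ ext' D x y) :
    hv K y J (fl (bp D x y e) e') q = hv K y J e' q + hv K y J e' e * hv K y J e q := by
  by_cases hc : Commute e' e
  · rw [(hv_zero B hJ K he' he).2 hc, zero_mul, add_zero,
      fl_of_commute B.hyp.grp (bp_phi_mem B he.1).1.1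
        ((commute_bp_left B he.1 he'.1.1 he'.1.2.2.symm).2 hc.symm)]
  have h1 := hJ.mem e he
  have key : ∀ t ∈ ext' D x y, bp D x y t = bp D x y e → hv K y J e' t = 1 →
      hv K y J (fl (bp D x y e) e') q = hv K y J e' q + hv K y J t q := by
    intro t ht hb h
    obtain ⟨n, r⟩ := of_hv_one B hJ K he' ht h
    rw [← hb]
    exact hv_add_R B hJ K ht he' (fun c => n c.symm)
      (fl_braid B.hyp.grp he'.1.1 ht.1.1 n ▸ r) hq
  rcases K.cases' _ (fun h => hc ((hv_zero B hJ K he' he).1 h)) with h | h | h <;> rw [h]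
  · rw [one_mul]; exact key e he rfl h
  · rw [key (J e) h1 (hJ.same e he) (by rw [hv_J_right B hJ K he' he, h, mul_comm, K.w_mul_w1]),
      hv_J_left B hJ K he hq]
  · rw [key (J (J e)) (hJ.mem _ h1) ((hJ.same _ h1).trans (hJ.same e he)) (by
      rw [hv_J_right B hJ K he' h1, hv_J_right B hJ K he' he, h, K.w1_mul_w1, mul_comm, K.w_mul_w1]),
      hv_J_left B hJ K h1 hq, hv_J_left B hJ K he hq, ← mul_assoc, K.sq]

/-- The space spanned by the rows of values, with an orthonormal basis. -/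
theorem exists_frame : ∃ (m : ℕ) (Ψ : G → (Fin m → F)),
    (∀ e ∈ ext' D x y, ∀ e' ∈ ext' D x y, Cfsg.hermForm m F 2 (Ψ e) (Ψ e') = hv K y J e e') ∧
    Submodule.span F (Ψ '' ext' D x y) = ⊤ := by
  classical
  let ψ : G → (ext' D x y → F) := fun e e' => hv K y J e e'
  let S : Set (ext' D x y → F) := ψ '' ext' D x y
  let W := Submodule.span F S
  obtain ⟨f, hfS, hfspan, hfli⟩ := Submodule.exists_fun_fin_finrank_span_eq F S
  choose i0 hi0 hi1 using hfS
  obtain ⟨bb, hbb⟩ : ∃ bb : Module.Basis (Fin (Module.finrank F W)) F W,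
      ∀ i, (bb i : ext' D x y → F) = ψ (i0 i) := by
    refine ⟨(Module.Basis.span hfli).map (LinearEquiv.ofEq _ _ hfspan), fun i => ?_⟩
    rw [hi1 i]
    simp
  let B0 : W →ₛₗ[K.c.σ] W →ₗ[F] F := LinearMap.mk₂'ₛₗ K.c.σ (RingHom.id F)
    (fun g f => ∑ i, K.c.σ (bb.repr g i) * (f : ext' D x y → F) ⟨i0 i, hi0 i⟩)
    (fun g g' f => by simp [add_mul, Finset.sum_add_distrib])
    (fun a g f => by simp [Finset.mul_sum, mul_assoc])
    (fun g f f' => by simp [mul_add, Finset.sum_add_distrib])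
    (fun a g f => by
      simp only [Submodule.coe_smul, Pi.smul_apply, smul_eq_mul, RingHom.id_apply, Finset.mul_sum]
      exact Finset.sum_congr rfl fun i _ => mul_left_comm _ _ _)
  have hrep : ∀ (g : W) (e : ext' D x y), (g : ext' D x y → F) e = ∑ i, bb.repr g i * hv K y J (i0 i) e := by
    intro g e
    have := congrArg (fun w : W => (w : ext' D x y → F) e) (bb.sum_repr g)
    simp only [Submodule.coe_sum, Finset.sum_apply, Submodule.coe_smul, Pi.smul_apply, smul_eq_mul, hbb] at this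
    exact this.symm
  let P : ∀ e, e ∈ ext' D x y → W := fun e he => ⟨ψ e, Submodule.subset_span ⟨e, he, rfl⟩⟩
  have hB0 : ∀ (f : W) (e : G) (he : e ∈ ext' D x y), B0 (P e he) f = (f : ext' D x y → F) ⟨e, he⟩ := by
    intro f e he
    have hPe : ∀ i, hv K y J (i0 i) e = ∑ k, K.c.σ (bb.repr (P e he) k) * hv K y J (i0 i) (i0 k) := by
      intro i
      rw [hv_symm B hJ K he (hi0 i), show hv K y J e (i0 i) = (P e he : ext' D x y → F) ⟨i0 i, hi0 i⟩ from rfl,
        hrep, map_sum]
      exact Finset.sum_congr rfl fun k _ => by rw [map_mul, ← hv_symm B hJ K (hi0 k) (hi0 i)]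
    show ∑ k, K.c.σ (bb.repr (P e he) k) * (f : ext' D x y → F) ⟨i0 k, hi0 k⟩ = _
    simp only [hrep f, hPe, Finset.mul_sum]
    rw [Finset.sum_comm]
    exact Finset.sum_congr rfl fun i _ => Finset.sum_congr rfl fun k _ => by ring
  have hsym : ∀ g f : W, K.c.σ (B0 g f) = B0 f g := by
    have hb : ∀ i k, K.c.σ (B0 (bb i) (bb k)) = B0 (bb k) (bb i) := by
      intro i k
      have e1 : ∀ i, bb i = P (i0 i) (hi0 i) := fun i => Subtype.ext (hbb i)
      rw [e1 i, e1 k, hB0 _ _ (hi0 i), hB0 _ _ (hi0 k)]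
      exact (hv_symm B hJ K (hi0 k) (hi0 i)).symm
    intro g f
    conv_lhs => rw [← bb.sum_repr g, ← bb.sum_repr f]
    conv_rhs => rw [← bb.sum_repr g, ← bb.sum_repr f]
    simp only [map_sum, map_smulₛₗ, LinearMap.sum_apply, LinearMap.smul_apply, smul_eq_mul, map_mul,
      K.c.invol, RingHom.id_apply, hb, Finset.mul_sum]
    rw [Finset.sum_comm]
    exact Finset.sum_congr rfl fun i _ => Finset.sum_congr rfl fun k _ => by ring
  have hnd1 : ∀ f : W, (∀ g, B0 g f = 0) → f = 0 := fun f hf =>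
    Subtype.ext (funext fun e => by
      have := hf (P e e.2)
      rwa [hB0] at this)
  have hnd : B0.Nondegenerate :=
    ⟨fun g hg => hnd1 g fun f => by rw [← hsym g f, hg f, map_zero], hnd1⟩
  obtain ⟨ob, hob⟩ := Forms.exists_orthonormal_basis K.c.σ K.c.ne K.c.invol B0 ⟨fun g f => hsym g f⟩ hnd
  refine ⟨Module.finrank F W, fun e => if he : e ∈ ext' D x y then ob.equivFun (P e he) else 0,
    fun e he e' he' => ?_, ?_⟩
  · simp only [dif_pos he, dif_pos he']
    have e2 : B0 (P e' he') (P e he) = hv K y J e e' := hB0 _ _ he'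
    rw [← e2, K.c.herm_apply]
    conv_rhs => rw [← ob.sum_equivFun (P e' he'), ← ob.sum_equivFun (P e he)]
    simp only [map_sum, map_smulₛₗ, LinearMap.sum_apply, LinearMap.smul_apply, smul_eq_mul, RingHom.id_apply,
      hob, mul_ite, mul_one, mul_zero, Finset.sum_ite_eq', Finset.mem_univ, if_true]
  · rw [eq_top_iff]
    have hW : (⊤ : Submodule F W) = Submodule.span F {w | ∃ e he, w = P e he} := by
      refine (eq_top_iff.2 ?_).symm
      rintro ⟨w, hw⟩ -
      induction hw using Submodule.span_induction with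
      | mem w hw =>
        obtain ⟨e, he, rfl⟩ := hw
        exact Submodule.subset_span ⟨e, he, rfl⟩
      | zero => exact zero_mem _
      | add a b _ _ iha ihb => exact add_mem iha ihb
      | smul c a _ iha => exact Submodule.smul_mem _ c iha
    have := congrArg (Submodule.map ob.equivFun.toLinearMap) hW
    rw [Submodule.map_top, LinearEquiv.range, Submodule.map_span] at this
    rw [this]
    refine Submodule.span_mono ?_
    rintro _ ⟨_, ⟨e, he, rfl⟩, rfl⟩
    exact ⟨e, he, dif_pos he⟩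

end CfsgLib.Fischer.CoreTwo
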