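import Cfsg.Agent.Lib.Fischer.CoreTwo.Flip

/-!
Classes of 3-transpositions in which two members commuting with a third one have the same neighbours there:
lines have at least three points, and a member commutes with one or all points of a line.
-/
set_option autoImplicit false

namespace CfsgLib.Fischer.CoreTwo

open CfsgLib.Fischer Transitivity

set_option linter.unusedSectionVars false

variable {G : Type*} [Group G] [Finite G] {D : Set G} {a b c d p q x y t u v w : G}

/-- The hypotheses. -/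
structure Hyp (D : Set G) : Prop where
  grp : Cfsg.IsThreeTranspositionGroup D
  conjugate : ∀ a ∈ D, ∀ b ∈ D, ∃ g : G, g * a * g⁻¹ = b
  trans : ∀ x ∈ D, ∀ b ∈ perp D x, ∀ b' ∈ perp D x, b' ∈ orb D x b
  ext : ∀ a ∈ D, ∀ b ∈ D, (∀ e ∈ D, Commute a e ↔ Commute b e) → a = b
  conn : (Cfsg.commutingGraph D).Connected
  pair : ∃ x ∈ D, ∃ a ∈ perp D x, ∃ b ∈ perp D x, a ≠ b ∧ ∀ t ∈ perp D x, Commute a t ↔ Commute b t

theorem conj_com_image (hD : Cfsg.IsThreeTranspositionGroup D) (g a b : G) :
    (fun t => g * t * g⁻¹) '' com D a b = com D (g * a * g⁻¹) (g * b * g⁻¹) := by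
  ext t
  constructor
  · rintro ⟨s, ⟨hs, h1, h2⟩, rfl⟩
    exact ⟨hD.2.1 g s hs, (conj_commute_iff g s a).2 h1, (conj_commute_iff g s b).2 h2⟩
  · rintro ⟨hs, h1, h2⟩
    have e : g * (g⁻¹ * t * g) * g⁻¹ = t := by group
    rw [← e] at hs h1 h2
    exact ⟨g⁻¹ * t * g, ⟨(conj_iff hD g).1 hs, (conj_commute_iff g _ _).1 h1, (conj_commute_iff g _ _).1 h2⟩, e⟩

theorem conj_line (hD : Cfsg.IsThreeTranspositionGroup D) (g : G) (h : t ∈ line D a b) :
    g * t * g⁻¹ ∈ line D (g * a * g⁻¹) (g * b * g⁻¹) := by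
  refine ⟨hD.2.1 g t h.1, fun s hs => ?_⟩
  rw [← conj_com_image hD] at hs
  obtain ⟨s', hs', rfl⟩ := hs
  exact (conj_commute_iff g t s').2 (h.2 s' hs')

variable (h : Hyp D)
include h

theorem exists_move (hx : x ∈ D) (ha : a ∈ perp D x) (hp : p ∈ D) (hq : q ∈ perp D p) :
    ∃ g : G, g * x * g⁻¹ = p ∧ g * a * g⁻¹ = q := by
  obtain ⟨g, rfl⟩ := h.conjugate x hx p hp
  obtain ⟨k, hk, e⟩ := h.trans _ hp _ (image_perp h.grp g ha) q hq
  refine ⟨k * g, ?_, by rw [← e]; group⟩
  have hc : Commute k (g * x * g⁻¹) := Subgroup.mem_centralizer_singleton_iff.1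
    ((Subgroup.closure_le _).2 (fun s hs => Subgroup.mem_centralizer_singleton_iff.2 hs.2.2.symm.eq) hk)
  calc k * g * x * (k * g)⁻¹ = k * (g * x * g⁻¹) * k⁻¹ := by group
    _ = g * x * g⁻¹ := by rw [hc.eq, mul_inv_cancel_right]

theorem com_card (hx : x ∈ D) (ha : a ∈ perp D x) (hp : p ∈ D) (hq : q ∈ perp D p) :
    (com D x a).ncard = (com D p q).ncard := by
  obtain ⟨g, rfl, rfl⟩ := exists_move h hx ha hp hq
  rw [← conj_com_image h.grp, Set.ncard_image_of_injective _ fun s s' e => Transitivity.conj_injective (g := g) e]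

/-- Any two points of a line determine it. -/
theorem com_eq (hx : x ∈ D) (ha : a ∈ perp D x) (hu : u ∈ line D x a) (hv : v ∈ line D x a) (hne : u ≠ v) :
    com D u v = com D x a := by
  have hsub : com D x a ⊆ com D u v := fun s hs => ⟨hs.1, (hu.2 s hs).symm, (hv.2 s hs).symm⟩
  exact (Set.eq_of_subset_of_ncard_le hsub (com_card h hx ha hu.1
    ⟨hv.1, Ne.symm hne, commute_of_mem_line hx ha hu hv⟩).ge (Set.toFinite _)).symm

theorem line_eq (hx : x ∈ D) (ha : a ∈ perp D x) (hu : u ∈ line D x a) (hv : v ∈ line D x a) (hne : u ≠ v) :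
    line D u v = line D x a := by
  simp only [line, com_eq h hx ha hu hv hne]

/-- A member commuting with two points of a line commutes with all of it. -/
theorem commute_all (hx : x ∈ D) (ha : a ∈ perp D x) (hu : u ∈ line D x a) (hv : v ∈ line D x a) (hne : u ≠ v)
    (hy : y ∈ D) (h1 : Commute y u) (h2 : Commute y v) (ht : t ∈ line D x a) : Commute y t := by
  have hm : y ∈ com D u v := ⟨hy, h1, h2⟩
  rw [com_eq h hx ha hu hv hne] at hm
  exact (ht.2 y hm).symm

theorem mem_line_perp (hx : x ∈ D) (ha : a ∈ perp D x) (ht : t ∈ line D x a) (hne : t ≠ x) : t ∈ perp D x :=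
  ⟨ht.1, hne, commute_of_mem_line hx ha (left_mem_line hx) ht⟩

theorem exists_third (hx : x ∈ D) (ha : a ∈ perp D x) : ∃ b ∈ line D x a, b ≠ x ∧ b ≠ a := by
  obtain ⟨x₀, hx₀, a₀, ha₀, b₀, hb₀, hne, hiff⟩ := h.pair
  have hb : b₀ ∈ line D x₀ a₀ := by
    refine ⟨hb₀.1, fun s hs => ?_⟩
    by_cases e : s = x₀
    · exact e ▸ hb₀.2.2.symm
    · exact (hiff s ⟨hs.1, e, hs.2.1.symm⟩).1 hs.2.2.symm
  obtain ⟨g, rfl, rfl⟩ := exists_move h hx₀ ha₀ hx ha
  exact ⟨g * b₀ * g⁻¹, conj_line h.grp g hb, fun e => hb₀.2.1 (Transitivity.conj_injective (g := g) e),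
    fun e => hne (Transitivity.conj_injective (g := g) e).symm⟩

/-- A product of two points of a line through `x` fixes every line through `x`. -/
theorem kernel_mem (hx : x ∈ D) (ha : a ∈ perp D x) (hb : b ∈ line D x a) (hbx : b ≠ x) (_hba : b ≠ a)
    (hp : p ∈ perp D x) : fl a (fl b p) ∈ line D x p := by
  have hG := h.grp
  have hL := left_mem_line (D := D) (b := a) hx
  have hA := right_mem_line (D := D) (a := x) ha.1
  by_cases hap : Commute a p
  · have hbp : Commute p b := commute_all h hx ha hL hA (Ne.symm ha.2.1) hp.1 hp.2.2.symm hap.symm hb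
    rw [fl_of_commute hG hb.1 hbp.symm, fl_of_commute hG ha.1 hap]
    exact right_mem_line hp.1
  · have hbp : ¬ Commute p b := fun e => hap
      (commute_all h hx ha hL hb (Ne.symm hbx) hp.1 hp.2.2.symm e hA).symm
    have hk := fl_mem hG ha.1 hp.1
    have e1 : fl (fl a p) x = x := fl_of_commute hG hk
      ((commute_fl_iff hG ha.1).2 (by rw [fl_of_commute hG ha.1 ha.2.2.symm]; exact hp.2.2.symm))
    have e2 : fl (fl a p) a = p := by
      rw [fl_conj, fl_of_commute hG ha.1 (Commute.refl a), fl_braid hG hp.1 ha.1 fun e => hap e.symm,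
        fl_fl hG ha.1]
    have e3 : fl (fl a p) b = fl a (fl b p) := by
      rw [fl_conj, fl_of_commute hG ha.1 (commute_of_mem_line hx ha hA hb), fl_braid hG hp.1 hb.1 hbp]
    have := fl_line hG hk hb
    rwa [e1, e2, e3] at this

/-- The translation of a line attached to a member and two of its points. -/
def trn (y u v t : G) : G := fl y (fl u (fl v (fl y t)))

theorem trn_left (hu : u ∈ D) (hv : v ∈ D) (huv : Commute u v) (hy : y ∈ D) (hyu : ¬ Commute y u)
    (hyv : ¬ Commute y v) : trn y u v u = v := by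
  have hG := h.grp
  show fl y (fl u (fl v (fl y u))) = v
  rw [fl_braid hG hy hu hyu, fl_swap hG hu hv huv, fl_fl hG hu, fl_braid hG hv hy fun e => hyv e.symm, fl_fl hG hy]

theorem trn_comm (hu : u ∈ D) (hv : v ∈ D) (huv : Commute u v) (t : G) : trn y u v t = trn y v u t :=
  congrArg (fl y) (fl_swap h.grp hu hv huv _)

theorem trn_perm (hy : y ∈ D) (hv : v ∈ D) (ht : t ∈ D) (hvt : Commute v t) (hyv : ¬ Commute y v)
    (hyt : ¬ Commute y t) : trn y u v t = trn y u t v := by
  have hG := h.grp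
  show fl y (fl u (fl v (fl y t))) = fl y (fl u (fl t (fl y v)))
  rw [fl_braid hG hy ht hyt, fl_braid hG hy hv hyv, fl_swap hG hv ht hvt]

/-- The translations preserve the line. -/
theorem trn_mem (hx : x ∈ D) (ha : a ∈ perp D x) (hy : y ∈ D) (hu : u ∈ line D x a) (hv : v ∈ line D x a)
    (hne : u ≠ v) (hyu : ¬ Commute y u) (hyv : ¬ Commute y v) (ht : t ∈ line D x a) :
    trn y u v t ∈ line D x a := by
  have hG := h.grp
  have huv := commute_of_mem_line hx ha hu hv
  rw [← line_eq h hx ha hu hv hne] at ht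
  have := fl_line hG hy (fl_line hG hu.1 (fl_line hG hv.1 (fl_line hG hy ht)))
  rw [show fl y (fl u (fl v (fl y u))) = v from trn_left h hu.1 hv.1 huv hy hyu hyv,
    show fl y (fl u (fl v (fl y v))) = u from
      (trn_comm h hu.1 hv.1 huv v).trans (trn_left h hv.1 hu.1 huv.symm hy hyv hyu),
    line_comm, line_eq h hx ha hu hv hne] at this
  exact this

/-- The key identity: if `d` commutes with `x` and `y`, a product of two translations commutes with `y`. -/
theorem key_commute (ha : a ∈ D) (hb : b ∈ D) (hd : d ∈ D) (hy : y ∈ D)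
    (hab : Commute a b) (hdx : Commute d x) (hdy : Commute d y)
    (hf : ¬ Commute (fl b (fl a d)) y) :
    Commute (fl d (fl (fl b (fl a d)) (trn y a b x))) y := by
  have hG := h.grp
  set f := fl b (fl a d) with hfdef
  have hfD : f ∈ D := fl_mem hG hb (fl_mem hG ha hd)
  rw [commute_fl_iff hG hd, fl_of_commute hG hd hdy, commute_fl_iff hG hfD, fl_braid hG hfD hy hf]
  show Commute (fl y (fl a (fl b (fl y x)))) (fl y f)
  rw [fl_commute_iff hG hy, commute_fl_iff hG ha, commute_fl_iff hG hb, hfdef, fl_swap hG ha hb hab,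
    fl_fl hG hb, fl_fl hG ha, commute_fl_iff hG hy,
    fl_of_commute hG hy hdy.symm]
  exact hdx.symm

theorem step (hx : x ∈ D) (ha : a ∈ perp D x) (hy : y ∈ D) (hxy : ¬ Commute x y) (hd : d ∈ perp D x)
    (hdy : Commute d y) (hda : ¬ Commute d a) : ∃ t ∈ line D x a, Commute t y := by
  have hG := h.grp
  by_contra hno
  push Not at hno
  obtain ⟨b, hb, hbx, hba⟩ := exists_third h hx ha
  have hA := right_mem_line (D := D) (a := x) ha.1
  have hX := left_mem_line (D := D) (b := a) hx
  have hyu : ∀ {u}, u ∈ line D x a → ¬ Commute y u := fun hu e => hno _ hu e.symm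
  have hab := commute_of_mem_line hx ha hA hb
  set f := fl b (fl a d) with hfdef
  have hfL : f ∈ line D x d := by
    have := kernel_mem h hx ha hb hbx hba hd
    rwa [fl_swap hG ha.1 hb.1 hab, ← hfdef] at this
  have hdb : ¬ Commute d b := fun e => hda (commute_all h hx ha hX hb (Ne.symm hbx) hd.1 hd.2.2.symm e hA)
  have hfd : f ≠ d := by
    intro e
    apply hba
    have e1 : fl a d = fl b d := by
      conv_rhs => rw [← e, hfdef, fl_fl hG hb.1]
    rw [fl_braid hG ha.1 hd.1 fun c => hda c.symm, fl_braid hG hb.1 hd.1 fun c => hdb c.symm] at e1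
    exact (fl_inj hG hd.1 e1).symm
  have hD' := right_mem_line (D := D) (a := x) hd.1
  have hfy : ¬ Commute f y := fun e => hxy
    (commute_all h hx hd hfL hD' hfd hy e.symm hdy.symm (left_mem_line hx)).symm
  have hw := trn_mem h hx ha hy hA hb (Ne.symm hba) (hyu hA) (hyu hb) hX
  refine hno _ ?_ (key_commute h ha.1 hb.1 hd.1 hy hab hd.2.2.symm hdy hfy)
  by_cases hfx : f = x
  · exfalso
    apply hd.2.1
    have e1 : fl a (fl b f) = fl a (fl b x) := by rw [hfx]
    rw [hfdef, fl_fl hG hb.1, fl_fl hG ha.1, fl_of_commute hG hb.1 (commute_of_mem_line hx ha hb hX),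
      fl_of_commute hG ha.1 ha.2.2.symm] at e1
    exact e1
  have hk := kernel_mem h hx hd hfL hfx hfd ha
  have := fl_line hG hd.1 (fl_line hG hfL.1 hw)
  rw [fl_of_commute hG hfL.1 (commute_of_mem_line hx hd hfL (left_mem_line hx)),
    fl_of_commute hG hd.1 hd.2.2.symm] at this
  have hne : fl d (fl f a) ≠ x := by
    intro e
    apply ha.2.1
    have e1 := congrArg (fun s => fl f (fl d s)) e
    simp only [fl_fl hG hd.1, fl_fl hG hfL.1] at e1
    rw [e1, fl_of_commute hG hd.1 hd.2.2.symm,
      fl_of_commute hG hfL.1 (commute_of_mem_line hx hd hfL (left_mem_line hx))]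
  rwa [line_eq h hx ha hX hk (Ne.symm hne)] at this

/-- Being collinear with a hit: every line through `x` is hit once one is. -/
theorem hit_all (hx : x ∈ D) (hy : y ∈ D) (hxy : ¬ Commute x y) (hd : d ∈ perp D x) (hdy : Commute d y)
    (ha : a ∈ perp D x) : ∃ t ∈ line D x a, Commute t y := by
  have hG := h.grp
  obtain ⟨k, hk, rfl⟩ := h.trans x hx d hd a ha
  have move : ∀ q ∈ perp D x, ∀ p ∈ perp D x, (∃ t ∈ line D x p, Commute t y) →
      ∃ t ∈ line D x (fl q p), Commute t y := by
    rintro q hq p hp ⟨e, he, hey⟩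
    by_cases hc : Commute q p
    · rw [fl_of_commute hG hq.1 hc]; exact ⟨e, he, hey⟩
    · have hex : e ≠ x := by rintro rfl; exact hxy hey
      have hep := mem_line_perp h hx hp he hex
      have hqp : fl q p ∈ perp D x := by
        have := fl_perp hG hq.1 hp
        rwa [fl_of_commute hG hq.1 hq.2.2.symm] at this
      refine step h hx hqp hy hxy hep hey fun hc' => ?_
      refine not_commute_third_left hG.1 hp.1 hq.1 (fun c => hc c.symm) ?_
      show Commute p (p * q * p)
      rw [show p * q * p = fl q p from (fl_braid hG hq.1 hp.1 hc).symm]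
      exact (commute_all h hx hp (left_mem_line hx) he (Ne.symm hex) hqp.1 hqp.2.2.symm hc'.symm
        (right_mem_line hp.1)).symm
  suffices ∀ k ∈ Subgroup.closure (perp D x), ∀ d ∈ perp D x, Commute d y →
      k * d * k⁻¹ ∈ perp D x ∧ ∃ t ∈ line D x (k * d * k⁻¹), Commute t y from
    (this k hk d hd hdy).2
  clear hd ha hdy hk k d
  intro k hk
  induction hk using Subgroup.closure_induction_left with
  | one => intro d hd hdy; simpa using ⟨hd, d, right_mem_line hd.1, hdy⟩
  | mul_left q hq k hk ih =>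
    intro d hd hdy
    obtain ⟨h1, h2⟩ := ih d hd hdy
    have e : q * k * d * (q * k)⁻¹ = fl q (k * d * k⁻¹) := by
      show _ = q * (k * d * k⁻¹) * q
      rw [mul_inv_rev, inv_eq hG.1 hq.1]; group
    rw [e]
    refine ⟨?_, move q hq _ h1 h2⟩
    have := fl_perp hG hq.1 h1
    rwa [fl_of_commute hG hq.1 hq.2.2.symm] at this
  | inv_mul_cancel q hq k hk ih =>
    intro d hd hdy
    obtain ⟨h1, h2⟩ := ih d hd hdy
    rw [inv_eq hG.1 hq.1]
    have e : q * k * d * (q * k)⁻¹ = fl q (k * d * k⁻¹) := by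
      show _ = q * (k * d * k⁻¹) * q
      rw [mul_inv_rev, inv_eq hG.1 hq.1]; group
    rw [e]
    refine ⟨?_, move q hq _ h1 h2⟩
    have := fl_perp hG hq.1 h1
    rwa [fl_of_commute hG hq.1 hq.2.2.symm] at this

/-- Two members which do not commute have a common neighbour. -/
theorem exists_common (hx : x ∈ D) (hy : y ∈ D) (hxy : ¬ Commute x y) : ∃ d ∈ perp D x, Commute d y := by
  let P : G → G → Prop := fun p q => Commute p q ∨ ∃ d ∈ perp D p, Commute d q
  have key : ∀ p q : D, (Cfsg.commutingGraph D).Walk p q → P p q := by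
    intro p q w
    induction w with
    | nil => exact Or.inl (Commute.refl _)
    | @cons u v z hadj _ ih =>
      obtain ⟨hne, huv⟩ := commutingGraph_adj.1 hadj
      have hv : (v : G) ∈ perp D (u : G) := ⟨v.2, fun e => hne (Subtype.ext e.symm), huv⟩
      by_cases huz : Commute (u : G) (z : G)
      · exact Or.inl huz
      rcases ih with hvz | ⟨e, he, hez⟩
      · exact Or.inr ⟨v, hv, hvz⟩
      · by_cases hvz : Commute (v : G) (z : G)
        · exact Or.inr ⟨v, hv, hvz⟩
        · have hu : (u : G) ∈ perp D (v : G) := ⟨u.2, fun e => hne (Subtype.ext e), huv.symm⟩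
          obtain ⟨t, ht, htz⟩ := hit_all h v.2 z.2 hvz he hez hu
          have htu : t ≠ u := by rintro rfl; exact huz htz
          exact Or.inr ⟨t, ⟨ht.1, htu, commute_of_mem_line v.2 hu (right_mem_line u.2) ht⟩, htz⟩
  obtain ⟨w⟩ := h.conn.preconnected ⟨x, hx⟩ ⟨y, hy⟩
  exact (key _ _ w).resolve_left hxy

/-- A member commutes with some point of every line. -/
theorem exists_hit (hx : x ∈ D) (ha : a ∈ perp D x) (hy : y ∈ D) : ∃ t ∈ line D x a, Commute t y := by
  by_cases hxy : Commute x y
  · exact ⟨x, left_mem_line hx, hxy⟩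
  · obtain ⟨d, hd, hdy⟩ := exists_common h hx hy hxy
    exact hit_all h hx hy hxy hd hdy ha

/-- The point of a line commuting with a member is unique if the member does not commute with the whole line. -/
theorem hit_unique (hx : x ∈ D) (ha : a ∈ perp D x) (hy : y ∈ D) (hu : u ∈ line D x a) (hv : v ∈ line D x a)
    (hyu : Commute y u) (hyv : Commute y v) (ht : t ∈ line D x a) (hyt : ¬ Commute y t) : u = v :=
  by_contra fun hne => hyt (commute_all h hx ha hu hv hne hy hyu hyv ht)

end CfsgLib.Fischer.CoreTwo
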