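import Cfsg.Agent.Lib.Fischer.CoreTwo.Model
import Cfsg.Agent.Lib.Fischer.UnitaryTransv2
import Cfsg.Agent.Lib.ClassicalForms.Unitary.Simple
import Cfsg.Agent.Lib.ClassicalForms.Unitary.Card

/-!
Lines with five points: the group is the projective special unitary group over the field with four elements.
-/
set_option autoImplicit false
set_option linter.unusedSectionVars false

namespace CfsgLib.Fischer.CoreTwo

open CfsgLib.Fischer CfsgLib.ClassicalForms
open CfsgLib.Fischer.UnitaryTransv2 (mat mat_inj mat_mul transvs)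
open scoped Matrix

section

variable {F : Type} [Field F] [Fintype F] {n : ℕ}

theorem line_mulVec (K : Four F) (v u : Fin n → F) :
    (1 + UnitaryTransv2.line v) *ᵥ u = tv v u := by
  rw [Matrix.add_mulVec, Matrix.one_mulVec, UnitaryTransv2.line, Matrix.vecMulVec_mulVec, op_smul_eq_smul, tv]
  congr 2
  simp [dotProduct, Cfsg.hermForm, mul_comm]

theorem exists_su_tv (K : Four F) {v : Fin n → F} (hv : Cfsg.hermForm n F 2 v v = 0) :
    ∃ s : Cfsg.SU n F 2, mat s = 1 + UnitaryTransv2.line v := by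
  have hd : (fun j => v j ^ 2) ⬝ᵥ v = 0 := by
    rw [← hv]; simp [dotProduct, Cfsg.hermForm, mul_comm]
  have hdet : (1 + UnitaryTransv2.line v).det = 1 := by
    rw [UnitaryTransv2.line, Matrix.vecMulVec_eq Unit, Matrix.det_one_add_replicateCol_mul_replicateRow, hd,
      add_zero]
  let g : Matrix.SpecialLinearGroup (Fin n) F := ⟨1 + UnitaryTransv2.line v, hdet⟩
  have hg : g ∈ Cfsg.SU n F 2 := fun a b => by
    show Cfsg.hermForm n F 2 ((1 + UnitaryTransv2.line v) *ᵥ a) ((1 + UnitaryTransv2.line v) *ᵥ b) = _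
    rw [line_mulVec K, line_mulVec K, tv, tv, K.c.add_left, K.c.add_right, K.c.add_right, K.c.smul_left,
      K.c.smul_left, K.c.smul_right, K.c.smul_right, hv, K.c.herm_symm b v]
    linear_combination (Cfsg.hermForm n F 2 a v * K.c.σ (Cfsg.hermForm n F 2 b v)) * K.two
  exact ⟨⟨g, hg⟩, rfl⟩

theorem su_preserve (s : Cfsg.SU n F 2) (u v : Fin n → F) :
    Cfsg.hermForm n F 2 (mat s *ᵥ u) (mat s *ᵥ v) = Cfsg.hermForm n F 2 u v := s.2 u v

theorem su_tv (K : Four F) (s : Cfsg.SU n F 2) (v u : Fin n → F) :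
    mat s *ᵥ tv v u = tv (mat s *ᵥ v) (mat s *ᵥ u) := by
  rw [tv, tv, Matrix.mulVec_add, Matrix.mulVec_smul, su_preserve]

theorem mat_ext {s t : Cfsg.SU n F 2} (h : ∀ u, mat s *ᵥ u = mat t *ᵥ u) : s = t :=
  mat_inj (Matrix.ext_of_mulVec_single fun _ => h _)

theorem mulVec_sim (s : Cfsg.SU n F 2) {v v' : Fin n → F} (h : Sim v v') : Sim (mat s *ᵥ v) (mat s *ᵥ v') := by
  obtain ⟨k, hk, rfl⟩ := h
  exact ⟨k, hk, Matrix.mulVec_smul _ _ _⟩

theorem exists_hermForm_ne {v : Fin n → F} (K : Four F) (hv : v ≠ 0) :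
    ∃ u, Cfsg.hermForm n F 2 u v ≠ 0 := by
  obtain ⟨i, hi⟩ := Function.ne_iff.1 hv
  exact ⟨Pi.single i 1, by rw [K.c.single_left]; exact K.sig_ne _ hi⟩

end

variable {G : Type*} [Group G] [Finite G] {D : Set G} {x y : G}
variable {F : Type} [Field F] [Fintype F]

/-- Lines with five points give the unitary group; the dimension is at most five when the subgroup generated by the
neighbours of a member is solvable. -/
theorem exists_psu_iso (B : Base D x y) (K : Four F) (hZ : Subgroup.center G = ⊥) :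
    ∃ m : ℕ, 2 ≤ m ∧ Nonempty (G ≃* Cfsg.PSU (m + 1 + 1) F 2) ∧
      (4 ≤ m → ¬ Group.IsSolvable (Subgroup.closure (perp D x))) := by
  classical
  obtain ⟨R, rfl⟩ := B.exists_frame K
  have hG := R.grp
  refine ⟨R.m, ?_⟩
  set n := R.m + 1 + 1 with hn
  have hm : 2 ≤ R.m := by
    obtain ⟨d₀, hd₀, hd₀y⟩ := exists_common B.hyp B.hx B.hy B.hxy
    obtain ⟨he, -⟩ := R.mate_spec (⟨hd₀, hd₀y⟩ : d₀ ∈ phi D x y)
    by_contra hlt
    have h0 : Cfsg.hermForm R.m F 2 _ _ = 0 := R.H_Ψ_self he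
    refine R.Ψ_ne he (funext fun i => ?_)
    have hone : ∀ j : Fin R.m, j = i := fun j => Fin.ext (by have := j.2; have := i.2; omega)
    rw [R.K.c.herm_apply, Finset.sum_eq_single i (fun j _ hj => absurd (hone j) hj) (by simp)] at h0
    by_contra hne
    exact one_ne_zero ((R.K.norm _ hne).symm.trans h0)
  have hT : ∀ t : D, ∃ s : Cfsg.SU n F 2, mat s = 1 + UnitaryTransv2.line (R.pi' (t : G)) := fun t =>
    exists_su_tv R.K (R.pi_isotropic t.2).2
  choose T hT using hT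
  have hTv : ∀ (t : D) (u : Fin n → F), mat (T t) *ᵥ u = tv (R.pi' (t : G)) u := fun t u => by
    rw [hT, line_mulVec R.K]
  let Rel : Subgroup (G × Cfsg.SU n F 2) :=
    { carrier := {gs | ∀ b ∈ D, Sim (mat gs.2 *ᵥ R.pi' b) (R.pi' (gs.1 * b * gs.1⁻¹))}
      one_mem' := fun b _ => by
        refine Sim.of_eq ?_
        simp only [Prod.fst_one, Prod.snd_one, UnitaryTransv2.mat_one, Matrix.one_mulVec, one_mul, inv_one,
          mul_one]
      mul_mem' := fun {s t} hs ht b hb => by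
        have h1 := hs _ (hG.2.1 t.1 b hb)
        rw [Prod.snd_mul, mat_mul, ← Matrix.mulVec_mulVec,
          show (s * t).1 * b * (s * t).1⁻¹ = s.1 * (t.1 * b * t.1⁻¹) * s.1⁻¹ by rw [Prod.fst_mul]; group]
        exact (mulVec_sim _ (ht b hb)).trans h1
      inv_mem' := fun {s} hs b hb => by
        have h1 := mulVec_sim s.2⁻¹ (hs _ (hG.2.1 s.1⁻¹ b hb))
        rw [Matrix.mulVec_mulVec, ← mat_mul, inv_mul_cancel, UnitaryTransv2.mat_one, Matrix.one_mulVec,
          show s.1 * (s.1⁻¹ * b * s.1⁻¹⁻¹) * s.1⁻¹ = b by group] at h1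
        exact h1.symm }
  let p1 : Rel →* G := (MonoidHom.fst _ _).comp Rel.subtype
  let p2 : Rel →* Cfsg.SU n F 2 := (MonoidHom.snd _ _).comp Rel.subtype
  have hx' : (x : G) ∈ D := B.hx
  have pairx : ((x, T ⟨x, hx'⟩) : G × Cfsg.SU n F 2) ∈ Rel := fun b hb => by
    show Sim (mat (T ⟨x, hx'⟩) *ᵥ R.pi' b) (R.pi' (x * b * x⁻¹))
    rw [hTv, inv_eq hG.1 hx']
    exact R.equi_x hb
  have pairz : ((fl x y, T ⟨fl x y, R.z_mem⟩) : G × Cfsg.SU n F 2) ∈ Rel := fun b hb => by
    show Sim (mat (T ⟨fl x y, R.z_mem⟩) *ᵥ R.pi' b) (R.pi' (fl x y * b * (fl x y)⁻¹))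
    rw [hTv, inv_eq hG.1 R.z_mem]
    have e : R.pi' (fl x y) = R.vc 1 1 0 := by
      rw [R.pi_opp R.z_opp, R.al_one R.z_opp (Commute.refl _), R.vq_fl_x R.y_opp, R.vq_y]
    rw [e]
    exact R.equi_z hb
  have pairphi : ∀ d (hd : d ∈ phi D x y), ((d, T ⟨d, hd.1.1⟩) : G × Cfsg.SU n F 2) ∈ Rel := fun d hd b hb => by
    show Sim (mat (T ⟨d, hd.1.1⟩) *ᵥ R.pi' b) (R.pi' (d * b * d⁻¹))
    rw [hTv, inv_eq hG.1 hd.1.1]
    exact R.equi_phi hd hb
  have pairperp : ∀ e (he : e ∈ perp D x), ((e, T ⟨e, he.1⟩) : G × Cfsg.SU n F 2) ∈ Rel := by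
    intro e he
    rcases R.perp_cases he with h | h
    · exact pairphi e h
    · have hd := bp_phi_mem B he
      have h1 : ((e * bp D x y e, T ⟨e, he.1⟩ * T ⟨_, hd.1.1⟩) : G × Cfsg.SU n F 2) ∈ Rel := fun b hb => by
        show Sim (mat (T ⟨e, he.1⟩ * T ⟨_, hd.1.1⟩) *ᵥ R.pi' b)
          (R.pi' (e * bp D x y e * b * (e * bp D x y e)⁻¹))
        rw [mat_mul, ← Matrix.mulVec_mulVec, hTv, hTv,
          show e * bp D x y e * b * (e * bp D x y e)⁻¹ = R.tau e b by
            show _ = e * (bp D x y e * b * bp D x y e) * e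
            rw [mul_inv_rev, inv_eq hG.1 he.1, inv_eq hG.1 hd.1.1]; group]
        exact R.equi_tau h hb
      have := mul_mem h1 (inv_mem (pairphi _ hd))
      simpa using this
  have s1 : Function.Surjective p1 := by
    have hy : y ∈ p1.range := by
      refine ⟨⟨_, mul_mem (mul_mem pairz pairx) pairz⟩, ?_⟩
      show fl x y * x * fl x y = y
      exact R.fl_z_x
    have hperp : perp D x ⊆ (p1.range : Set G) := fun e he => ⟨⟨_, pairperp e he⟩, rfl⟩
    have hxr : x ∈ p1.range := ⟨⟨_, pairx⟩, rfl⟩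
    have hle : Subgroup.closure D ≤ p1.range := (Subgroup.closure_le _).2 fun t ht => by
      rcases R.tri_cases ht with rfl | hp | hq
      · exact hxr
      · exact hperp hp
      · obtain ⟨q0, hq0, hq0r, hv⟩ := R.exists_vec_mem p1.range hy hperp (R.vq t)
        rcases R.fibre_two hq0 hq (R.vq_eq hq0 hv).symm with rfl | rfl
        · exact hq0r
        · exact mul_mem (mul_mem hxr hq0r) hxr
    exact fun g => hle (hG.2.2.symm ▸ Subgroup.mem_top g)
  have pairs : ∀ a : D, ((↑a, T a) : G × Cfsg.SU n F 2) ∈ Rel := by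
    rintro ⟨a, ha⟩
    obtain ⟨g, rfl⟩ := B.hyp.conjugate x hx' a ha
    obtain ⟨⟨⟨g', s⟩, hr⟩, rfl⟩ := s1 g
    have h1 := mul_mem (mul_mem hr pairx) (inv_mem hr)
    have e : s * T ⟨x, hx'⟩ * s⁻¹ = T ⟨g' * x * g'⁻¹, ha⟩ := by
      rw [mul_inv_eq_iff_eq_mul]
      refine mat_ext fun u => ?_
      rw [mat_mul, mat_mul, ← Matrix.mulVec_mulVec, ← Matrix.mulVec_mulVec, hTv, hTv, su_tv R.K]
      exact tv_center R.K (hr x hx')
    show ((g' * x * g'⁻¹, T ⟨g' * x * g'⁻¹, ha⟩) : G × Cfsg.SU n F 2) ∈ Rel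
    rw [← e]
    exact h1
  have hgen : ∀ s ∈ transvs F n, ∃ a : D, s = T a := by
    intro s hs
    obtain ⟨v, hv0, hv, e⟩ := UnitaryTransv2.mem_form (fun a => R.K.c.apply a) R.K.c.invol R.K.card hs
    have hv' : Cfsg.hermForm n F 2 v v = 0 := by
      rw [← Forms.hermBundled_apply (fun a => R.K.c.apply a)]; exact hv
    obtain ⟨t, ht, hsim⟩ := R.pi_surj hv0 hv'
    refine ⟨⟨t, ht⟩, mat_ext fun u => ?_⟩
    rw [hTv, e, line_mulVec R.K]
    exact tv_center R.K hsim
  have hclass := UnitaryTransv2.isThreeTranspositionClass (F := F) (n := n) R.K.card (by omega)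
  have s2 : Function.Surjective p2 := by
    have hle : Subgroup.closure (transvs F n) ≤ p2.range := (Subgroup.closure_le _).2 fun s hs => by
      obtain ⟨a, rfl⟩ := hgen s hs
      exact ⟨⟨_, pairs a⟩, rfl⟩
    exact fun s => hle (hclass.2.2.symm ▸ Subgroup.mem_top s)
  have hcent : ∀ r : Rel, p1 r = 1 → p2 r ∈ Subgroup.center (Cfsg.SU n F 2) := by
    intro r hr
    have hfix : ∀ a : D, p2 r * T a = T a * p2 r := fun a => by
      refine mat_ext fun u => ?_
      rw [mat_mul, mat_mul, ← Matrix.mulVec_mulVec, ← Matrix.mulVec_mulVec, hTv, hTv, su_tv R.K]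
      refine tv_center R.K ?_
      have := r.2 (a : G) a.2
      rw [show r.1.1 = 1 from hr] at this
      show Sim (mat r.1.2 *ᵥ R.pi' (a : G)) _
      simpa using this
    rw [Subgroup.mem_center_iff]
    intro g
    have hle : Subgroup.closure (transvs F n) ≤ Subgroup.centralizer ({p2 r} : Set (Cfsg.SU n F 2)) :=
      (Subgroup.closure_le _).2 fun s hs => by
        obtain ⟨a, rfl⟩ := hgen s hs
        exact Subgroup.mem_centralizer_singleton_iff.2 (hfix a).symm
    exact Subgroup.mem_centralizer_singleton_iff.1 (hle (hclass.2.2.symm ▸ Subgroup.mem_top g))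
  let q : Rel →* Cfsg.PSU n F 2 := (QuotientGroup.mk' _).comp p2
  have hq : Function.Surjective q := (QuotientGroup.mk'_surjective _).comp s2
  have hker : p1.ker = q.ker := by
    ext r
    rw [MonoidHom.mem_ker, MonoidHom.mem_ker]
    refine ⟨fun hr => (QuotientGroup.eq_one_iff _).2 (hcent r hr), fun hr => ?_⟩
    have hc : p2 r ∈ Subgroup.center (Cfsg.SU n F 2) := (QuotientGroup.eq_one_iff _).1 hr
    have hfix : ∀ b ∈ D, Commute r.1.1 b := by
      intro b hb
      have hcomm := Subgroup.mem_center_iff.1 hc (T ⟨b, hb⟩)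
      obtain ⟨u, hu⟩ := exists_hermForm_ne R.K (R.pi_isotropic hb).1
      have h1 := congrArg (fun s => mat s *ᵥ u) hcomm
      simp only [mat_mul, ← Matrix.mulVec_mulVec, hTv] at h1
      rw [su_tv R.K] at h1
      have h2 : Cfsg.hermForm n F 2 (mat (p2 r) *ᵥ u) (R.pi' b) • R.pi' b =
          Cfsg.hermForm n F 2 u (R.pi' b) • (mat (p2 r) *ᵥ R.pi' b) := by
        have h1' := add_left_cancel (h1 : mat (p2 r) *ᵥ u + _ = mat (p2 r) *ᵥ u + _)
        rwa [su_preserve] at h1'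
      have hne : Cfsg.hermForm n F 2 (mat (p2 r) *ᵥ u) (R.pi' b) ≠ 0 := fun c => by
        rw [c, zero_smul, eq_comm, smul_eq_zero] at h2
        rcases h2 with h2 | h2
        · exact hu h2
        · obtain ⟨k, hk, h3⟩ := r.2 b hb
          rw [show mat r.1.2 *ᵥ R.pi' b = mat (p2 r) *ᵥ R.pi' b from rfl, h2, eq_comm, smul_eq_zero] at h3
          exact h3.elim hk (R.pi_isotropic (hG.2.1 r.1.1 b hb)).1
      have hsim : Sim (R.pi' b) (mat (p2 r) *ᵥ R.pi' b) :=
        ⟨(Cfsg.hermForm n F 2 (mat (p2 r) *ᵥ u) (R.pi' b))⁻¹ * Cfsg.hermForm n F 2 u (R.pi' b),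
          mul_ne_zero (inv_ne_zero hne) hu, by
            rw [mul_smul, ← h2, smul_smul, inv_mul_cancel₀ hne, one_smul]⟩
      have := R.pi_inj hb (hG.2.1 r.1.1 b hb) (hsim.trans (r.2 b hb))
      exact mul_inv_eq_iff_eq_mul.1 this.symm
    have hcg : r.1.1 ∈ Subgroup.center G := mem_center hG.2.2 hfix
    rw [hZ, Subgroup.mem_bot] at hcg
    exact hcg
  refine ⟨hm, ⟨(QuotientGroup.quotientKerEquivOfSurjective p1 s1).symm.trans
    ((QuotientGroup.quotientMulEquivOfEq hker).trans (QuotientGroup.quotientKerEquivOfSurjective q hq))⟩, ?_⟩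
  intro hm4 hsolv
  let L : Subgroup Rel := (Subgroup.closure (perp D x)).comap p1
  let f : L →* Subgroup.closure (perp D x) :=
    (p1.comp L.subtype).codRestrict _ fun r => r.2
  haveI := hsolv
  haveI : Group.IsSolvable f.ker := Group.isSolvable_of_comm fun a b => by
    have ha : p1 a.1.1 = 1 := congrArg Subtype.val a.2
    have hb : p1 b.1.1 = 1 := congrArg Subtype.val b.2
    refine Subtype.ext (Subtype.ext (Subtype.ext (Prod.ext ?_ ?_)))
    · show p1 a.1.1 * p1 b.1.1 = p1 b.1.1 * p1 a.1.1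
      rw [ha, hb]
    · exact (Subgroup.mem_center_iff.1 (hcent _ ha) (p2 b.1.1)).symm
  haveI : Group.IsSolvable L := Group.isSolvable_of_ker_le_range f.ker.subtype f (by rw [Subgroup.range_subtype])
  let P : Subgroup (Cfsg.GU n F 2) := L.map (suToGU.comp p2)
  haveI : Group.IsSolvable P :=
    Group.isSolvable_of_surjective (f := (suToGU.comp p2).subgroupMap L) (MonoidHom.subgroupMap_surjective _ L)
  let φ : Cfsg.SU R.m F 2 →* Cfsg.GU n F 2 :=
    (guExt R.K.c (R.m + 1)).comp ((guExt R.K.c R.m).comp suToGU)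
  have hφ : Function.Injective φ :=
    (guExt_injective R.K.c).comp ((guExt_injective R.K.c).comp suToGU_injective)
  have hclassm := UnitaryTransv2.isThreeTranspositionClass (F := F) (n := R.m) R.K.card hm4
  have hle : Subgroup.closure (transvs F R.m) ≤ P.comap φ := (Subgroup.closure_le _).2 fun s hs => by
    obtain ⟨v, hv0, hv, e⟩ := UnitaryTransv2.mem_form (fun a => R.K.c.apply a) R.K.c.invol R.K.card hs
    have hv' : R.H v v = 0 := by
      show Cfsg.hermForm R.m F 2 v v = 0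
      rw [← Forms.hermBundled_apply (fun a => R.K.c.apply a)]; exact hv
    obtain ⟨e', he', rfl⟩ := R.main.2.2 v hv' hv0
    have hd := bp_phi_mem B he'.1
    refine ⟨⟨_, pairs ⟨bp D x y e', hd.1.1⟩⟩, Subgroup.subset_closure hd.1, gu_ext fun u => ?_⟩
    show mat (T ⟨bp D x y e', hd.1.1⟩) *ᵥ u = Geometric.ap (guExt R.K.c (R.m + 1) (guExt R.K.c R.m (suToGU s)) :
      GL (Fin n) F) u
    rw [hTv, tv_center R.K (R.pi_bp he'), ap_guExt, ap_guExt]
    show _ = (Fin.cons (u 0) (Fin.cons (vtail u 0) (mat s *ᵥ vtail (vtail u)) : Fin (R.m + 1) → F) : Fin n → F)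
    rw [e, line_mulVec R.K]
    have h0 : Cfsg.hermForm n F 2 u (R.vc 0 0 (R.Ψ e')) = Cfsg.hermForm R.m F 2 (vtail (vtail u)) (R.Ψ e') := by
      conv_lhs => rw [← cons_vtail u, ← cons_vtail (vtail u)]
      show Cfsg.hermForm (R.m + 1 + 1) F 2 _ _ = _
      rw [Frame.vc, R.K.c.herm_cons, R.K.c.herm_cons]
      simp
    rw [tv, tv, h0]
    conv_lhs => arg 1; rw [← cons_vtail u, ← cons_vtail (vtail u)]
    funext i
    refine Fin.cases ?_ (fun j => Fin.cases ?_ (fun l => ?_) j) i <;> simp [Frame.vc]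
  rw [hclassm.2.2] at hle
  let φ' : Cfsg.SU R.m F 2 →* P := φ.codRestrict P fun s => hle (Subgroup.mem_top s)
  haveI : Group.IsSolvable (Cfsg.SU R.m F 2) :=
    Group.isSolvable_of_isSolvable_injective (f := φ') fun a b c => hφ (congrArg Subtype.val c)
  haveI : Nontrivial (Cfsg.SU R.m F 2) := by
    obtain ⟨d, hd, -⟩ := hclassm.2.1
    exact ⟨d, 1, fun c => by simpa [c] using hclassm.1.1 d hd⟩
  exact (Group.IsSolvable.commutator_lt_top_of_nontrivial (Cfsg.SU R.m F 2)).ne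
    (commutator_su_eq_top (q := 2) (by rw [R.K.card]; norm_num) (by omega) (by omega))

end CfsgLib.Fischer.CoreTwo
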