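import Cfsg.Agent.Lib.Fischer.CoreTwo.Symplectic
import Cfsg.Agent.Lib.Fischer.CoreTwo.Unitary
import Cfsg.Agent.Lib.Fischer.CoreThree.Main
import Cfsg.Agent.Lib.Fischer.Structure

/-!
Fischer: the groups in which the neighbours of a member generate a group with a non-central 2-core, or a solvable one.
-/
set_option autoImplicit false

namespace CfsgLib.Fischer.CoreTwo

open CfsgLib.Fischer Transitivity

variable {G : Type*} [Group G] [Finite G] {D : Set G} {x : G}

theorem pCore_eq_bot (hsol : ∀ N : Subgroup G, N.Normal → Group.IsSolvable ↥N → N = ⊥) (p : ℕ) (hp : p.Prime) :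
    Cfsg.pCore p G = ⊥ := by
  haveI : Fact p.Prime := ⟨hp⟩
  haveI := CfsgLib.Cores.pCore_characteristic p G
  haveI := (CfsgLib.Cores.isPGroup_pCore p G).isNilpotent
  exact hsol _ inferInstance inferInstance

theorem center_eq_bot (hsol : ∀ N : Subgroup G, N.Normal → Group.IsSolvable ↥N → N = ⊥) :
    Subgroup.center G = ⊥ :=
  hsol _ inferInstance (Group.isSolvable_of_comm fun a b => Subtype.ext (Subgroup.mem_center_iff.1 b.2 a))

theorem not_comm_class (hsol : ∀ N : Subgroup G, N.Normal → Group.IsSolvable ↥N → N = ⊥)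
    (hD : Cfsg.IsThreeTranspositionClass D) (hx : x ∈ D) (hc : ∀ a ∈ D, ∀ b ∈ D, Commute a b) : False := by
  have hG := group_of_class hD
  have hm := mem_center hG.2.2 (a := x) fun b hb => hc x hx b hb
  rw [center_eq_bot hsol, Subgroup.mem_bot] at hm
  exact ne_one hD.1 hx hm

theorem sameV_perp {b v : G} {H : Subgroup G} (hH : perp D x ⊆ (H : Set G)) (hb : b ∈ H) (hv : v ∈ H)
    (h : SameV {t : H | (t : G) ∈ perp D x} ⟨b, hb⟩ ⟨v, hv⟩) :
    v ∈ perp D x ∧ ∀ t ∈ perp D x, Commute b t ↔ Commute v t := by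
  refine ⟨h.1, fun t ht => ?_⟩
  have := h.2 ⟨t, hH ht⟩ ht
  constructor
  · exact fun e => congrArg Subtype.val (this.2 (Subtype.ext e)).eq
  · exact fun e => congrArg Subtype.val (this.1 (Subtype.ext e)).eq

/-- The class of the neighbours of `x` in the subgroup they generate. -/
theorem class_perp (hD : Cfsg.IsThreeTranspositionClass D)
    (htrans : ∀ x ∈ D, ∀ b ∈ perp D x, ∀ b' ∈ perp D x, b' ∈ orb D x b) (hx : x ∈ D) {b : G} (hb : b ∈ perp D x) :
    Cfsg.IsThreeTranspositionClass {t : Subgroup.closure (perp D x) | (t : G) ∈ perp D x} := by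
  have hG := group_of_class hD
  have hDH : Cfsg.IsThreeTranspositionGroup {t : Subgroup.closure (perp D x) | (t : G) ∈ perp D x} :=
    ⟨subset (restrict hG.1 _) _ fun t ht => ht.1, fun g t ht => perp_conj_mem hG g.2 ht,
      Subgroup.closure_closure_coe_preimage⟩
  refine class_of_group hDH (show (⟨b, Subgroup.subset_closure hb⟩ : Subgroup.closure (perp D x)) ∈
    {t : Subgroup.closure (perp D x) | (t : G) ∈ perp D x} from hb) fun t ht => ?_
  obtain ⟨k, hk, e⟩ := htrans x hx b hb t ht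
  exact ⟨⟨k, hk⟩, Subtype.ext e⟩

theorem perp_nonempty (h : ∃ a : Subgroup.closure (perp D x), a ≠ 1) : (perp D x).Nonempty := by
  by_contra he
  rw [Set.not_nonempty_iff_eq_empty] at he
  obtain ⟨⟨a, ha⟩, hne⟩ := h
  simp only [he, Subgroup.closure_empty, Subgroup.mem_bot] at ha
  exact hne (Subtype.ext ha)

theorem hyp_of_pCore (hsol : ∀ N : Subgroup G, N.Normal → Group.IsSolvable ↥N → N = ⊥)
    (hperf : ⁅commutator G, commutator G⁆ = commutator G) (hD : Cfsg.IsThreeTranspositionClass D) (hx : x ∈ D)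
    (h : ¬ Cfsg.pCore 2 ↥(Subgroup.closure (perp D x)) ≤ Subgroup.center ↥(Subgroup.closure (perp D x))) :
    Hyp D := by
  have hG := group_of_class hD
  obtain ⟨b, hb⟩ := perp_nonempty (D := D) (x := x) (by
    by_contra hno
    push Not at hno
    exact h fun a _ => Subgroup.mem_center_iff.2 fun g => by rw [hno a, hno g])
  obtain ⟨hprim, hconn⟩ := primitive_connected hD hsol hperf ⟨x, hx, b, hb.1, Ne.symm hb.2.1, hb.2.2⟩
  have htrans : ∀ x ∈ D, ∀ b ∈ perp D x, ∀ b' ∈ perp D x, b' ∈ orb D x b := fun x hx b hb b' hb' =>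
    transitive hD hprim hconn hx hb hb'
  refine ⟨hG, fun a ha b hb => exists_conj_of_class hD ha hb, htrans, fun a ha b hb hiff => ?_, hconn, ?_⟩
  · have := SameV.mem_pCore hG (d := a) (v := b) ⟨hb, fun e he => (hiff e he).symm⟩ ha
    rw [pCore_eq_bot hsol 2 Nat.prime_two, Subgroup.mem_bot, mul_eq_one_iff_eq_inv, inv_eq hD.1 hb] at this
    exact this
  · obtain ⟨⟨v, hvH⟩, hv, hne⟩ := exists_sameV_of_pCore (class_perp hD htrans hx hb)
      (show (⟨b, Subgroup.subset_closure hb⟩ : Subgroup.closure (perp D x)) ∈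
        {t : Subgroup.closure (perp D x) | (t : G) ∈ perp D x} from hb) h
    obtain ⟨h1, h2⟩ := sameV_perp Subgroup.subset_closure _ hvH hv
    exact ⟨x, hx, b, hb, v, h1, fun e => hne (Subtype.ext e.symm), h2⟩

theorem line_uniform (h : Hyp D) :
    (∀ x ∈ D, ∀ a ∈ perp D x, (line D x a).ncard = 3) ∨ ∀ x ∈ D, ∀ a ∈ perp D x, (line D x a).ncard = 5 := by
  obtain ⟨x₀, hx₀, a₀, ha₀, -⟩ := h.pair
  have key : ∀ x ∈ D, ∀ a ∈ perp D x, (line D x a).ncard = (line D x₀ a₀).ncard := by
    intro x hx a ha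
    obtain ⟨g, rfl, rfl⟩ := exists_move h hx₀ ha₀ hx ha
    have : line D (g * x₀ * g⁻¹) (g * a₀ * g⁻¹) = (fun t => g * t * g⁻¹) '' line D x₀ a₀ := by
      ext t
      constructor
      · intro ht
        have := conj_line h.grp g⁻¹ ht
        refine ⟨g⁻¹ * t * g, ?_, by group⟩
        simpa [mul_assoc] using this
      · rintro ⟨s, hs, rfl⟩
        exact conj_line h.grp g hs
    rw [this, Set.ncard_image_of_injective _ fun s s' e => Transitivity.conj_injective (g := g) e]
  rcases line_card h hx₀ ha₀ with e | e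
  · exact Or.inl fun x hx a ha => (key x hx a ha).trans e
  · exact Or.inr fun x hx a ha => (key x hx a ha).trans e

/-- The two conclusions. -/
theorem classify (h : Hyp D) (hZ : Subgroup.center G = ⊥) :
    (∃ m, 2 ≤ m ∧ Nonempty (G ≃* Matrix.symplecticGroup (Fin m) (ZMod 2)) ∧
      (3 ≤ m → ∃ x ∈ D, ¬ Group.IsSolvable (Subgroup.closure (perp D x)))) ∨
    ∃ (F : Type) (_ : Field F) (_ : Fintype F) (n : ℕ), Fintype.card F = 4 ∧ 4 ≤ n ∧
      Nonempty (G ≃* Cfsg.PSU n F 2) ∧
      (6 ≤ n → ∃ x ∈ D, ¬ Group.IsSolvable (Subgroup.closure (perp D x))) := by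
  rcases line_uniform h with h3 | h5
  · obtain ⟨m, e, -, h2, hn⟩ := exists_symp_iso h h3 hZ
    exact Or.inl ⟨m, h2, ⟨e⟩, hn⟩
  · obtain ⟨F, _, _, ⟨K⟩⟩ := exists_four
    obtain ⟨x₀, hx₀, a₀, ha₀, -⟩ := h.pair
    obtain ⟨y, hy, hxy⟩ := exists_not_commute h hx₀ ha₀
    obtain ⟨m, hm, he, hns⟩ := exists_psu_iso (⟨h, h5, hx₀, hy, hxy⟩ : Base D x₀ y) K hZ
    exact Or.inr ⟨F, inferInstance, inferInstance, m + 1 + 1, K.card, by omega, he,
      fun h6 => ⟨x₀, hx₀, hns (by omega)⟩⟩

theorem solvable_conj (hD : Cfsg.IsThreeTranspositionClass D) (hx : x ∈ D)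
    (hs : Group.IsSolvable (Subgroup.closure (perp D x))) {y : G} (hy : y ∈ D) :
    Group.IsSolvable (Subgroup.closure (perp D y)) := by
  have hG := group_of_class hD
  obtain ⟨g, rfl⟩ := exists_conj_of_class hD hx hy
  have e : (Subgroup.closure (perp D x)).map (MulAut.conj g).toMonoidHom =
      Subgroup.closure (perp D (g * x * g⁻¹)) := by
    rw [MonoidHom.map_closure]
    congr 1
    ext t
    constructor
    · rintro ⟨s, hs, rfl⟩
      exact image_perp hG g hs
    · intro ht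
      have := image_perp hG g⁻¹ ht
      rw [show g⁻¹ * (g * x * g⁻¹) * g⁻¹⁻¹ = x by group] at this
      exact ⟨_, this, by simp [mul_assoc]⟩
  rw [← e]
  haveI := hs
  exact Group.isSolvable_of_surjective (f := ((MulAut.conj g).toMonoidHom).subgroupMap _)
    (MonoidHom.subgroupMap_surjective _ _)

theorem false_of_cores_central (hsol : ∀ N : Subgroup G, N.Normal → Group.IsSolvable ↥N → N = ⊥)
    (hperf : ⁅commutator G, commutator G⁆ = commutator G) (hD : Cfsg.IsThreeTranspositionClass D) (hx : x ∈ D)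
    (hs : Group.IsSolvable (Subgroup.closure (perp D x)))
    (h2 : Cfsg.pCore 2 ↥(Subgroup.closure (perp D x)) ≤ Subgroup.center ↥(Subgroup.closure (perp D x)))
    (hodd : Cfsg.oddCore ↥(Subgroup.closure (perp D x)) ≤ Subgroup.center ↥(Subgroup.closure (perp D x))) :
    False := by
  have hG := group_of_class hD
  rcases (perp D x).eq_empty_or_nonempty with he | ⟨b, hb⟩
  · have hw : ∀ a ∈ D, ∀ b ∈ D, Commute a b → a = b := by
      intro a ha b hb hc
      obtain ⟨g, rfl⟩ := exists_conj_of_class hD hx ha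
      by_contra hne
      have hm : g⁻¹ * b * g⁻¹⁻¹ ∈ perp D x := by
        have := image_perp hG g⁻¹ (show b ∈ perp D (g * x * g⁻¹) from ⟨hb, Ne.symm hne, hc⟩)
        rwa [show g⁻¹ * (g * x * g⁻¹) * g⁻¹⁻¹ = x by group] at this
      rw [he] at hm
      exact hm
    have h1 : ∀ a ∈ D, a = x := by
      intro a ha
      have := mul_mem_pCore_three_of_width_one hG hw ha hx
      rwa [pCore_eq_bot hsol 3 Nat.prime_three, Subgroup.mem_bot, mul_eq_one_iff_eq_inv, inv_eq hD.1 hx] at this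
    exact not_comm_class hsol hD hx fun a ha b hb => by rw [h1 a ha, h1 b hb]
  obtain ⟨hprim, hconn⟩ := primitive_connected hD hsol hperf ⟨x, hx, b, hb.1, Ne.symm hb.2.1, hb.2.2⟩
  have htrans : ∀ x ∈ D, ∀ b ∈ perp D x, ∀ b' ∈ perp D x, b' ∈ orb D x b := fun x hx b hb b' hb' =>
    transitive hD hprim hconn hx hb hb'
  have hC := class_perp hD htrans hx hb
  have hsub : ∀ b' ∈ perp D x, b' = b := by
    intro b' hb'
    by_contra hne
    have hD2 : ∃ p ∈ {t : Subgroup.closure (perp D x) | (t : G) ∈ perp D x},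
        ∃ q ∈ {t : Subgroup.closure (perp D x) | (t : G) ∈ perp D x}, p ≠ q :=
      ⟨⟨b', Subgroup.subset_closure hb'⟩, hb', ⟨b, Subgroup.subset_closure hb⟩, hb,
        fun e => hne (congrArg Subtype.val e)⟩
    have h3 : Cfsg.pCore 3 ↥(Subgroup.closure (perp D x)) ≤ Subgroup.center ↥(Subgroup.closure (perp D x)) := by
      haveI : Fact (Nat.Prime 3) := ⟨Nat.prime_three⟩
      refine le_trans (Cores.le_pPrimeCore_of_not_dvd Nat.prime_two ?_) hodd
      obtain ⟨k, hk⟩ := IsPGroup.iff_card.1 (CfsgLib.Cores.isPGroup_pCore 3 ↥(Subgroup.closure (perp D x)))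
      rw [hk]
      intro hd
      exact absurd (Nat.Prime.dvd_of_dvd_pow Nat.prime_two hd) (by norm_num)
    have hF := fitting_le_center hC hD2 h2 h3
    haveI := hs
    refine not_commutative hC hD2 fun p _ q _ => ?_
    have hp : ∀ p : Subgroup.closure (perp D x), p ∈ Subgroup.center ↥(Subgroup.closure (perp D x)) := fun p =>
      hF (Cores.centralizer_fittingSubgroup_le (Subgroup.mem_centralizer_iff.2 fun f hf =>
        (Subgroup.mem_center_iff.1 (hF hf) p).symm))
    exact (Subgroup.mem_center_iff.1 (hp q) p)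
  have hbx : perp D b = {x} := by
    refine Set.Subset.antisymm (fun t ht => ?_) (Set.singleton_subset_iff.2 ⟨hx, Ne.symm hb.2.1, hb.2.2.symm⟩)
    obtain ⟨g, hg⟩ := exists_conj_of_class hD hb.1 hx
    have e1 := image_perp hG g ht
    have e2 := image_perp hG g (show x ∈ perp D b from ⟨hx, Ne.symm hb.2.1, hb.2.2.symm⟩)
    rw [hg] at e1 e2
    exact Transitivity.conj_injective ((hsub _ e1).trans (hsub _ e2).symm)
  have hall : ∀ a ∈ D, a = x ∨ a = b := by
    intro a ha
    by_contra hno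
    obtain ⟨s, hs', u, hu, hsT, huT, hne, hc⟩ :=
      exists_crossing hconn {x, b} hx ha (Or.inl rfl) hno
    rcases hsT with rfl | rfl
    · exact huT (Or.inr (hsub u ⟨hu, Ne.symm hne, hc⟩))
    · exact huT (Or.inl (Set.mem_singleton_iff.1 (hbx ▸ (⟨hu, Ne.symm hne, hc⟩ : u ∈ perp D s))))
  refine not_comm_class hsol hD hx fun a ha c hc => ?_
  rcases hall a ha with rfl | rfl <;> rcases hall c hc with rfl | rfl
  exacts [Commute.refl _, hb.2.2, hb.2.2.symm, Commute.refl _]

end CfsgLib.Fischer.CoreTwo
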