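import Cfsg.Agent.Lib.Fischer.CoreTwo.Alpha

/-!
The map to the isotropic points of the unitary space and its equivariance.
-/
set_option autoImplicit false
set_option linter.unusedSectionVars false

namespace CfsgLib.Fischer.CoreTwo

open CfsgLib.Fischer

/-- Proportional vectors. -/
def Sim {F : Type} [Field F] {n : ℕ} (v v' : Fin n → F) : Prop := ∃ k : F, k ≠ 0 ∧ v = k • v'

/-- The transvection with centre `v`. -/
def tv {F : Type} [Field F] {n : ℕ} (v u : Fin n → F) : Fin n → F := u + Cfsg.hermForm n F 2 u v • v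

section

variable {F : Type} [Field F] [Fintype F] {n : ℕ} {u v v' w : Fin n → F}

theorem Sim.refl (v : Fin n → F) : Sim v v := ⟨1, one_ne_zero, (one_smul _ v).symm⟩

theorem Sim.symm (h : Sim v v') : Sim v' v := by
  obtain ⟨k, hk, rfl⟩ := h
  exact ⟨k⁻¹, inv_ne_zero hk, by rw [smul_smul, inv_mul_cancel₀ hk, one_smul]⟩

theorem Sim.trans (h : Sim v v') (h' : Sim v' w) : Sim v w := by
  obtain ⟨k, hk, rfl⟩ := h
  obtain ⟨l, hl, rfl⟩ := h'
  exact ⟨k * l, mul_ne_zero hk hl, smul_smul k l w⟩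

theorem Sim.of_eq (h : v = v') : Sim v v' := h ▸ Sim.refl v

theorem tv_sim (K : Four F) (h : Sim v v') : Sim (tv u v) (tv u v') := by
  obtain ⟨k, hk, rfl⟩ := h
  exact ⟨k, hk, by rw [tv, tv, K.c.smul_left, smul_add, smul_smul]⟩

theorem tv_center (K : Four F) (h : Sim v v') : tv v u = tv v' u := by
  obtain ⟨k, hk, rfl⟩ := h
  rw [tv, tv, K.c.smul_right, smul_smul]
  congr 2
  calc K.c.σ k * Cfsg.hermForm n F 2 u v' * k = k * K.c.σ k * Cfsg.hermForm n F 2 u v' := by ring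
    _ = _ := by rw [K.norm k hk, one_mul]

end

namespace Frame

open CfsgLib.Fischer.CoreTwo

variable {G : Type*} [Group G] [Finite G] {D : Set G} {x y a d e e' p q t u v : G}
variable {F : Type} [Field F] [Fintype F] (R : Frame D x y F)
include R

/-- Coordinates with respect to an orthonormal basis. -/
def vc (a b : F) (w : Fin R.m → F) : Fin (R.m + 1 + 1) → F :=
  Fin.cons (a * (R.K.ω + 1) + b) (Fin.cons (a * R.K.ω + b) w)

open scoped Classical in
/-- The point of a member. -/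
noncomputable def pi' (t : G) : Fin (R.m + 1 + 1) → F :=
  if t = x then R.vc 1 0 0 else if t ∈ phi D x y then R.vc 0 0 (R.Ψ (R.mate t))
  else if t ∈ ext' D x y then R.vc 1 0 (R.Ψ t) else R.vc (R.al t) 1 (R.vq t)

theorem H_vc (a b a' b' : F) (w w' : Fin R.m → F) :
    Cfsg.hermForm (R.m + 1 + 1) F 2 (R.vc a b w) (R.vc a' b' w') =
      a * R.K.c.σ b' + b * R.K.c.σ a' + R.H w w' := by
  rw [vc, vc, R.K.c.herm_cons, R.K.c.herm_cons]
  simp only [map_add, map_mul, R.K.sig_w, R.K.sig_w1, map_one]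
  linear_combination (2 * (a * R.K.c.σ a')) * R.K.w_mul_w1 + (a * R.K.c.σ b' * R.K.ω + b * R.K.c.σ a' * R.K.ω +
    b * R.K.c.σ b' + a * R.K.c.σ a') * R.K.two

theorem vc_smul (k a b : F) (w : Fin R.m → F) : k • R.vc a b w = R.vc (k * a) (k * b) (k • w) := by
  funext i
  refine Fin.cases ?_ (fun j => Fin.cases ?_ (fun l => ?_) j) i <;> simp [vc] <;> ring

theorem vc_add (a b a' b' : F) (w w' : Fin R.m → F) :
    R.vc a b w + R.vc a' b' w' = R.vc (a + a') (b + b') (w + w') := by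
  funext i
  refine Fin.cases ?_ (fun j => Fin.cases ?_ (fun l => ?_) j) i <;> simp [vc] <;> ring

theorem vc_inj {a b a' b' : F} {w w' : Fin R.m → F} (h : R.vc a b w = R.vc a' b' w') :
    a = a' ∧ b = b' ∧ w = w' := by
  obtain ⟨h1, h2⟩ := Fin.cons_inj.1 h
  obtain ⟨h2, h3⟩ := Fin.cons_inj.1 h2
  have ha : a = a' := by linear_combination h1 - h2
  subst ha
  exact ⟨rfl, add_left_cancel h2, h3⟩

theorem vc_surj (v : Fin (R.m + 1 + 1) → F) : ∃ a b w, v = R.vc a b w :=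
  ⟨v 0 + v 1, v 1 + (v 0 + v 1) * R.K.ω, fun l => v l.succ.succ, by
    funext i
    refine Fin.cases ?_ (fun j => Fin.cases ?_ (fun l => ?_) j) i
    · simp [vc]
      linear_combination -(v 0 * R.K.ω + v 1 * R.K.ω + v 1) * R.K.two
    · simp [vc]
      linear_combination -(v 0 * R.K.ω + v 1 * R.K.ω) * R.K.two
    · simp [vc]⟩

theorem tv_vc (a b a' b' : F) (w w' : Fin R.m → F) :
    tv (R.vc a' b' w') (R.vc a b w) = R.vc (a + (a * R.K.c.σ b' + b * R.K.c.σ a' + R.H w w') * a')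
      (b + (a * R.K.c.σ b' + b * R.K.c.σ a' + R.H w w') * b')
      (w + (a * R.K.c.σ b' + b * R.K.c.σ a' + R.H w w') • w') := by
  rw [tv, R.H_vc, R.vc_smul, R.vc_add]

theorem pi_x : R.pi' x = R.vc 1 0 0 := by simp [pi']

theorem pi_phi (hd : d ∈ phi D x y) : R.pi' d = R.vc 0 0 (R.Ψ (R.mate d)) := by
  classical
  simp only [pi', if_neg hd.1.2.1, if_pos hd]

theorem pi_ext (he : e ∈ ext' D x y) : R.pi' e = R.vc 1 0 (R.Ψ e) := by
  classical
  simp only [pi', if_neg he.1.2.1, if_neg fun c : e ∈ phi D x y => he.2 c.2, if_pos he]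

theorem pi_opp (hq : q ∈ R.opp) : R.pi' q = R.vc (R.al q) 1 (R.vq q) := by
  classical
  have h1 : q ≠ x := fun c => hq.2 (c ▸ Commute.refl x)
  simp only [pi', if_neg h1, if_neg fun c : q ∈ phi D x y => hq.2 c.1.2.2,
    if_neg fun c : q ∈ ext' D x y => hq.2 c.1.2.2]

theorem block_sim (he : e ∈ ext' D x y) (he' : e' ∈ ext' D x y) (hb : bp D x y e' = bp D x y e) :
    Sim (R.Ψ e') (R.Ψ e) := by
  rcases mates_cases R.base R.ori he he' hb with rfl | rfl | rfl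
  · exact Sim.refl _
  · exact ⟨R.K.ω, R.K.ω0, R.Ψ_J he⟩
  · exact ⟨R.K.ω * R.K.ω, mul_ne_zero R.K.ω0 R.K.ω0, by rw [R.Ψ_J (R.ori.mem e he), R.Ψ_J he, smul_smul]⟩

theorem pi_bp (he : e ∈ ext' D x y) : Sim (R.pi' (bp D x y e)) (R.vc 0 0 (R.Ψ e)) := by
  have hd := bp_phi_mem R.base he.1
  obtain ⟨h1, h2⟩ := R.mate_spec hd
  obtain ⟨k, hk, h⟩ := R.block_sim he h1 h2
  exact ⟨k, hk, by rw [R.pi_phi hd, h, R.vc_smul, mul_zero]⟩

theorem pi_pt (he : e ∈ ext' D x y) (k : F) : Sim (R.pi' (R.pt e k)) (R.vc k 0 (R.Ψ e)) := by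
  rcases eq_or_ne k 0 with rfl | hk
  · rw [R.pt_zero]; exact R.pi_bp he
  · obtain ⟨h1, -, h3⟩ := R.pt_ext he hk
    exact ⟨k⁻¹, inv_ne_zero hk, by rw [R.pi_ext h1, h3, R.vc_smul, inv_mul_cancel₀ hk, mul_zero]⟩

theorem tri_cases (ht : t ∈ D) : t = x ∨ t ∈ perp D x ∨ t ∈ R.opp := by
  by_cases hc : Commute x t
  · rcases eq_or_ne t x with h | h
    · exact Or.inl h
    · exact Or.inr (Or.inl ⟨ht, h, hc⟩)
  · exact Or.inr (Or.inr ⟨ht, hc⟩)

theorem perp_cases (hp : p ∈ perp D x) : p ∈ phi D x y ∨ p ∈ ext' D x y := by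
  by_cases h : Commute p y
  · exact Or.inl ⟨hp, h⟩
  · exact Or.inr ⟨hp, h⟩

theorem equi_x (ht : t ∈ D) : Sim (tv (R.pi' x) (R.pi' t)) (R.pi' (fl x t)) := by
  have hG := R.grp
  rcases R.tri_cases ht with rfl | hp | hq
  · rw [fl_of_commute hG R.base.hx (Commute.refl _), R.pi_x, R.tv_vc]
    refine Sim.of_eq ?_
    simp [R.H_zero_left]
  · rw [fl_of_commute hG R.base.hx hp.2.2, R.pi_x]
    rcases R.perp_cases hp with h | h <;> refine Sim.of_eq ?_
    · rw [R.pi_phi h, R.tv_vc]; simp [R.H_zero_right]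
    · rw [R.pi_ext h, R.tv_vc]; simp [R.H_zero_right]
  · refine Sim.of_eq ?_
    rw [R.pi_x, R.pi_opp hq, R.pi_opp (R.fl_x_opp hq), R.al_fl_x hq, R.vq_fl_x hq, R.tv_vc]
    simp [R.H_zero_right]

theorem equi_phi (hd : d ∈ phi D x y) (ht : t ∈ D) : Sim (tv (R.pi' d) (R.pi' t)) (R.pi' (fl d t)) := by
  have hG := R.grp
  obtain ⟨he, hb⟩ := R.mate_spec hd
  rw [R.pi_phi hd]
  rcases R.tri_cases ht with rfl | hp | hq
  · rw [fl_phi_x R.base hd]
    refine Sim.of_eq ?_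
    rw [R.pi_x, R.tv_vc]
    simp [R.H_zero_left]
  · rcases R.perp_cases hp with h | h
    · obtain ⟨h1, h2⟩ := R.mate_spec h
      have h3 := fl_mem_ext R.base hd h1
      have h4 := R.pi_bp h3
      rw [bp_fl_phi R.base hd h1.1, h2] at h4
      refine (Sim.of_eq ?_).trans h4.symm
      rw [R.pi_phi h, R.tv_vc]
      have := R.Ψ_fl he h1
      rw [hb] at this
      rw [this]
      simp
    · refine Sim.of_eq ?_
      rw [R.pi_ext h, R.pi_ext (fl_mem_ext R.base hd h), R.tv_vc]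
      have := R.Ψ_fl he h
      rw [hb] at this
      rw [this]
      simp
  · refine Sim.of_eq ?_
    rw [R.pi_opp hq, R.pi_opp (R.fl_phi_opp hd hq), R.al_phi hd hq, R.tv_vc]
    have := R.vq_eq (R.fl_phi_opp hd hq) (hb ▸ R.vec_phi he (R.vq_spec hq))
    rw [this]
    simp

theorem equi_z (ht : t ∈ D) : Sim (tv (R.vc 1 1 0) (R.pi' t)) (R.pi' (fl (fl x y) t)) := by
  have hG := R.grp
  have hT : ∀ a b w, tv (R.vc 1 1 0) (R.vc a b w) = R.vc b a w := fun a b w => by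
    rw [R.tv_vc]
    simp only [map_one, mul_one, R.H_zero_right, add_zero, smul_zero]
    congr 1 <;> first
      | linear_combination (a : F) * R.K.two
      | linear_combination (b : F) * R.K.two
  rcases R.tri_cases ht with rfl | hp | hq
  · refine Sim.of_eq ?_
    rw [R.fl_z_x, R.pi_x, R.pi_opp R.y_opp, R.vq_y, R.al_zero (Commute.refl y), hT]
  · rcases R.perp_cases hp with h | h <;> refine Sim.of_eq ?_
    · rw [R.pi_phi h, hT, fl_of_commute hG R.z_mem (R.commute_phi_z h).symm, R.pi_phi h]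
    · obtain ⟨k1, k2, k3, -⟩ := R.fl_z_ext h
      rw [R.pi_ext h, hT, R.pi_opp k1, R.al_zero k2, k3]
  · rw [R.pi_opp hq, hT]
    by_cases h1 : Commute t y
    · refine Sim.of_eq ?_
      rw [R.al_zero h1]
      rcases R.opp_y_cases hq h1 with rfl | ⟨e, he, rfl⟩
      · rw [R.fl_z_y, R.pi_x, R.vq_y]
      · rw [fl_fl hG R.z_mem, R.pi_ext he, (R.fl_z_ext he).2.2.1]
    have hq' := R.fl_z_opp hq h1
    by_cases h2 : Commute t (fl x y)
    · refine Sim.of_eq ?_
      rw [fl_of_commute hG R.z_mem h2.symm, R.pi_opp hq, R.al_one hq h2]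
    obtain ⟨n0, -, ea⟩ := R.al_generic hq h1 h2
    have k1 : ¬ Commute (fl (fl x y) t) y := fun c => hq.2 (by
      have := (commute_fl_iff hG R.z_mem).1 c
      rw [R.fl_z_y] at this; exact this.symm)
    have k2 : ¬ Commute (fl (fl x y) t) (fl x y) := fun c => h2 (by
      have := (commute_fl_iff hG R.z_mem).1 c
      rwa [fl_of_commute hG R.z_mem (Commute.refl _)] at this)
    have e2 : R.al (fl (fl x y) t) = (R.al t)⁻¹ := R.al_of_ratio hq' k1 k2 (by
      rw [fl_fl hG R.z_mem, ea, smul_smul, mul_inv_cancel₀ n0, one_smul])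
    refine ⟨R.al t, n0, ?_⟩
    rw [R.pi_opp hq', e2, ea, R.vc_smul, smul_smul, mul_inv_cancel₀ n0, one_smul, mul_one]

theorem equi_tau (he : e ∈ ext' D x y) (ht : t ∈ D) :
    Sim (tv (R.pi' e) (tv (R.pi' (bp D x y e)) (R.pi' t))) (R.pi' (R.tau e t)) := by
  have hG := R.grp
  have hT : ∀ v, tv (R.pi' e) (tv (R.pi' (bp D x y e)) v) =
      tv (R.vc 1 0 (R.Ψ e)) (tv (R.vc 0 0 (R.Ψ e)) v) := fun v => by
    rw [R.pi_ext he, tv_center R.K (R.pi_bp he)]
  rw [hT]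
  have hT' : ∀ a b w, tv (R.vc 1 0 (R.Ψ e)) (tv (R.vc 0 0 (R.Ψ e)) (R.vc a b w)) =
      R.vc (a + b + R.H w (R.Ψ e)) b (w + b • R.Ψ e) := fun a b w => by
    rw [R.tv_vc, R.tv_vc]
    simp only [map_zero, map_one, mul_zero, mul_one, zero_add, add_zero, zero_mul, R.H_add_left, R.H_smul_left,
      R.H_Ψ_self he, add_assoc]
    congr 1
    rw [← add_smul]
    congr 2
    linear_combination R.K.add_self (R.H w (R.Ψ e))
  rcases R.tri_cases ht with rfl | hp | hq
  · rw [R.tau_x he, R.pi_x, hT']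
    refine Sim.of_eq ?_
    simp [R.H_zero_left]
  · obtain ⟨e1, h1, h2⟩ : ∃ e1 ∈ ext' D x y, bp D x y e1 = bp D x y t :=
      ⟨_, R.mate_spec (bp_phi_mem R.base hp)⟩
    obtain ⟨k, rfl⟩ := R.pt_surj h1 hp h2.symm
    rw [R.tau_pt he h1]
    refine ((tv_sim R.K (tv_sim R.K (R.pi_pt h1 k))).trans ?_).trans (R.pi_pt h1 _).symm
    rw [hT']
    refine Sim.of_eq ?_
    simp
  · refine Sim.of_eq ?_
    rw [R.pi_opp hq, R.pi_opp (R.tau_opp he hq), hT', R.al_tau he hq, R.vq_tau he hq, one_smul]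

theorem pi_isotropic (ht : t ∈ D) :
    R.pi' t ≠ 0 ∧ Cfsg.hermForm (R.m + 1 + 1) F 2 (R.pi' t) (R.pi' t) = 0 := by
  have hne : ∀ a b w, (a ≠ 0 ∨ b ≠ 0 ∨ w ≠ 0) → R.vc a b w ≠ 0 := fun a b w h c => by
    have e0 : R.vc 0 0 0 = 0 := by
      funext i; refine Fin.cases ?_ (fun j => Fin.cases ?_ (fun l => ?_) j) i <;> simp [vc]
    obtain ⟨ha, hb, hw⟩ := R.vc_inj (c.trans e0.symm)
    rcases h with h | h | h
    exacts [h ha, h hb, h hw]
  rcases R.tri_cases ht with rfl | hp | hq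
  · rw [R.pi_x, R.H_vc]
    exact ⟨hne _ _ _ (Or.inl one_ne_zero), by simp [R.H_zero_left]⟩
  · rcases R.perp_cases hp with h | h
    · rw [R.pi_phi h, R.H_vc]
      exact ⟨hne _ _ _ (Or.inr (Or.inr (R.Ψ_ne (R.mate_spec h).1))), by
        simp [R.H_Ψ_self (R.mate_spec h).1]⟩
    · rw [R.pi_ext h, R.H_vc]
      exact ⟨hne _ _ _ (Or.inl one_ne_zero), by simp [R.H_Ψ_self h]⟩
  · rw [R.pi_opp hq, R.H_vc]
    refine ⟨hne _ _ _ (Or.inr (Or.inl one_ne_zero)), ?_⟩
    rw [map_one, mul_one, one_mul]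
    exact R.al_trace hq

theorem pi_surj {v : Fin (R.m + 1 + 1) → F} (hv : v ≠ 0) (hiso : Cfsg.hermForm (R.m + 1 + 1) F 2 v v = 0) :
    ∃ t ∈ D, Sim v (R.pi' t) := by
  obtain ⟨a, b, w, rfl⟩ := R.vc_surj v
  rw [R.H_vc] at hiso
  rcases eq_or_ne b 0 with rfl | hb
  · rw [map_zero, mul_zero, zero_mul, zero_add, zero_add] at hiso
    rcases eq_or_ne w 0 with rfl | hw
    · rcases eq_or_ne a 0 with rfl | ha
      · refine absurd ?_ hv
        funext i; refine Fin.cases ?_ (fun j => Fin.cases ?_ (fun l => ?_) j) i <;> simp [vc]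
      · exact ⟨x, R.base.hx, a, ha, by rw [R.pi_x, R.vc_smul, mul_one, mul_zero, smul_zero]⟩
    · obtain ⟨e, he, rfl⟩ := R.main.2.2 w hiso hw
      exact ⟨R.pt e a, (R.pt_perp he a).1.1, (R.pi_pt he a).symm⟩
  · set a' := b⁻¹ * a with ha'
    set w' := b⁻¹ • w with hw'
    have hs : Sim (R.vc a b w) (R.vc a' 1 w') :=
      ⟨b, hb, by rw [R.vc_smul, ha', hw', smul_smul, ← mul_assoc, mul_inv_cancel₀ hb, one_mul, one_smul, mul_one]⟩
    have hiso' : a' + R.K.c.σ a' + R.H w' w' = 0 := by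
      rw [ha', hw', R.H_smul_left, R.H_smul_right, map_mul]
      have := R.K.norm b⁻¹ (inv_ne_zero hb)
      have hs2 : R.K.c.σ b⁻¹ * R.K.c.σ b = 1 := by rw [← map_mul, inv_mul_cancel₀ hb, map_one]
      linear_combination (b⁻¹ * R.K.c.σ b⁻¹) * hiso - (b⁻¹ * a) * hs2 -
        (R.K.c.σ b⁻¹ * R.K.c.σ a) * inv_mul_cancel₀ hb
    obtain ⟨q, hq, hqw⟩ := R.exists_vec w'
    have hvq := R.vq_eq hq hqw
    have := R.al_trace hq
    rw [hvq] at this
    have hfix : R.K.c.σ (a' + R.al q) = a' + R.al q := by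
      rw [map_add]
      linear_combination hiso' + this - R.K.add_self (a' + R.al q) - R.K.add_self (R.H w' w')
    rcases R.K.fixed _ hfix with c | c
    · exact ⟨q, hq.1, hs.trans (Sim.of_eq (by rw [R.pi_opp hq, hvq, R.K.eq_of_add _ _ c]))⟩
    · refine ⟨fl x q, fl_mem R.grp R.base.hx hq.1, hs.trans (Sim.of_eq ?_)⟩
      rw [R.pi_opp (R.fl_x_opp hq), R.al_fl_x hq, R.vq_fl_x hq, hvq]
      congr 1
      linear_combination c - R.K.add_self (R.al q)

theorem pi_inj (ht : t ∈ D) (hs : u ∈ D) (h : Sim (R.pi' t) (R.pi' u)) : t = u := by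
  have key : ∀ t u, t ∈ D → u ∈ D → Sim (R.pi' t) (R.pi' u) → t ∈ R.opp → t = u := by
    intro t u ht hs h hq
    obtain ⟨k, hk, h⟩ := h
    rw [R.pi_opp hq] at h
    rcases R.tri_cases hs with rfl | hp | hq'
    · rw [R.pi_x, R.vc_smul] at h
      exact absurd (R.vc_inj h).2.1 (by simp)
    · rcases R.perp_cases hp with h' | h'
      · rw [R.pi_phi h', R.vc_smul] at h
        exact absurd (R.vc_inj h).2.1 (by simp)
      · rw [R.pi_ext h', R.vc_smul] at h
        exact absurd (R.vc_inj h).2.1 (by simp)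
    · rw [R.pi_opp hq', R.vc_smul] at h
      obtain ⟨h1, h2, h3⟩ := R.vc_inj h
      obtain rfl : k = 1 := by rw [mul_one] at h2; exact h2.symm
      rw [one_mul] at h1
      rw [one_smul] at h3
      rcases R.fibre_two hq' hq h3 with c | c
      · exact c
      · rw [c, R.al_fl_x hq'] at h1
        exact absurd (add_eq_left.1 h1) one_ne_zero
  rcases R.tri_cases ht with rfl | hp | hq
  · rcases R.tri_cases hs with rfl | hp' | hq'
    · rfl
    · obtain ⟨k, hk, h⟩ := h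
      rw [R.pi_x] at h
      rcases R.perp_cases hp' with h' | h'
      · rw [R.pi_phi h', R.vc_smul] at h
        exact absurd (R.vc_inj h).1 (by simp)
      · rw [R.pi_ext h', R.vc_smul] at h
        exact absurd (smul_eq_zero.1 (R.vc_inj h).2.2.symm) (by simp [hk, R.Ψ_ne h'])
    · exact (key _ _ hs ht h.symm hq').symm
  · rcases R.tri_cases hs with rfl | hp' | hq'
    · obtain ⟨k, hk, h⟩ := h
      rw [R.pi_x, R.vc_smul] at h
      rcases R.perp_cases hp with h' | h'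
      · rw [R.pi_phi h'] at h
        exact absurd (R.vc_inj h).2.2 (by simp [R.Ψ_ne (R.mate_spec h').1])
      · rw [R.pi_ext h'] at h
        exact absurd (R.vc_inj h).2.2 (by simp [R.Ψ_ne h'])
    · obtain ⟨e1, h1, h2⟩ : ∃ e1 ∈ ext' D x y, bp D x y e1 = bp D x y t :=
        ⟨_, R.mate_spec (bp_phi_mem R.base hp)⟩
      obtain ⟨e2, h3, h4⟩ : ∃ e2 ∈ ext' D x y, bp D x y e2 = bp D x y u :=
        ⟨_, R.mate_spec (bp_phi_mem R.base hp')⟩
      obtain ⟨k1, rfl⟩ := R.pt_surj h1 hp h2.symm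
      obtain ⟨k2, rfl⟩ := R.pt_surj h3 hp' h4.symm
      obtain ⟨k, hk, h'⟩ := ((R.pi_pt h1 k1).symm.trans h).trans (R.pi_pt h3 k2)
      rw [R.vc_smul] at h'
      obtain ⟨g1, -, g3⟩ := R.vc_inj h'
      obtain ⟨e3, he3, hb3, hΨ⟩ := R.exists_smul h3 hk
      have e4 := R.Ψ_inj h1 he3 (g3.trans hΨ.symm)
      rw [g1, ← R.pt_scale h3 he3 hb3 hk hΨ k2, e4]
    · exact (key _ _ hs ht h.symm hq').symm
  · exact key _ _ ht hs h hq

end Frame

end CfsgLib.Fischer.CoreTwo
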