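import Cfsg.Agent.Lib.Fischer.CoreTwo.Card

/-!
Lines with five points: a coherent cyclic ordering of the three points of each line through `x` commuting with
neither of two non-commuting members.
-/
set_option autoImplicit false
set_option linter.unusedSectionVars false

namespace CfsgLib.Fischer.CoreTwo

open CfsgLib.Fischer Transitivity

variable {G : Type*} [Group G] [Finite G] {D : Set G} {a b c d e e' p q r r' s t u v w x y : G}

/-- Two non-commuting members in the five point case. -/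
structure Base (D : Set G) (x y : G) : Prop where
  hyp : Hyp D
  five : ∀ x ∈ D, ∀ a ∈ perp D x, (line D x a).ncard = 5
  hx : x ∈ D
  hy : y ∈ D
  hxy : ¬ Commute x y

/-- The members commuting with both. -/
def phi (D : Set G) (x y : G) : Set G := {d | d ∈ perp D x ∧ Commute d y}

/-- The neighbours of `x` not commuting with `y`. -/
def ext' (D : Set G) (x y : G) : Set G := {e | e ∈ perp D x ∧ ¬ Commute e y}

/-- The other points on the line through `x` and a point. -/
def mates (D : Set G) (x u : G) : Set G := {e | e ∈ line D x u ∧ e ≠ x ∧ e ≠ u}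

open scoped Classical in
/-- The point commuting with `y` on a line through `x`. -/
noncomputable def bp (D : Set G) (x y e : G) : G :=
  if hh : ∃ t ∈ line D x e, Commute t y then hh.choose else 1

/-- Transport of a map by a member. -/
def tr (t : G) (f : G → G) : G → G := fun e => fl t (f (fl t e))

theorem perm_three {α : Type*} {M : Set α} (hM : M.ncard = 3) {f g : α → α} (hf : Set.MapsTo f M M)
    (hf3 : ∀ e ∈ M, f (f (f e)) = e) (hff : ∀ e ∈ M, f e ≠ e) (hg : Set.MapsTo g M M) (hgi : Set.InjOn g M)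
    (hid : (∀ e ∈ M, g e = e) ∨ ∀ e ∈ M, g e ≠ e) {e : α} (he : e ∈ M) : g (f e) = f (g e) := by
  rcases hid with h | h
  · rw [h _ (hf he), h e he]
  have hfin : M.Finite := Set.finite_of_ncard_ne_zero (by omega)
  have h1 := hf he
  have h2 := hf h1
  have n1 : f e ≠ e := hff e he
  have n2 : f (f e) ≠ f e := hff _ h1
  have n3 : f (f e) ≠ e := fun c => n1 ((congrArg f c).symm.trans (hf3 e he))
  have hset : M = {e, f e, f (f e)} := by
    refine (Set.eq_of_subset_of_ncard_le ?_ ?_ hfin).symm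
    · rintro t (rfl | rfl | rfl)
      exacts [he, h1, h2]
    · rw [hM, Set.ncard_insert_of_notMem (by simp [Ne.symm n1, Ne.symm n3]),
        Set.ncard_insert_of_notMem (by simp [Ne.symm n2]), Set.ncard_singleton]
  have hmem : ∀ t ∈ M, t = e ∨ t = f e ∨ t = f (f e) := fun t ht => by
    rw [hset] at ht; simpa using ht
  have hne : g e ≠ g (f e) := fun c => n1 (hgi he h1 c).symm
  have hne2 : g (f e) ≠ g (f (f e)) := fun c => n2 (hgi h1 h2 c).symm
  have hne3 : g e ≠ g (f (f e)) := fun c => n3 (hgi he h2 c).symm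
  rcases hmem _ (hg he) with a1 | a1 | a1
  · exact absurd a1 (h e he)
  · rw [a1]
    rcases hmem _ (hg h1) with a2 | a2 | a2
    · rcases hmem _ (hg h2) with a3 | a3 | a3
      · exact absurd (a2.trans a3.symm) hne2
      · exact absurd (a1.trans a3.symm) hne3
      · exact absurd a3 (h _ h2)
    · exact absurd a2 (h _ h1)
    · exact a2
  · rw [a1, hf3 e he]
    rcases hmem _ (hg h1) with a2 | a2 | a2
    · exact a2
    · exact absurd a2 (h _ h1)
    · exact absurd (a1.trans a2.symm) hne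

variable (B : Base D x y)
include B

theorem phi_mem (h : d ∈ phi D x y) : d ∈ D := h.1.1

theorem x_not_mem_phi : x ∉ phi D x y := fun h => h.1.2.1 rfl

theorem bp_spec (he : e ∈ perp D x) : bp D x y e ∈ line D x e ∧ bp D x y e ∈ phi D x y := by
  classical
  have hh := exists_hit B.hyp B.hx he B.hy
  have h1 := hh.choose_spec
  have hb : bp D x y e = hh.choose := dif_pos hh
  rw [hb]
  exact ⟨h1.1, mem_line_perp B.hyp B.hx he h1.1 (fun c => B.hxy (by rw [← c]; exact h1.2)), h1.2⟩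

theorem bp_phi_mem (he : e ∈ perp D x) : bp D x y e ∈ phi D x y := (bp_spec B he).2

theorem bp_line (he : e ∈ perp D x) : line D x (bp D x y e) = line D x e :=
  line_eq B.hyp B.hx he (left_mem_line B.hx) (bp_spec B he).1 (Ne.symm (bp_spec B he).2.1.2.1)

theorem bp_eq (he : e ∈ perp D x) (ht : t ∈ line D x e) (hty : Commute t y) : bp D x y e = t :=
  hit_unique B.hyp B.hx he B.hy (bp_spec B he).1 ht (bp_spec B he).2.2.symm hty.symm (left_mem_line B.hx)
    fun c => B.hxy c.symm

theorem bp_self (hu : u ∈ phi D x y) : bp D x y u = u := bp_eq B hu.1 (right_mem_line hu.1.1) hu.2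

theorem bp_same (he : e ∈ perp D x) (he' : e' ∈ line D x e) (hne : e' ≠ x) : bp D x y e' = bp D x y e := by
  have h1 := mem_line_perp B.hyp B.hx he he' hne
  have h2 := line_eq B.hyp B.hx he (left_mem_line B.hx) he' (Ne.symm hne)
  exact bp_eq B h1 (h2 ▸ (bp_spec B he).1) (bp_spec B he).2.2

theorem mates_card (hu : u ∈ phi D x y) : (mates D x u).ncard = 3 := by
  have e1 : line D x u = insert x (insert u (mates D x u)) := by
    ext t
    refine ⟨fun h => ?_, ?_⟩
    · by_cases h1 : t = x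
      · exact Or.inl h1
      by_cases h2 : t = u
      · exact Or.inr (Or.inl h2)
      · exact Or.inr (Or.inr ⟨h, h1, h2⟩)
    · rintro (rfl | rfl | h)
      exacts [left_mem_line B.hx, right_mem_line hu.1.1, h.1]
  have := B.five x B.hx u hu.1
  rw [e1, Set.ncard_insert_of_notMem ?_, Set.ncard_insert_of_notMem fun h => h.2.2 rfl] at this
  · omega
  · rintro (h | h)
    exacts [hu.1.2.1 h.symm, h.2.1 rfl]

theorem mates_nonempty (hu : u ∈ phi D x y) : (mates D x u).Nonempty := by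
  rw [← Set.ncard_pos]; rw [mates_card B hu]; omega

theorem mem_mates_iff (hu : u ∈ phi D x y) : e ∈ mates D x u ↔ e ∈ ext' D x y ∧ bp D x y e = u := by
  refine ⟨fun h => ?_, fun h => ?_⟩
  · have h1 := mem_line_perp B.hyp B.hx hu.1 h.1 h.2.1
    have h2 : bp D x y e = u := by rw [bp_same B hu.1 h.1 h.2.1, bp_self B hu]
    refine ⟨⟨h1, fun c => h.2.2 ?_⟩, h2⟩
    rw [← h2, bp_eq B h1 (right_mem_line h1.1) c]
  · obtain ⟨⟨h1, h2⟩, rfl⟩ := h
    exact ⟨by rw [bp_line B h1]; exact right_mem_line h1.1, h1.2.1,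
      fun c => h2 (by rw [c]; exact (bp_spec B h1).2.2)⟩

theorem mem_mates_bp (he : e ∈ ext' D x y) : e ∈ mates D x (bp D x y e) :=
  (mem_mates_iff B (bp_phi_mem B he.1)).2 ⟨he, rfl⟩

theorem commute_bp_left (he : e ∈ perp D x) (hq : q ∈ D) (hqx : Commute q x) :
    Commute (bp D x y e) q ↔ Commute e q := by
  have hne := Ne.symm (bp_spec B he).2.1.2.1
  refine ⟨fun c => ?_, fun c => ?_⟩
  · exact (commute_all B.hyp B.hx he (left_mem_line B.hx) (bp_spec B he).1 hne hq hqx c.symm
      (right_mem_line he.1)).symm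
  · exact (commute_all B.hyp B.hx he (left_mem_line B.hx) (right_mem_line he.1) (Ne.symm he.2.1) hq hqx c.symm
      (bp_spec B he).1).symm

theorem commute_bp (he : e ∈ perp D x) (he' : e' ∈ perp D x) :
    Commute (bp D x y e) (bp D x y e') ↔ Commute e e' := by
  rw [commute_bp_left B he (bp_spec B he').2.1.1 (bp_spec B he').2.1.2.2.symm]
  exact ⟨fun c => ((commute_bp_left B he' he.1 he.2.2.symm).1 c.symm).symm,
    fun c => ((commute_bp_left B he' he.1 he.2.2.symm).2 c.symm).symm⟩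

theorem fl_perp_x (ha : a ∈ perp D x) (hb : b ∈ perp D x) : fl a b ∈ perp D x := by
  have := fl_perp B.hyp.grp ha.1 hb
  rwa [fl_of_commute B.hyp.grp ha.1 ha.2.2.symm] at this

theorem fl_phi_x (hd : d ∈ phi D x y) : fl d x = x := fl_of_commute B.hyp.grp hd.1.1 hd.1.2.2.symm

theorem fl_phi_y (hd : d ∈ phi D x y) : fl d y = y := fl_of_commute B.hyp.grp hd.1.1 hd.2

theorem fl_phi_commute_y (hd : d ∈ phi D x y) : Commute (fl d t) y ↔ Commute t y := by
  rw [commute_fl_iff B.hyp.grp hd.1.1, fl_phi_y B hd]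

theorem fl_mem_phi (hd : d ∈ phi D x y) (hu : u ∈ phi D x y) : fl d u ∈ phi D x y :=
  ⟨fl_perp_x B hd.1 hu.1, (fl_phi_commute_y B hd).2 hu.2⟩

theorem fl_mem_ext (hd : d ∈ phi D x y) (he : e ∈ ext' D x y) : fl d e ∈ ext' D x y :=
  ⟨fl_perp_x B hd.1 he.1, fun c => he.2 ((fl_phi_commute_y B hd).1 c)⟩

theorem bp_fl_phi (hd : d ∈ phi D x y) (he : e ∈ perp D x) : bp D x y (fl d e) = fl d (bp D x y e) := by
  refine bp_eq B (fl_perp_x B hd.1 he) ?_ ((fl_phi_commute_y B hd).2 (bp_spec B he).2.2)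
  have := fl_line B.hyp.grp hd.1.1 (bp_spec B he).1
  rwa [fl_phi_x B hd] at this

theorem bp_fl (ha : a ∈ perp D x) (hb : b ∈ perp D x) :
    bp D x y (fl a b) = fl (bp D x y a) (bp D x y b) := by
  have hG := B.hyp.grp
  obtain ⟨hb1, hb2⟩ := bp_spec B hb
  have hA := (bp_spec B ha).2
  by_cases hc : Commute a b
  · rw [fl_of_commute hG ha.1 hc, fl_of_commute hG hA.1.1 ((commute_bp B ha hb).2 hc)]
  have hne : ¬ Commute a (bp D x y b) := fun c => hc
    ((commute_bp_left B hb ha.1 ha.2.2.symm).1 c.symm).symm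
  have hl : fl a (bp D x y b) ∈ line D x (fl a b) := by
    have := fl_line hG ha.1 hb1
    rwa [fl_of_commute hG ha.1 ha.2.2.symm] at this
  have h2 := fl_perp_x B ha hb2.1
  rw [← bp_same B (fl_perp_x B ha hb) hl h2.2.1, fl_braid hG ha.1 hb2.1.1 hne, bp_fl_phi B hb2 ha,
    fl_braid hG hA.1.1 hb2.1.1 fun c => hc ((commute_bp B ha hb).1 c)]

theorem fl_mates (hd : d ∈ phi D x y) (hu : u ∈ phi D x y) (he : e ∈ mates D x u) :
    fl d e ∈ mates D x (fl d u) := by
  rw [mem_mates_iff B hu] at he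
  rw [mem_mates_iff B (fl_mem_phi B hd hu)]
  exact ⟨fl_mem_ext B hd he.1, by rw [bp_fl_phi B hd he.1.1, he.2]⟩

theorem tr_elem (hu : u ∈ phi D x y) (hv : v ∈ phi D x y) (h : ¬ Commute u v) :
    fl (fl u v) u = v ∧ fl (fl u v) v = u := by
  have hG := B.hyp.grp
  have h1 : ∀ {a b : G}, a ∈ D → b ∈ D → ¬ Commute a b → fl (fl a b) a = b := fun {a b} ha hb hab => by
    rw [fl_conj, fl_of_commute hG ha (Commute.refl a), fl_braid hG hb ha fun c => hab c.symm, fl_fl hG ha]
  refine ⟨h1 hu.1.1 hv.1.1 h, ?_⟩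
  rw [fl_braid hG hu.1.1 hv.1.1 h]
  exact h1 hv.1.1 hu.1.1 fun c => h c.symm

theorem tr_maps (hu : u ∈ phi D x y) (hv : v ∈ phi D x y) (h : ¬ Commute u v) (he : e ∈ mates D x u) :
    fl (fl u v) e ∈ mates D x v := by
  have := fl_mates B (fl_mem_phi B hu hv) hu he
  rwa [(tr_elem B hu hv h).1] at this

theorem tr_maps' (hu : u ∈ phi D x y) (hv : v ∈ phi D x y) (h : ¬ Commute u v) (he : e ∈ mates D x v) :
    fl (fl u v) e ∈ mates D x u := by
  have := fl_mates B (fl_mem_phi B hu hv) hv he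
  rwa [(tr_elem B hu hv h).2] at this

theorem triangle_false (he : e ∈ ext' D x y) (hb : b ∈ ext' D x y) (hq : q ∈ ext' D x y)
    (h1 : Commute (fl e q) y) (h2 : Commute (fl b q) y) (h3 : Commute (fl e b) y) (hbq : ¬ Commute b q)
    (hn : ¬ Commute e (fl b q)) : False := by
  have hG := B.hyp.grp
  have k1 : fl e q ∈ phi D x y := ⟨fl_perp_x B he.1 hq.1, h1⟩
  have k2 : fl b q ∈ phi D x y := ⟨fl_perp_x B hb.1 hq.1, h2⟩
  have k3 : fl e b ∈ phi D x y := ⟨fl_perp_x B he.1 hb.1, h3⟩
  have e1 : fl (fl e q) (fl e b) = fl e (fl b q) := by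
    rw [fl_conj, fl_fl hG he.1.1, fl_braid hG hb.1.1 hq.1.1 hbq]
  have e2 : fl (fl (fl e q) (fl e b)) (fl b q) = e := by
    rw [e1, fl_conj, fl_braid hG he.1.1 k2.1.1 hn, fl_fl hG k2.1.1, fl_of_commute hG he.1.1 (Commute.refl e)]
  exact he.2 (e2 ▸ (fl_mem_phi B (fl_mem_phi B k1 k3) k2).2)

/-- The product around a triangle. -/
theorem loop_comm (hu : u ∈ phi D x y) (hv : v ∈ phi D x y) (hw : w ∈ phi D x y) (huv : ¬ Commute u v)
    (hvw : ¬ Commute v w) (huw : ¬ Commute u w) :
    (∀ e ∈ mates D x u, fl (fl w u) (fl (fl v w) (fl (fl u v) e)) = e) ∨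
      ∀ e ∈ mates D x u, fl (fl w u) (fl (fl v w) (fl (fl u v) e)) ≠ e := by
  have hG := B.hyp.grp
  have hT := fl_mem_phi B hv hw
  have hwu : ¬ Commute w u := fun c => huw c.symm
  by_cases hc : Commute u (fl v w)
  · left
    intro e he
    have hvwu : Commute v (fl w u) := by
      have h1 : Commute (fl v u) w := (commute_fl_iff hG hv.1.1).2 hc
      rw [fl_braid hG hv.1.1 hu.1.1 fun c => huv c.symm, commute_fl_iff hG hu.1.1,
        fl_braid hG hu.1.1 hw.1.1 huw] at h1
      exact h1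
    have e1 : fl (fl v w) (fl u v) = fl w u := by
      rw [fl_conj, fl_braid hG hu.1.1 hv.1.1 huv, fl_fl hG hv.1.1, fl_of_commute hG hv.1.1 hvwu]
    rw [← e1, fl_conj, fl_fl hG hT.1.1, fl_fl hG (fl_mem_phi B hu hv).1.1]
    rw [mem_mates_iff B hu] at he
    refine fl_of_commute hG hT.1.1 ((commute_bp_left B he.1.1 hT.1.1 hT.1.2.2.symm).1 ?_).symm
    rwa [he.2]
  · right
    intro e he hfix
    have hev := tr_maps B hu hv huv he
    have hew := tr_maps B hv hw hvw hev
    set ev := fl (fl u v) e with hev_def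
    set ew := fl (fl v w) ev with hew_def
    rw [mem_mates_iff B hu] at he
    rw [mem_mates_iff B hv] at hev
    rw [mem_mates_iff B hw] at hew
    have key : ∀ {a t : G}, a ∈ ext' D x y → t ∈ phi D x y → ¬ Commute (bp D x y a) t →
        fl a (fl t a) = t := fun {a t} ha ht hn => by
      have : ¬ Commute a t := fun c => hn ((commute_bp_left B ha.1 ht.1.1 ht.1.2.2.symm).2 c)
      rw [← fl_braid hG ha.1.1 ht.1.1 this, fl_fl hG ha.1.1]
    have nuv : ¬ Commute u (fl u v) := by
      have := not_commute_third_left hG.1 hu.1.1 hv.1.1 huv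
      exact this
    have nvw : ¬ Commute v (fl v w) := not_commute_third_left hG.1 hv.1.1 hw.1.1 hvw
    have nwu : ¬ Commute w (fl w u) := not_commute_third_left hG.1 hw.1.1 hu.1.1 hwu
    have c1 : fl e ev = fl u v := key he.1 (fl_mem_phi B hu hv) (by rw [he.2]; exact nuv)
    have c2 : fl ev ew = fl v w := key hev.1 hT (by rw [hev.2]; exact nvw)
    have c3 : fl ew e = fl w u := by
      have := key hew.1 (fl_mem_phi B hw hu) (by rw [hew.2]; exact nwu)
      rwa [hfix] at this
    have n1 : ¬ Commute e ew := fun c => huw (by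
      rw [← he.2, ← hew.2]; exact (commute_bp B he.1.1 hew.1.1).2 c)
    have n2 : ¬ Commute ev ew := fun c => hvw (by
      rw [← hev.2, ← hew.2]; exact (commute_bp B hev.1.1 hew.1.1).2 c)
    refine triangle_false B he.1 hev.1 hew.1 ?_ ?_ ?_ n2 ?_
    · rw [fl_braid hG he.1.1.1 hew.1.1.1 n1, c3]; exact (fl_mem_phi B hw hu).2
    · rw [c2]; exact hT.2
    · rw [c1]; exact (fl_mem_phi B hu hv).2
    · rw [c2]
      intro c
      exact hc (he.2 ▸ (commute_bp_left B he.1.1 hT.1.1 hT.1.2.2.symm).2 c)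

/-- A cyclic ordering of the other points of a line. -/
structure Cyc (D : Set G) (x u : G) (f : G → G) : Prop where
  maps : Set.MapsTo f (mates D x u) (mates D x u)
  cube : ∀ e ∈ mates D x u, f (f (f e)) = e
  ne : ∀ e ∈ mates D x u, f e ≠ e

theorem tr_cyc {f : G → G} (hu : u ∈ phi D x y) (hv : v ∈ phi D x y) (h : ¬ Commute u v)
    (hf : Cyc D x u f) : Cyc D x v (tr (fl u v) f) := by
  have hG := B.hyp.grp
  have ht := (fl_mem_phi B hu hv).1.1
  have hback : ∀ e ∈ mates D x v, fl (fl u v) e ∈ mates D x u := fun e he => tr_maps' B hu hv h he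
  refine ⟨fun e he => tr_maps B hu hv h (hf.maps (hback e he)), fun e he => ?_, fun e he c => ?_⟩
  · show fl _ (f (fl _ (fl _ (f (fl _ (fl _ (f (fl _ e)))))))) = e
    rw [fl_fl hG ht, fl_fl hG ht, hf.cube _ (hback e he), fl_fl hG ht]
  · exact hf.ne _ (hback e he) (fl_inj hG ht (c.trans (fl_fl hG ht e).symm))

theorem tr_congr {f f' : G → G} (hu : u ∈ phi D x y) (hv : v ∈ phi D x y) (h : ¬ Commute u v)
    (he : Set.EqOn f f' (mates D x u)) : Set.EqOn (tr (fl u v) f) (tr (fl u v) f') (mates D x v) :=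
  fun _ hm => congrArg (fl _) (he (tr_maps' B hu hv h hm))

theorem tr_tr {f : G → G} (hu : u ∈ phi D x y) (hv : v ∈ phi D x y) (h : ¬ Commute u v) :
    tr (fl v u) (tr (fl u v) f) = f := by
  have hG := B.hyp.grp
  funext e
  show fl (fl v u) (fl (fl u v) (f (fl (fl u v) (fl (fl v u) e)))) = f e
  rw [fl_braid hG hv.1.1 hu.1.1 fun c => h c.symm, fl_fl hG (fl_mem_phi B hu hv).1.1,
    fl_fl hG (fl_mem_phi B hu hv).1.1]

theorem tri {f : G → G} (hu : u ∈ phi D x y) (hv : v ∈ phi D x y) (hw : w ∈ phi D x y)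
    (huv : ¬ Commute u v) (hvw : ¬ Commute v w) (huw : ¬ Commute u w) (hf : Cyc D x u f) :
    Set.EqOn (tr (fl v w) (tr (fl u v) f)) (tr (fl u w) f) (mates D x w) := by
  have hG := B.hyp.grp
  have d1 := (fl_mem_phi B hu hv).1.1
  have d2 := (fl_mem_phi B hv hw).1.1
  have d3 := (fl_mem_phi B hw hu).1.1
  have hwu : ¬ Commute w u := fun c => huw c.symm
  intro e he
  show fl (fl v w) (fl (fl u v) (f (fl (fl u v) (fl (fl v w) e)))) = fl (fl u w) (f (fl (fl u w) e))
  set t := fl (fl u v) (fl (fl v w) e) with ht_def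
  have ht : t ∈ mates D x u := tr_maps' B hu hv huv (tr_maps' B hv hw hvw he)
  have hg : fl (fl w u) e = fl (fl w u) (fl (fl v w) (fl (fl u v) t)) := by
    rw [ht_def, fl_fl hG d1, fl_fl hG d2]
  have hcomm := perm_three (g := fun e => fl (fl w u) (fl (fl v w) (fl (fl u v) e))) (mates_card B hu)
    hf.maps hf.cube hf.ne
    (fun e he => tr_maps B hw hu hwu (tr_maps B hv hw hvw (tr_maps B hu hv huv he)))
    (fun e _ e' _ c => fl_inj hG d1 (fl_inj hG d2 (fl_inj hG d3 c)))
    (loop_comm B hu hv hw huv hvw huw) ht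
  rw [fl_braid hG hu.1.1 hw.1.1 huw, hg, ← hcomm, fl_fl hG d3]

/-- Transport along two steps. -/
def via (u r v : G) (f : G → G) : G → G := tr (fl r v) (tr (fl u r) f)

theorem sq_adj {f : G → G} (hu : u ∈ phi D x y) (hv : v ∈ phi D x y) (hr : r ∈ phi D x y)
    (hr' : r' ∈ phi D x y) (h1 : ¬ Commute u r) (h2 : ¬ Commute r v) (h3 : ¬ Commute u r')
    (h4 : ¬ Commute r' v) (h5 : ¬ Commute r' r) (hf : Cyc D x u f) :
    Set.EqOn (via u r v f) (via u r' v f) (mates D x v) := by
  have e1 := tri B hu hr' hr h3 h5 h1 hf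
  have e2 := tr_congr B hr hv h2 e1
  have e3 := tri B hr' hr hv h5 h2 h4 (tr_cyc B hu hr' h3 hf)
  exact fun e he => (e2 he).symm.trans (e3 he)

theorem sq {f : G → G} (hu : u ∈ phi D x y) (hv : v ∈ phi D x y) (hr : r ∈ phi D x y)
    (hr' : r' ∈ phi D x y) (h0 : Commute u v) (h1 : ¬ Commute u r) (h2 : ¬ Commute r v)
    (h3 : ¬ Commute u r') (h4 : ¬ Commute r' v) (hf : Cyc D x u f) :
    Set.EqOn (via u r v f) (via u r' v f) (mates D x v) := by
  have hG := B.hyp.grp
  by_cases h5 : Commute r' r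
  · have hs := fl_mem_phi B hr hv
    have k1 : ¬ Commute u (fl r v) := fun c => by
      have h' : Commute (fl r u) v := (commute_fl_iff hG hr.1.1).2 c
      rw [fl_braid hG hr.1.1 hu.1.1 fun c => h1 c.symm, commute_fl_iff hG hu.1.1,
        fl_of_commute hG hu.1.1 h0] at h'
      exact h2 h'
    have k2 : ¬ Commute (fl r v) v := fun c => not_commute_third_right hG.1 hr.1.1 hv.1.1 h2 c.symm
    have k3 : ¬ Commute (fl r v) r := fun c => not_commute_third_left hG.1 hr.1.1 hv.1.1 h2 c.symm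
    have k4 : ¬ Commute r' (fl r v) := fun c => h4 (by
      have h' : Commute (fl r r') v := (commute_fl_iff hG hr.1.1).2 c
      rwa [fl_of_commute hG hr.1.1 h5.symm] at h')
    exact fun e he => (sq_adj B hu hv hr hs h1 h2 k1 k2 k3 hf he).trans
      (sq_adj B hu hv hs hr' k1 k2 h3 h4 k4 hf he)
  · exact sq_adj B hu hv hr hr' h1 h2 h3 h4 h5 hf

theorem exists_ncomm (hu : u ∈ phi D x y) : ∃ v ∈ phi D x y, ¬ Commute u v := by
  obtain ⟨q, hq, hqu⟩ := exists_not_commute_perp B.hyp B.hx hu.1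
  exact ⟨bp D x y q, bp_phi_mem B hq, fun c => hqu
    ((commute_bp_left B hq hu.1.1 hu.1.2.2.symm).1 c.symm).symm⟩

theorem common_nb (hu : u ∈ phi D x y) (hv : v ∈ phi D x y) :
    u = v ∨ ¬ Commute u v ∨ ∃ r ∈ phi D x y, ¬ Commute u r ∧ ¬ Commute r v := by
  have hG := B.hyp.grp
  obtain ⟨k, hk, e⟩ := B.hyp.trans x B.hx u hu.1 v hv.1
  let P : G → Prop := fun v => u = v ∨ ¬ Commute u v ∨ ∃ r ∈ phi D x y, ¬ Commute u r ∧ ¬ Commute r v
  have step : ∀ b ∈ phi D x y, P b → ∀ w ∈ phi D x y, ¬ Commute b w → P w := by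
    rintro b hb hP w hw hbw
    by_cases h1 : u = w
    · exact Or.inl h1
    by_cases h2 : Commute u w
    · right; right
      by_cases h3 : Commute u b
      · rcases hP with h | h | ⟨r, hr, hur, hrb⟩
        · exact absurd h2 (h ▸ hbw)
        · exact absurd h3 h
        · by_cases h4 : Commute r w
          · refine ⟨fl r b, fl_mem_phi B hr hb, fun c => ?_, fun c => ?_⟩
            · have h' : Commute (fl r u) b := (commute_fl_iff hG hr.1.1).2 c
              rw [fl_braid hG hr.1.1 hu.1.1 fun c => hur c.symm, commute_fl_iff hG hu.1.1,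
                fl_of_commute hG hu.1.1 h3] at h'
              exact hrb h'
            · have h' := (commute_fl_iff hG hr.1.1).1 c
              rw [fl_of_commute hG hr.1.1 h4] at h'
              exact hbw h'
          · exact ⟨r, hr, hur, h4⟩
      · exact ⟨b, hb, h3, hbw⟩
    · exact Or.inr (Or.inl h2)
  have move : ∀ a ∈ perp D x, ∀ p ∈ perp D x, P (bp D x y p) → P (bp D x y (fl a p)) := by
    intro a ha p hp hP
    by_cases hc : Commute a p
    · rwa [fl_of_commute hG ha.1 hc]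
    refine step _ (bp_phi_mem B hp) hP _ (bp_phi_mem B (fl_perp_x B ha hp)) fun c => ?_
    have h' := (commute_bp B hp (fl_perp_x B ha hp)).1 c
    rw [fl_braid hG ha.1 hp.1 hc] at h'
    exact not_commute_third_left hG.1 hp.1 ha.1 (fun c => hc c.symm) h'
  suffices k * u * k⁻¹ ∈ perp D x ∧ P (bp D x y (k * u * k⁻¹)) by
    rw [e, bp_self B hv] at this; exact this.2
  clear e
  induction hk using Subgroup.closure_induction_left with
  | one =>
    rw [one_mul, inv_one, mul_one]
    exact ⟨hu.1, by rw [bp_self B hu]; exact Or.inl rfl⟩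
  | mul_left a ha k _ ih =>
    rw [show a * k * u * (a * k)⁻¹ = fl a (k * u * k⁻¹) by
      show _ = a * (k * u * k⁻¹) * a
      rw [mul_inv_rev, inv_eq hG.1 ha.1]; group]
    exact ⟨fl_perp_x B ha ih.1, move a ha _ ih.1 ih.2⟩
  | inv_mul_cancel a ha k _ ih =>
    rw [inv_eq hG.1 ha.1, show a * k * u * (a * k)⁻¹ = fl a (k * u * k⁻¹) by
      show _ = a * (k * u * k⁻¹) * a
      rw [mul_inv_rev, inv_eq hG.1 ha.1]; group]
    exact ⟨fl_perp_x B ha ih.1, move a ha _ ih.1 ih.2⟩

/-- An orientation of all the lines through `x`. -/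
structure Ori (D : Set G) (x y : G) (J : G → G) : Prop where
  mem : ∀ e ∈ ext' D x y, J e ∈ ext' D x y
  same : ∀ e ∈ ext' D x y, bp D x y (J e) = bp D x y e
  cube : ∀ e ∈ ext' D x y, J (J (J e)) = e
  ne : ∀ e ∈ ext' D x y, J e ≠ e
  equi : ∀ d ∈ phi D x y, ∀ e ∈ ext' D x y, fl d (J e) = J (fl d e)

theorem exists_ori : ∃ J : G → G, Ori D x y J := by
  classical
  have hG := B.hyp.grp
  obtain ⟨d₀, hd₀, hd₀y⟩ := exists_common B.hyp B.hx B.hy B.hxy
  have hu₀ : d₀ ∈ phi D x y := ⟨hd₀, hd₀y⟩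
  obtain ⟨a, b, c, hab, hac, hbc, hset⟩ := Set.ncard_eq_three.1 (mates_card B hu₀)
  let J₀ : G → G := fun t => if t = a then b else if t = b then c else if t = c then a else t
  have ea : J₀ a = b := if_pos rfl
  have eb : J₀ b = c := (if_neg (Ne.symm hab)).trans (if_pos rfl)
  have ec : J₀ c = a := (if_neg (Ne.symm hac)).trans ((if_neg (Ne.symm hbc)).trans (if_pos rfl))
  have hJ₀ : Cyc D x d₀ J₀ := by
    refine ⟨fun t ht => ?_, fun t ht => ?_, fun t ht => ?_⟩ <;> rw [hset] at ht <;>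
      rcases ht with rfl | rfl | rfl <;> simp [hset, ea, eb, ec, Ne.symm hab, Ne.symm hbc, hac]
  let com : G → G := fun v =>
    if hv : ∃ r ∈ phi D x y, ¬ Commute d₀ r ∧ ¬ Commute r v then hv.choose else 1
  let Jv : G → G → G := fun v => if v = d₀ then J₀ else
    if Commute d₀ v then via d₀ (com v) v J₀ else tr (fl d₀ v) J₀
  have hcom : ∀ v ∈ phi D x y, v ≠ d₀ → Commute d₀ v →
      com v ∈ phi D x y ∧ ¬ Commute d₀ (com v) ∧ ¬ Commute (com v) v := by
    intro v hv hne hc
    have hh := ((common_nb B hu₀ hv).resolve_left (Ne.symm hne)).resolve_left (not_not.2 hc)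
    simp only [com, dif_pos hh]
    exact hh.choose_spec
  have hJv : ∀ v ∈ phi D x y, Cyc D x v (Jv v) := by
    intro v hv
    simp only [Jv]
    split_ifs with h1 h2
    · exact h1 ▸ hJ₀
    · obtain ⟨r1, r2, r3⟩ := hcom v hv h1 h2
      exact tr_cyc B r1 hv r3 (tr_cyc B hu₀ r1 r2 hJ₀)
    · exact tr_cyc B hu₀ hv h2 hJ₀
  have hvia : ∀ v ∈ phi D x y, v ≠ d₀ → Commute d₀ v → ∀ r ∈ phi D x y, ¬ Commute d₀ r → ¬ Commute r v →
      Set.EqOn (Jv v) (via d₀ r v J₀) (mates D x v) := by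
    intro v hv hne hc r hr hr1 hr2
    obtain ⟨c1, c2, c3⟩ := hcom v hv hne hc
    simp only [Jv, if_neg hne, if_pos hc]
    exact sq B hu₀ hv c1 hr hc c2 c3 hr1 hr2 hJ₀
  have edge : ∀ v ∈ phi D x y, ∀ v' ∈ phi D x y, ¬ Commute v v' →
      Set.EqOn (Jv v') (tr (fl v v') (Jv v)) (mates D x v') := by
    intro v hv v' hv' hvv'
    have hne' : v ≠ v' := fun c => hvv' (c ▸ Commute.refl v)
    by_cases a1 : v = d₀
    · subst a1
      simp only [Jv, if_neg (Ne.symm hne'), if_neg hvv', if_true]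
      exact fun e _ => rfl
    by_cases a2 : v' = d₀
    · subst a2
      have hn : ¬ Commute v' v := fun c => hvv' c.symm
      simp only [Jv, if_neg a1, if_neg hn, if_true]
      rw [tr_tr B hu₀ hv hn]
      exact fun e _ => rfl
    by_cases c1 : Commute d₀ v
    · by_cases c2 : Commute d₀ v'
      · obtain ⟨r, hr, r1, r2, r3⟩ : ∃ r ∈ phi D x y, ¬ Commute d₀ r ∧ ¬ Commute r v ∧ ¬ Commute r v' := by
          obtain ⟨r1, r2, r3⟩ := hcom v hv a1 c1
          by_cases h4 : Commute (com v) v'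
          · refine ⟨fl (com v) v, fl_mem_phi B r1 hv, fun c => ?_,
              fun c => not_commute_third_right hG.1 r1.1.1 hv.1.1 r3 c.symm, fun c => ?_⟩
            · have h' : Commute (fl (com v) d₀) v := (commute_fl_iff hG r1.1.1).2 c
              rw [fl_braid hG r1.1.1 hu₀.1.1 fun c => r2 c.symm, commute_fl_iff hG hu₀.1.1,
                fl_of_commute hG hu₀.1.1 c1] at h'
              exact r3 h'
            · have h' := (commute_fl_iff hG r1.1.1).1 c
              rw [fl_of_commute hG r1.1.1 h4] at h'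
              exact hvv' h'
          · exact ⟨com v, r1, r2, r3, h4⟩
        have e1 := tr_congr B hv hv' hvv' (hvia v hv a1 c1 r hr r1 r2)
        have e2 := hvia v' hv' a2 c2 r hr r1 r3
        have e3 := tri B hr hv hv' r2 hvv' r3 (tr_cyc B hu₀ hr r1 hJ₀)
        exact fun e he => (e2 he).trans ((e3 he).symm.trans (e1 he).symm)
      · have hn : ¬ Commute v' v := fun c => hvv' c.symm
        have e1 := tr_congr B hv hv' hvv' (hvia v hv a1 c1 v' hv' c2 hn)
        rw [via, tr_tr B hv' hv hn] at e1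
        simp only [Jv, if_neg a2, if_neg c2]
        exact fun e he => (e1 he).symm
    · by_cases c2 : Commute d₀ v'
      · have e1 := hvia v' hv' a2 c2 v hv c1 hvv'
        simp only [Jv, if_neg a1, if_neg c1] at e1 ⊢
        exact fun e he => e1 he
      · simp only [Jv, if_neg a1, if_neg c1, if_neg a2, if_neg c2]
        exact fun e he => (tri B hu₀ hv hv' c1 hvv' c2 hJ₀ he).symm
  refine ⟨fun e => Jv (bp D x y e) e, ?_⟩
  have hbp : ∀ e ∈ ext' D x y, bp D x y e ∈ phi D x y := fun e he => bp_phi_mem B he.1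
  have hm : ∀ e ∈ ext' D x y,
      Jv (bp D x y e) e ∈ ext' D x y ∧ bp D x y (Jv (bp D x y e) e) = bp D x y e := fun e he =>
    (mem_mates_iff B (hbp e he)).1 ((hJv _ (hbp e he)).maps (mem_mates_bp B he))
  refine ⟨fun e he => (hm e he).1, fun e he => (hm e he).2, fun e he => ?_,
    fun e he => (hJv _ (hbp e he)).ne e (mem_mates_bp B he), fun d hd e he => ?_⟩
  · show Jv (bp D x y (Jv (bp D x y (Jv (bp D x y e) e)) _)) (Jv _ (Jv _ e)) = e
    have h1 := hm e he
    have h2 := hm _ h1.1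
    rw [h1.2] at h2 ⊢
    rw [h2.2]
    exact (hJv _ (hbp e he)).cube e (mem_mates_bp B he)
  · show fl d (Jv (bp D x y e) e) = Jv (bp D x y (fl d e)) (fl d e)
    rw [bp_fl_phi B hd he.1]
    have hu := hbp e he
    by_cases hc : Commute d (bp D x y e)
    · rw [fl_of_commute hG hd.1.1 hc]
      have hfix : ∀ t ∈ ext' D x y, bp D x y t = bp D x y e → fl d t = t := fun t ht e' =>
        fl_of_commute hG hd.1.1 ((commute_bp_left B ht.1 hd.1.1 hd.1.2.2.symm).1 (e' ▸ hc.symm)).symm
      rw [hfix e he rfl, hfix _ (hm e he).1 (hm e he).2]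
    · set u := bp D x y e
      have huv : ¬ Commute u (fl d u) := by
        rw [fl_braid hG hd.1.1 hu.1.1 hc]
        exact not_commute_third_left hG.1 hu.1.1 hd.1.1 fun c => hc c.symm
      have ed : fl u (fl d u) = d := by rw [fl_braid hG hd.1.1 hu.1.1 hc, fl_fl hG hu.1.1]
      have he' := fl_mates B hd hu (mem_mates_bp B he)
      have := edge u hu (fl d u) (fl_mem_phi B hd hu) huv he'
      rw [this, ed]
      show _ = fl d (Jv u (fl d (fl d e)))
      rw [fl_fl hG hd.1.1]

end CfsgLib.Fischer.CoreTwo
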