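import Cfsg.Agent.Lib.Fischer.CoreTwo.Form

/-!
The points of the lines through `x` with their coordinates, and the translations.
-/
set_option autoImplicit false
set_option linter.unusedSectionVars false

namespace CfsgLib.Fischer.CoreTwo

open CfsgLib.Fischer

/-- A frame: an orientation with the space of values. -/
structure Frame {G : Type*} [Group G] [Finite G] (D : Set G) (x y : G) (F : Type) [Field F] [Fintype F] where
  base : Base D x y
  K : Four F
  J : G → G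
  ori : Ori D x y J
  m : ℕ
  Ψ : G → Fin m → F
  form : ∀ e ∈ ext' D x y, ∀ e' ∈ ext' D x y, Cfsg.hermForm m F 2 (Ψ e) (Ψ e') = hv K y J e e'
  span : Submodule.span F (Ψ '' ext' D x y) = ⊤

variable {G : Type*} [Group G] [Finite G] {D : Set G} {x y a d e e' p q t u v : G}
variable {F : Type} [Field F] [Fintype F]

theorem Base.exists_frame (B : Base D x y) (K : Four F) : ∃ R : Frame D x y F, R.K = K := by
  obtain ⟨J, hJ⟩ := exists_ori B
  obtain ⟨m, Ψ, h1, h2⟩ := CoreTwo.exists_frame B hJ K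
  exact ⟨⟨B, K, J, hJ, m, Ψ, h1, h2⟩, rfl⟩

namespace Frame

variable (R : Frame D x y F)
include R

/-- The form. -/
abbrev H (u v : Fin R.m → F) : F := Cfsg.hermForm R.m F 2 u v

open scoped Classical in
/-- The point with coordinate `a` on the line of `e`. -/
noncomputable def pt (e : G) (a : F) : G :=
  if a = 0 then bp D x y e else if a = 1 then e else if a = R.K.ω then R.J (R.J e) else R.J e

open scoped Classical in
/-- A chosen other point on a line. -/
noncomputable def mate (_R : Frame D x y F) (d : G) : G :=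
  if hd : (mates D x d).Nonempty then hd.choose else 1

/-- The translation of a point. -/
noncomputable def tau (_R : Frame D x y F) (e t : G) : G := fl e (fl (bp D x y e) t)

/-- The members not commuting with `x`. -/
def opp (_R : Frame D x y F) : Set G := {q | q ∈ D ∧ ¬ Commute x q}

/-- The vector of a member not commuting with `x`. -/
def Vec (q : G) (w : Fin R.m → F) : Prop := ∀ e ∈ ext' D x y, Commute q (R.pt e (R.H (R.Ψ e) w))

theorem grp : Cfsg.IsThreeTranspositionGroup D := R.base.hyp.grp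

theorem H_symm (u v : Fin R.m → F) : R.H v u = R.K.c.σ (R.H u v) := R.K.c.herm_symm u v

theorem H_add_left (u v w : Fin R.m → F) : R.H (u + v) w = R.H u w + R.H v w := R.K.c.add_left u v w

theorem H_add_right (u v w : Fin R.m → F) : R.H u (v + w) = R.H u v + R.H u w := R.K.c.add_right u v w

theorem H_smul_left (k : F) (u v : Fin R.m → F) : R.H (k • u) v = k * R.H u v := R.K.c.smul_left k u v

theorem H_smul_right (k : F) (u v : Fin R.m → F) : R.H u (k • v) = R.K.c.σ k * R.H u v :=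
  R.K.c.smul_right k u v

theorem H_zero_right (u : Fin R.m → F) : R.H u 0 = 0 := R.K.c.zero_right u

theorem H_zero_left (u : Fin R.m → F) : R.H 0 u = 0 := R.K.c.zero_left u

theorem H_Ψ (he : e ∈ ext' D x y) (he' : e' ∈ ext' D x y) : R.H (R.Ψ e) (R.Ψ e') = hv R.K y R.J e e' :=
  R.form e he e' he'

theorem H_Ψ_self (he : e ∈ ext' D x y) : R.H (R.Ψ e) (R.Ψ e) = 0 := by
  rw [R.H_Ψ he he, hv_self R.base R.ori R.K he]

theorem H_Ψ_zero (he : e ∈ ext' D x y) (he' : e' ∈ ext' D x y) :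
    R.H (R.Ψ e) (R.Ψ e') = 0 ↔ Commute e e' := by
  rw [R.H_Ψ he he', hv_zero R.base R.ori R.K he he']

theorem vec_ext {v w : Fin R.m → F} (h : ∀ e ∈ ext' D x y, R.H v (R.Ψ e) = R.H w (R.Ψ e)) : v = w := by
  refine R.K.c.ext_right fun s => ?_
  have hs : s ∈ Submodule.span F (R.Ψ '' ext' D x y) := R.span ▸ Submodule.mem_top
  induction hs using Submodule.span_induction with
  | mem s hs => obtain ⟨e, he, rfl⟩ := hs; exact h e he
  | zero => rw [R.K.c.zero_right, R.K.c.zero_right]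
  | add a b _ _ iha ihb => rw [R.K.c.add_right, R.K.c.add_right, iha, ihb]
  | smul k a _ iha => rw [R.K.c.smul_right, R.K.c.smul_right, iha]

theorem vec_ext' {v w : Fin R.m → F} (h : ∀ e ∈ ext' D x y, R.H (R.Ψ e) v = R.H (R.Ψ e) w) : v = w :=
  R.vec_ext fun e he => by rw [R.H_symm _ v, R.H_symm _ w, h e he]

theorem Ψ_J (he : e ∈ ext' D x y) : R.Ψ (R.J e) = R.K.ω • R.Ψ e :=
  R.vec_ext fun q hq => by
    rw [R.H_smul_left, R.H_Ψ (R.ori.mem e he) hq, R.H_Ψ he hq, hv_J_left R.base R.ori R.K he hq]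

theorem Ψ_fl (he : e ∈ ext' D x y) (he' : e' ∈ ext' D x y) :
    R.Ψ (fl (bp D x y e) e') = R.Ψ e' + R.H (R.Ψ e') (R.Ψ e) • R.Ψ e :=
  R.vec_ext fun q hq => by
    rw [R.H_add_left, R.H_smul_left, R.H_Ψ (fl_mem_ext R.base (bp_phi_mem R.base he.1) he') hq,
      R.H_Ψ he' hq, R.H_Ψ he hq, R.H_Ψ he' he, hv_add R.base R.ori R.K he he' hq]

theorem mate_spec (hd : d ∈ phi D x y) : R.mate d ∈ ext' D x y ∧ bp D x y (R.mate d) = d := by
  have hne := mates_nonempty R.base hd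
  have : R.mate d = hne.choose := dif_pos hne
  rw [this]
  exact (mem_mates_iff R.base hd).1 hne.choose_spec

theorem Ψ_ne (he : e ∈ ext' D x y) : R.Ψ e ≠ 0 := by
  intro h0
  obtain ⟨v, hv, hn⟩ := exists_ncomm R.base (bp_phi_mem R.base he.1)
  obtain ⟨h1, h2⟩ := R.mate_spec hv
  refine hn ?_
  rw [← h2, commute_bp R.base he.1 h1.1]
  exact (R.H_Ψ_zero he h1).1 (by rw [h0, R.H_zero_left])

theorem Ψ_inj (he : e ∈ ext' D x y) (he' : e' ∈ ext' D x y) (h : R.Ψ e = R.Ψ e') : e = e' := by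
  have B := R.base
  have hd := bp_phi_mem B he.1
  have hd' := bp_phi_mem B he'.1
  have hiff : ∀ q ∈ perp D x, Commute e q ↔ Commute e' q := by
    intro q hq
    obtain ⟨h1, h2⟩ := R.mate_spec (bp_phi_mem B hq)
    rw [← commute_bp B he.1 hq, ← commute_bp B he'.1 hq, ← h2, commute_bp B he.1 h1.1,
      commute_bp B he'.1 h1.1, ← R.H_Ψ_zero he h1, ← R.H_Ψ_zero he' h1, h]
  have hline : bp D x y e' ∈ line D x (bp D x y e) := by
    refine ⟨hd'.1.1, fun s hs => ?_⟩
    by_cases hsx : s = x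
    · exact hsx ▸ hd'.1.2.2.symm
    · have hsp : s ∈ perp D x := ⟨hs.1, hsx, hs.2.1.symm⟩
      exact (commute_bp_left B he'.1 hs.1 hs.2.1).2 ((hiff s hsp).1
        ((commute_bp_left B he.1 hs.1 hs.2.1).1 hs.2.2.symm))
  have hb : bp D x y e' = bp D x y e := by
    have := bp_same B hd.1 hline hd'.1.2.1
    rwa [bp_self B hd', bp_self B hd] at this
  have key : ∀ k : F, k • R.Ψ e = R.Ψ e → k = 1 := fun k hk =>
    smul_left_injective F (R.Ψ_ne he) (hk.trans (one_smul _ _).symm)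
  rcases mates_cases B R.ori he he' hb with e1 | e1 | e1
  · exact e1.symm
  · rw [e1, R.Ψ_J he] at h
    exact absurd (key _ h.symm) R.K.ω1
  · rw [e1, R.Ψ_J (R.ori.mem e he), R.Ψ_J he, smul_smul, R.K.sq] at h
    exact absurd (key _ h.symm) R.K.w1_1

theorem pt_zero (e : G) : R.pt e 0 = bp D x y e := if_pos rfl

theorem pt_one (e : G) : R.pt e 1 = e := by simp [pt]

theorem pt_ext (he : e ∈ ext' D x y) {k : F} (hk : k ≠ 0) :
    R.pt e k ∈ ext' D x y ∧ bp D x y (R.pt e k) = bp D x y e ∧ R.Ψ (R.pt e k) = k⁻¹ • R.Ψ e := by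
  classical
  have h1 := R.ori.mem e he
  have h2 := R.ori.mem _ h1
  rcases R.K.cases' k hk with rfl | rfl | rfl
  · rw [R.pt_one, inv_one, one_smul]; exact ⟨he, rfl, rfl⟩
  · simp only [pt, if_neg hk, if_neg R.K.ω1, if_true]
    exact ⟨h2, (R.ori.same _ h1).trans (R.ori.same e he),
      by rw [R.Ψ_J h1, R.Ψ_J he, smul_smul, R.K.inv_w, R.K.sq]⟩
  · simp only [pt, if_neg hk, if_neg R.K.w1_1, if_neg R.K.w1_w]
    exact ⟨h1, R.ori.same e he, by rw [R.Ψ_J he, R.K.inv_w1]⟩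

theorem pt_perp (he : e ∈ ext' D x y) (k : F) :
    R.pt e k ∈ perp D x ∧ bp D x y (R.pt e k) = bp D x y e := by
  rcases eq_or_ne k 0 with rfl | hk
  · rw [R.pt_zero]
    exact ⟨(bp_phi_mem R.base he.1).1, bp_self R.base (bp_phi_mem R.base he.1)⟩
  · exact ⟨(R.pt_ext he hk).1.1, (R.pt_ext he hk).2.1⟩

theorem pt_inj (he : e ∈ ext' D x y) {k l : F} (h : R.pt e k = R.pt e l) : k = l := by
  rcases eq_or_ne k 0 with rfl | hk <;> rcases eq_or_ne l 0 with rfl | hl
  · rfl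
  · rw [R.pt_zero] at h
    exact absurd (bp_phi_mem R.base he.1).2 (h ▸ (R.pt_ext he hl).1.2)
  · rw [R.pt_zero] at h
    exact absurd (bp_phi_mem R.base he.1).2 (h ▸ (R.pt_ext he hk).1.2)
  · have := (R.pt_ext he hk).2.2
    rw [h, (R.pt_ext he hl).2.2] at this
    exact (inv_injective (smul_left_injective F (R.Ψ_ne he) this)).symm

theorem pt_surj (he : e ∈ ext' D x y) (hp : p ∈ perp D x) (hb : bp D x y p = bp D x y e) :
    ∃ k, R.pt e k = p := by
  classical
  by_cases hy : Commute p y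
  · exact ⟨0, by rw [R.pt_zero, ← hb]; exact bp_self R.base ⟨hp, hy⟩⟩
  rcases mates_cases R.base R.ori he ⟨hp, hy⟩ hb with rfl | rfl | rfl
  · exact ⟨1, R.pt_one _⟩
  · exact ⟨R.K.ω + 1, by simp only [pt, if_neg R.K.w1_0, if_neg R.K.w1_1, if_neg R.K.w1_w]⟩
  · exact ⟨R.K.ω, by simp only [pt, if_neg R.K.ω0, if_neg R.K.ω1, if_true]⟩

theorem pt_scale (he : e ∈ ext' D x y) (he' : e' ∈ ext' D x y) (hb : bp D x y e' = bp D x y e) {k : F}
    (hk : k ≠ 0) (h : R.Ψ e' = k • R.Ψ e) (l : F) : R.pt e' (k * l) = R.pt e l := by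
  rcases eq_or_ne l 0 with rfl | hl
  · rw [mul_zero, R.pt_zero, R.pt_zero, hb]
  · refine R.Ψ_inj (R.pt_ext he' (mul_ne_zero hk hl)).1 (R.pt_ext he hl).1 ?_
    rw [(R.pt_ext he' (mul_ne_zero hk hl)).2.2, (R.pt_ext he hl).2.2, h, smul_smul, mul_inv_rev,
      mul_assoc, inv_mul_cancel₀ hk, mul_one]

theorem exists_smul (he : e ∈ ext' D x y) {k : F} (hk : k ≠ 0) :
    ∃ e' ∈ ext' D x y, bp D x y e' = bp D x y e ∧ R.Ψ e' = k • R.Ψ e := by
  obtain ⟨h1, h2, h3⟩ := R.pt_ext he (inv_ne_zero hk)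
  exact ⟨_, h1, h2, by rw [h3, inv_inv]⟩

theorem pt_fl (hd : d ∈ phi D x y) (he : e ∈ ext' D x y) (k : F) : fl d (R.pt e k) = R.pt (fl d e) k := by
  classical
  rcases R.K.cases k with rfl | rfl | rfl | rfl
  · rw [R.pt_zero, R.pt_zero, bp_fl_phi R.base hd he.1]
  · rw [R.pt_one, R.pt_one]
  · simp only [pt, if_neg R.K.ω0, if_neg R.K.ω1, if_true]
    rw [R.ori.equi d hd _ (R.ori.mem e he), R.ori.equi d hd e he]
  · simp only [pt, if_neg R.K.w1_0, if_neg R.K.w1_1, if_neg R.K.w1_w]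
    rw [R.ori.equi d hd e he]

theorem commute_bp_self (he : e ∈ ext' D x y) : Commute e (bp D x y e) :=
  ((commute_bp_left R.base he.1 he.1.1 he.1.2.2.symm).2 (Commute.refl e)).symm

theorem tau_x (he : e ∈ ext' D x y) : R.tau e x = x := by
  show fl e (fl _ x) = x
  rw [fl_phi_x R.base (bp_phi_mem R.base he.1), fl_of_commute R.grp he.1.1 he.1.2.2.symm]

theorem tau_y (he : e ∈ ext' D x y) : R.tau e y = fl e y := by
  show fl e (fl _ y) = _
  rw [fl_phi_y R.base (bp_phi_mem R.base he.1)]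

theorem tau_tau (he : e ∈ ext' D x y) (t : G) : R.tau e (R.tau e t) = t := by
  have hd := (bp_phi_mem R.base he.1).1.1
  show fl e (fl _ (fl e (fl _ t))) = t
  rw [← fl_swap R.grp he.1.1 hd (R.commute_bp_self he) (fl _ t), fl_fl R.grp he.1.1, fl_fl R.grp hd]

theorem tau_commute (he : e ∈ ext' D x y) (t s : G) : Commute (R.tau e t) (R.tau e s) ↔ Commute t s := by
  show Commute (fl e _) (fl e _) ↔ _
  rw [fl_commute_iff R.grp he.1.1, fl_commute_iff R.grp (bp_phi_mem R.base he.1).1.1]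

theorem tau_perp (he : e ∈ ext' D x y) (hp : p ∈ perp D x) :
    R.tau e p ∈ perp D x ∧ bp D x y (R.tau e p) = bp D x y p := by
  have hd := bp_phi_mem R.base he.1
  have h1 := fl_perp_x R.base hd.1 hp
  refine ⟨fl_perp_x R.base he.1 h1, ?_⟩
  show bp D x y (fl e (fl _ p)) = _
  rw [bp_fl R.base he.1 h1, bp_fl_phi R.base hd hp, fl_fl R.grp hd.1.1]

/-- A translation adds a value to the coordinate. -/
theorem tau_pt (he : e ∈ ext' D x y) (he' : e' ∈ ext' D x y) (k : F) :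
    R.tau e (R.pt e' k) = R.pt e' (k + R.H (R.Ψ e') (R.Ψ e)) := by
  have B := R.base
  have hG := R.grp
  have hd := bp_phi_mem B he.1
  have hd' := bp_phi_mem B he'.1
  by_cases hc : Commute e' e
  · rw [(R.H_Ψ_zero he' he).2 hc, add_zero]
    obtain ⟨h1, h2⟩ := R.pt_perp he' k
    have h3 : Commute (R.pt e' k) e := (commute_bp B h1 he.1).1 (h2 ▸ (commute_bp B he'.1 he.1).2 hc)
    show fl e (fl _ _) = _
    rw [fl_of_commute hG hd.1.1 ((commute_bp_left B he.1 h1.1 h1.2.2.symm).2 h3.symm),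
      fl_of_commute hG he.1.1 h3.symm]
  have hπ : ∀ k, ∃ l, R.tau e (R.pt e' k) = R.pt e' l := fun k => by
    obtain ⟨h1, h2⟩ := R.tau_perp he (R.pt_perp he' k).1
    obtain ⟨l, hl⟩ := R.pt_surj he' h1 (h2.trans (R.pt_perp he' k).2)
    exact ⟨l, hl.symm⟩
  choose π hπ using hπ
  have hinv : ∀ k, π (π k) = k := fun k => R.pt_inj he' (by rw [← hπ, ← hπ, R.tau_tau he])
  have hne : ∀ k, π k ≠ k := by
    intro k hk
    obtain ⟨h1, h2⟩ := R.pt_perp he' k
    have hn : ¬ Commute e (R.pt e' k) := fun c => hc ((commute_bp B he'.1 he.1).1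
      (h2 ▸ (commute_bp B h1 he.1).2 c.symm))
    have hn' : ¬ Commute (bp D x y e) (R.pt e' k) := fun c => hn
      ((commute_bp_left B he.1 h1.1 h1.2.2.symm).1 c)
    have e0 := hπ k
    rw [hk] at e0
    have e1 : fl (bp D x y e) (R.pt e' k) = fl e (R.pt e' k) := by
      conv_rhs => rw [← e0]
      exact (fl_fl hG he.1.1 _).symm
    rw [fl_braid hG hd.1.1 h1.1 hn', fl_braid hG he.1.1 h1.1 hn] at e1
    exact he.2 ((fl_inj hG h1.1 e1) ▸ hd.2)
  have h0 : π 0 = R.H (R.Ψ e') (R.Ψ e) := by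
    have hdd : ¬ Commute (bp D x y e) (bp D x y e') := fun c => hc ((commute_bp B he.1 he'.1).1 c).symm
    have hd2 := fl_mem_phi B hd hd'
    have hne2 : ¬ Commute e (bp D x y e') := fun c => hc
      ((commute_bp_left B he'.1 he.1.1 he.1.2.2.symm).1 c.symm)
    have e0 : fl e (fl (bp D x y e) (bp D x y e')) = R.pt e' (π 0) := by
      rw [← hπ 0, R.pt_zero]; rfl
    have h00 : π 0 ≠ 0 := by
      intro h
      rw [h, R.pt_zero] at e0
      have e1 : fl e (bp D x y e') = fl (bp D x y e) (bp D x y e') := by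
        conv_lhs => rw [← e0, fl_fl hG he.1.1]
      refine he.2 ((fl_phi_commute_y B hd').1 ?_)
      rw [← fl_braid hG he.1.1 hd'.1.1 hne2, e1]
      exact hd2.2
    obtain ⟨h1, h2, h3⟩ := R.pt_ext he' h00
    have hr : Commute (fl e (R.pt e' (π 0))) y := by rw [← e0, fl_fl hG he.1.1]; exact hd2.2
    have hn : ¬ Commute e (R.pt e' (π 0)) := fun c => hdd (h2 ▸ (commute_bp B he.1 h1.1).2 c)
    have h4 : R.H (R.Ψ (R.pt e' (π 0))) (R.Ψ e) = 1 := by
      rw [R.H_symm, R.H_Ψ he h1, hv_one B R.ori R.K he hn hr, map_one]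
    rw [h3, R.H_smul_left] at h4
    exact ((inv_mul_eq_one₀ h00).1 h4)
  rw [hπ]
  congr 1
  set s := R.H (R.Ψ e') (R.Ψ e)
  have hs : s ≠ 0 := fun h => hc ((R.H_Ψ_zero he' he).1 h)
  rcases eq_or_ne k 0 with rfl | hk
  · rw [zero_add, h0]
  rcases eq_or_ne k s with rfl | hks
  · rw [R.K.add_self, ← h0, hinv]
  refine R.K.fourth s k (π k) hs hk hks ?_ ?_ (hne k)
  · intro h
    apply hks
    rw [← hinv k, h, h0]
  · intro h
    apply hk
    rw [← hinv k, h, ← h0, hinv]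

theorem fl_x_opp (hq : q ∈ R.opp) : fl x q ∈ R.opp :=
  ⟨fl_mem R.grp R.base.hx hq.1, not_commute_third_left R.grp.1 R.base.hx hq.1 hq.2⟩

theorem fl_x_ne (hq : q ∈ R.opp) : fl x q ≠ q := fun h => hq.2 (commute_of_fl_eq R.grp R.base.hx h)

theorem y_opp : y ∈ R.opp := ⟨R.base.hy, R.base.hxy⟩

theorem fl_phi_opp (hd : d ∈ phi D x y) (hq : q ∈ R.opp) : fl d q ∈ R.opp :=
  ⟨fl_mem R.grp hd.1.1 hq.1, fun c => hq.2 (by
    rw [← fl_phi_x R.base hd] at c
    exact (fl_commute_iff R.grp hd.1.1).1 c)⟩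

theorem tau_opp (he : e ∈ ext' D x y) (hq : q ∈ R.opp) : R.tau e q ∈ R.opp :=
  ⟨fl_mem R.grp he.1.1 (fl_mem R.grp (bp_phi_mem R.base he.1).1.1 hq.1), fun c => hq.2 (by
    have c' : Commute (R.tau e x) (R.tau e q) := by rw [R.tau_x he]; exact c
    exact (R.tau_commute he _ _).1 c')⟩

theorem commute_pt_iff {w : Fin R.m → F} (hq : q ∈ R.opp) (hw : R.Vec q w) (he : e ∈ ext' D x y) (k : F) :
    Commute q (R.pt e k) ↔ k = R.H (R.Ψ e) w := by
  refine ⟨fun h => R.pt_inj he ?_, fun h => h ▸ hw e he⟩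
  have B := R.base
  have hl : ∀ k, R.pt e k ∈ line D x e := fun k => by
    obtain ⟨h1, h2⟩ := R.pt_perp he k
    rw [← bp_line B he.1, ← h2, bp_line B h1]
    exact right_mem_line h1.1
  exact hit_unique B.hyp B.hx he.1 hq.1 (hl k) (hl _) h (hw e he) (left_mem_line B.hx) fun c => hq.2 c.symm

theorem vec_unique {w w' : Fin R.m → F} (hq : q ∈ R.opp) (hw : R.Vec q w) (hw' : R.Vec q w') : w = w' :=
  R.vec_ext' fun e he => (R.commute_pt_iff hq hw' he _).1 (hw e he)

theorem vec_y : R.Vec y 0 := fun e he => by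
  rw [R.H_zero_right, R.pt_zero]
  exact (bp_phi_mem R.base he.1).2.symm

theorem vec_fl_x {w : Fin R.m → F} (hw : R.Vec q w) : R.Vec (fl x q) w := fun e he => by
  rw [commute_fl_iff R.grp R.base.hx, fl_of_commute R.grp R.base.hx (R.pt_perp he _).1.2.2]
  exact hw e he

theorem vec_tau {w : Fin R.m → F} (he : e ∈ ext' D x y) (hw : R.Vec q w) :
    R.Vec (R.tau e q) (w + R.Ψ e) := fun e' he' => by
  rw [R.H_add_right, ← R.tau_pt he he', R.tau_commute he]
  exact hw e' he'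

theorem vec_phi {w : Fin R.m → F} (he : e ∈ ext' D x y) (hw : R.Vec q w) :
    R.Vec (fl (bp D x y e) q) (w + R.H w (R.Ψ e) • R.Ψ e) := fun e' he' => by
  have hd := bp_phi_mem R.base he.1
  have := hw _ (fl_mem_ext R.base hd he')
  rw [commute_fl_iff R.grp hd.1.1, R.pt_fl hd he', R.H_add_right, R.H_smul_right, ← R.H_symm w (R.Ψ e)]
  rwa [R.Ψ_fl he he', R.H_add_left, R.H_smul_left, mul_comm (R.H (R.Ψ e') (R.Ψ e))] at this

end Frame

end CfsgLib.Fischer.CoreTwo
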