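import Cfsg.Agent.Lib.Fischer.CoreTwo.Card
import Cfsg.Agent.Lib.Forms.Symplectic
import Cfsg.Agent.Lib.Omega.PolarPairs
import Cfsg.Agent.Lib.ClassicalLinear.SympBasic
import Cfsg.Agent.Lib.Fischer.CoreThree.SymFive

/-!
Lines with three points: the class is the set of non-zero vectors of a symplectic space over the field with two
elements and the group is the symplectic group.
-/
set_option autoImplicit false
set_option linter.unusedSectionVars false

namespace CfsgLib.Fischer.CoreTwo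

open CfsgLib.Fischer

variable {G : Type*} [Group G] [Finite G] {D : Set G} {a b c d p q r x y z t u v w : G}
variable (h : Hyp D) (h3 : ∀ x ∈ D, ∀ a ∈ perp D x, (line D x a).ncard = 3)
include h h3

theorem third_unique (hx : x ∈ D) (ha : a ∈ perp D x) (hu : u ∈ line D x a) (hv : v ∈ line D x a)
    (hux : u ≠ x) (hua : u ≠ a) (hvx : v ≠ x) (hva : v ≠ a) : u = v := by
  by_contra hne
  have hsub : ({x, a, u, v} : Set G) ⊆ line D x a := by
    rintro s (rfl | rfl | rfl | rfl)
    exacts [left_mem_line hx, right_mem_line ha.1, hu, hv]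
  have := Set.ncard_le_ncard hsub
  rw [h3 x hx a ha, Set.ncard_insert_of_notMem (by simp [Ne.symm ha.2.1, Ne.symm hux, Ne.symm hvx]),
    Set.ncard_insert_of_notMem (by simp [Ne.symm hua, Ne.symm hva]),
    Set.ncard_insert_of_notMem (by simpa using hne), Set.ncard_singleton] at this
  omega

omit h3 in
theorem flip_line (hd : d ∈ D) (hp : p ∈ perp D d) (hp' : u ∈ line D d p) (hpd : u ≠ d) (hpp : u ≠ p)
    (hr : r ∈ perp D d) (hc : ¬ Commute p r) : fl u r ∈ line D d (fl p r) ∧ fl u r ≠ fl p r := by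
  have hG := h.grp
  have hk := kernel_mem h hd hp hp' hpd hpp hr
  have := fl_line hG hp.1 hk
  rw [fl_fl hG hp.1, fl_of_commute hG hp.1 hp.2.2.symm] at this
  refine ⟨this, fun e => hpp ?_⟩
  have hur : ¬ Commute u r := fun c => hc
    (commute_all h hd hp (left_mem_line hd) hp' (Ne.symm hpd) hr.1 hr.2.2.symm c.symm (right_mem_line hp.1)).symm
  rw [fl_braid hG hp'.1 hr.1 hur, fl_braid hG hp.1 hr.1 hc] at e
  exact fl_inj hG hr.1 e

/-- Replacing both points by the third points of their lines does not change the product point. -/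
theorem flip_both (hd : d ∈ D) (hp : p ∈ perp D d) (hu : u ∈ line D d p) (hud : u ≠ d) (hup : u ≠ p)
    (hr : r ∈ perp D d) (hv : v ∈ line D d r) (hvd : v ≠ d) (hvr : v ≠ r) (hc : ¬ Commute p r) :
    fl u v = fl p r := by
  have hG := h.grp
  obtain ⟨h1, h2⟩ := flip_line h hd hp hu hud hup hr hc
  have hupd : u ∈ perp D d := mem_line_perp h hd hp hu hud
  have hfix : fl u d = d := fl_of_commute hG hu.1 hupd.2.2.symm
  have hq : fl p r ∈ perp D d := by
    have := fl_perp hG hp.1 hr
    rwa [fl_of_commute hG hp.1 hp.2.2.symm] at this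
  have h1d : fl u r ≠ d := fun e => hr.2.1 (fl_inj hG hu.1 (e.trans hfix.symm))
  have hm : fl u v ∈ line D d (fl p r) := by
    have := fl_line hG hu.1 hv
    rwa [hfix, line_eq h hd hq (left_mem_line hd) h1 (Ne.symm h1d)] at this
  have e1 : fl u v ≠ d := fun e => hvd (fl_inj hG hu.1 (e.trans hfix.symm))
  by_contra hne
  exact hvr (fl_inj hG hu.1 (third_unique h h3 hd hq hm h1 e1 hne h1d h2))

/-- A member commutes with one or all of a line through two members which do not commute. -/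
theorem hyperbolic (ha : a ∈ D) (hb : b ∈ D) (hab : ¬ Commute a b) (hq : q ∈ D) :
    Commute q a ∨ Commute q b ∨ Commute q (fl a b) := by
  have hG := h.grp
  by_contra hcon
  push Not at hcon
  obtain ⟨hqa, hqb, hqz⟩ := hcon
  obtain ⟨d, hd, hdb⟩ := exists_common h ha hb hab
  have hda : Commute d a := hd.2.2.symm
  obtain ⟨p, hp, hdp⟩ := exists_not_commute_perp h ha hd
  obtain ⟨d2, hd2, hd2b⟩ := exists_hit h ha hp hb
  have hd2a : d2 ≠ a := by rintro rfl; exact hab hd2b
  have hd2p := mem_line_perp h ha hp hd2 hd2a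
  have hdd2 : ¬ Commute d d2 := fun e => hdp
    (commute_all h ha hp (left_mem_line ha) hd2 (Ne.symm hd2a) hd.1 hda e (right_mem_line hp.1))
  have caseA : ∀ s ∈ perp D a, Commute s b → Commute s q → False := by
    intro s hs hsb hsq
    have ha' : a ∈ perp D s := ⟨ha, Ne.symm hs.2.1, hs.2.2.symm⟩
    have hb' : b ∈ perp D s := ⟨hb, fun e => hab (e ▸ hs.2.2), hsb⟩
    have hq' : q ∈ perp D s := ⟨hq, fun e => hqa (e ▸ ha'.2.2), hsq⟩
    obtain ⟨f, hf, hfs, hfa⟩ := exists_third h hs.1 ha'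
    have hfp := mem_line_perp h hs.1 ha' hf hfs
    have hfix : fl a s = s := fl_of_commute hG ha hs.2.2
    have hp1 : fl a q ∈ perp D s := by have := fl_perp hG ha hq'; rwa [hfix] at this
    have hp2 : fl a b ∈ perp D s := by have := fl_perp hG ha hb'; rwa [hfix] at this
    obtain ⟨l1, n1⟩ := flip_line h hs.1 ha' hf hfs hfa hq' fun e => hqa e.symm
    obtain ⟨l2, n2⟩ := flip_line h hs.1 ha' hf hfs hfa hb' hab
    have hc1 : ¬ Commute (fl a q) (fl a b) := fun e => hqb ((fl_commute_iff hG ha).1 e)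
    have hfix' : fl f s = s := fl_of_commute hG hf.1 hfp.2.2.symm
    have d1 : fl f q ≠ s := fun e => hq'.2.1 (fl_inj hG hf.1 (e.trans hfix'.symm))
    have d2 : fl f b ≠ s := fun e => hb'.2.1 (fl_inj hG hf.1 (e.trans hfix'.symm))
    have key := flip_both h h3 hs.1 hp1 l1 d1 n1 hp2 l2 d2 n2 hc1
    rw [fl_conj, fl_fl hG hf.1, fl_conj, fl_fl hG ha] at key
    have hqb' : fl q b ∈ perp D s := by
      have := fl_perp hG hq hb'
      rwa [fl_of_commute hG hq hq'.2.2.symm] at this
    refine (flip_line h hs.1 ha' hf hfs hfa hqb' ?_).2 key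
    intro e
    apply hqz
    rw [← commute_fl_iff hG ha, fl_braid hG ha hq fun c => hqa c.symm, commute_fl_iff hG hq]
    exact e
  have hnd : ¬ Commute d q := fun e => caseA d hd hdb e
  have hnd2 : ¬ Commute d2 q := fun e => caseA d2 hd2p hd2b e
  obtain ⟨f, hf, hfa, hfd⟩ := exists_third h ha hd
  obtain ⟨f2, hf2, hf2a, hf2d⟩ := exists_third h ha hd2p
  have hit : ∀ {s f : G}, s ∈ perp D a → f ∈ line D a s → f ≠ a → f ≠ s → ¬ Commute s q → Commute f q := by
    intro s f hs hf hfa hfs hsq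
    obtain ⟨t, ht, htq⟩ := exists_hit h ha hs hq
    have := third_unique h h3 ha hs hf ht hfa hfs (fun e => hqa (e ▸ htq).symm) fun e => hsq (e ▸ htq)
    exact this ▸ htq
  have hfq := hit hd hf hfa hfd hnd
  have hf2q := hit hd2p hf2 hf2a hf2d hnd2
  have e := flip_both h h3 ha hd hf hfa hfd hd2p hf2 hf2a hf2d hdd2
  refine caseA (fl d d2) ?_ ?_ ?_
  · have := fl_perp hG hd.1 hd2p
    rwa [fl_of_commute hG hd.1 hda] at this
  · rw [commute_fl_iff hG hd.1, fl_of_commute hG hd.1 hdb]; exact hd2b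
  · rw [← e, commute_fl_iff hG hf.1, fl_of_commute hG hf.1 hfq]; exact hf2q

omit h h3

open scoped Classical in
/-- The non-commuting indicator of a member. -/
noncomputable def fv (D : Set G) (a : G) : D → ZMod 2 := fun q => if Commute (q : G) a then 0 else 1

include h h3

theorem fv_line (hx : x ∈ D) (ha : a ∈ perp D x) (hc : c ∈ line D x a) (hcx : c ≠ x) (hca : c ≠ a) :
    fv D c = fv D x + fv D a := by
  classical
  funext ⟨q, hq⟩
  simp only [Pi.add_apply, fv]
  have hX := left_mem_line (D := D) (b := a) hx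
  have hA := right_mem_line (D := D) (a := x) ha.1
  by_cases h1 : Commute q x <;> by_cases h2 : Commute q a <;> simp only [h1, h2, if_true, if_false]
  · rw [if_pos (commute_all h hx ha hX hA (Ne.symm ha.2.1) hq h1 h2 hc)]; rfl
  · rw [if_neg fun e => h2 (commute_all h hx ha hX hc (Ne.symm hcx) hq h1 e hA)]; rfl
  · rw [if_neg fun e => h1 (commute_all h hx ha hA hc (Ne.symm hca) hq h2 e hX)]; rfl
  · obtain ⟨t, ht, htq⟩ := exists_hit h hx ha hq
    have := third_unique h h3 hx ha hc ht hcx hca (fun e => h1 (e ▸ htq).symm) fun e => h2 (e ▸ htq).symm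
    rw [if_pos (this ▸ htq.symm)]; rfl

theorem fv_third (ha : a ∈ D) (hb : b ∈ D) (hab : ¬ Commute a b) : fv D (fl a b) = fv D a + fv D b := by
  classical
  have hG := h.grp
  funext ⟨q, hq⟩
  simp only [Pi.add_apply, fv]
  have e0 : ∀ {s}, Commute q s → fl q s = s := fun hc => fl_of_commute hG hq hc
  by_cases h1 : Commute q a <;> by_cases h2 : Commute q b <;> simp only [h1, h2, if_true, if_false]
  · rw [if_pos (show Commute q (fl a b) from (h1.mul_right h2).mul_right h1)]; rfl
  · rw [if_neg fun e => h2 (by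
      have := (h1.mul_right e).mul_right h1
      rwa [show a * fl a b * a = fl a (fl a b) from rfl, fl_fl hG ha] at this)]
    rfl
  · rw [if_neg fun e => h1 (by
      have := (h2.mul_right e).mul_right h2
      rwa [fl_braid hG ha hb hab, show b * fl b a * b = fl b (fl b a) from rfl, fl_fl hG hb] at this)]
    rfl
  · rw [if_pos (((hyperbolic h h3 ha hb hab hq).resolve_left h1).resolve_left h2)]; rfl

omit h3 in
theorem fv_inj (ha : a ∈ D) (hb : b ∈ D) (e : fv D a = fv D b) : a = b := by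
  classical
  refine h.ext a ha b hb fun s hs => ?_
  have := congrFun e ⟨s, hs⟩
  simp only [fv] at this
  by_cases h1 : Commute s a <;> by_cases h2 : Commute s b <;> simp [h1, h2] at this
  · exact iff_of_true h1.symm h2.symm
  · exact iff_of_false (fun c => h1 c.symm) fun c => h2 c.symm

/-- The span: zero and the indicators. -/
noncomputable def space : Submodule (ZMod 2) (D → ZMod 2) where
  carrier := {f | f = 0 ∨ ∃ a ∈ D, f = fv D a}
  zero_mem' := Or.inl rfl
  add_mem' := by
    rintro f g (rfl | ⟨a, ha, rfl⟩) hg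
    · rwa [zero_add]
    rcases hg with rfl | ⟨b, hb, rfl⟩
    · exact Or.inr ⟨a, ha, add_zero _⟩
    rcases eq_or_ne b a with rfl | hne
    · exact Or.inl (funext fun q => CharTwo.add_self_eq_zero _)
    by_cases hab : Commute a b
    · obtain ⟨c, hc, hca, hcb⟩ := exists_third h ha (⟨hb, hne, hab⟩ : b ∈ perp D a)
      exact Or.inr ⟨c, hc.1, (fv_line h h3 ha ⟨hb, hne, hab⟩ hc hca hcb).symm⟩
    · exact Or.inr ⟨fl a b, fl_mem h.grp ha hb, (fv_third h h3 ha hb hab).symm⟩
  smul_mem' := by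
    intro k f hf
    obtain rfl | rfl : k = 0 ∨ k = 1 := by revert k; decide
    · exact Or.inl (zero_smul _ f)
    · simpa using hf

/-- A bijection with the non-zero vectors turning non-commuting into the form. -/
theorem exists_model (hx : x ∈ D) : ∃ (m : ℕ) (π : G → (Fin m ⊕ Fin m → ZMod 2)),
    (∀ a ∈ D, π a ≠ 0) ∧ (∀ a ∈ D, ∀ b ∈ D, π a = π b → a = b) ∧ (∀ w, w ≠ 0 → ∃ a ∈ D, π a = w) ∧
    (∀ a ∈ D, ∀ b ∈ D, (Commute a b ↔ Cfsg.sympForm m (ZMod 2) (π a) (π b) = 0)) ∧
    (∀ a ∈ D, ∀ b ∈ D, ¬ Commute a b → π (fl a b) = π a + π b) := by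
  classical
  let V := space h h3
  have hmem : ∀ f : V, f = 0 ∨ ∃ a ∈ D, (f : D → ZMod 2) = fv D a := fun f =>
    f.2.imp (fun e => Subtype.ext e) id
  let pick : V → G := fun f => if hf : ∃ a ∈ D, (f : D → ZMod 2) = fv D a then hf.choose else 1
  let B0 : V → V → ZMod 2 := fun f g =>
    if hg : ∃ a ∈ D, (g : D → ZMod 2) = fv D a then (f : D → ZMod 2) ⟨hg.choose, hg.choose_spec.1⟩ else 0
  have hB0 : ∀ (f : V) (g : V) (b : G) (hb : b ∈ D), (g : D → ZMod 2) = fv D b →
      B0 f g = (f : D → ZMod 2) ⟨b, hb⟩ := by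
    intro f g b hb e
    have hg : ∃ a ∈ D, (g : D → ZMod 2) = fv D a := ⟨b, hb, e⟩
    simp only [B0, dif_pos hg]
    exact congrArg (f : D → ZMod 2)
      (Subtype.ext (fv_inj (a := hg.choose) (b := b) h hg.choose_spec.1 hb (hg.choose_spec.2.symm.trans e)))
  have hz : ∀ f g : V, g = 0 → B0 f g = 0 := by
    rintro f g rfl
    simp only [B0]
    rw [dif_neg]
    rintro ⟨b, hb, e⟩
    obtain ⟨s, hs, hbs⟩ : ∃ s ∈ D, ¬ Commute s b := by
      by_contra hno
      push Not at hno
      obtain ⟨g, rfl⟩ := h.conjugate b hb x hx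
      obtain ⟨x₀, hx₀, a₀, ha₀, -⟩ := h.pair
      obtain ⟨s, hs, hns⟩ := exists_not_commute h hx₀ ha₀
      obtain ⟨g', rfl⟩ := h.conjugate b hb x₀ hx₀
      apply hns
      have e1 : s = g' * (g'⁻¹ * s * g') * g'⁻¹ := by group
      rw [e1] at hs ⊢
      exact (conj_commute_iff g' b _).2 (hno _ ((conj_iff h.grp g').1 hs)).symm
    have := congrFun e ⟨s, hs⟩
    simp [fv, hbs] at this
  have hsymm : ∀ f g : V, B0 f g = B0 g f := by
    intro f g
    rcases hmem g with rfl | ⟨b, hb, eb⟩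
    · rw [hz f 0 rfl]
      rcases hmem f with rfl | ⟨a, ha, ea⟩
      · rw [hz 0 0 rfl]
      · rw [hB0 0 f a ha ea]; rfl
    rcases hmem f with rfl | ⟨a, ha, ea⟩
    · rw [hz g 0 rfl, hB0 0 g b hb eb]; rfl
    rw [hB0 f g b hb eb, hB0 g f a ha ea, ea, eb]
    simp only [fv]
    by_cases hc : Commute a b
    · rw [if_pos hc.symm, if_pos hc]
    · rw [if_neg fun c => hc c.symm, if_neg hc]
  have hadd : ∀ f f' g : V, B0 (f + f') g = B0 f g + B0 f' g := by
    intro f f' g
    rcases hmem g with rfl | ⟨b, hb, eb⟩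
    · rw [hz _ 0 rfl, hz _ 0 rfl, hz _ 0 rfl, add_zero]
    · rw [hB0 _ g b hb eb, hB0 _ g b hb eb, hB0 _ g b hb eb]; rfl
  have hsmul : ∀ (k : ZMod 2) (f g : V), B0 (k • f) g = k • B0 f g := by
    intro k f g
    rcases hmem g with rfl | ⟨b, hb, eb⟩
    · rw [hz _ 0 rfl, hz _ 0 rfl, smul_zero]
    · rw [hB0 _ g b hb eb, hB0 _ g b hb eb]; rfl
  let B : LinearMap.BilinForm (ZMod 2) V := LinearMap.mk₂ (ZMod 2) B0 hadd hsmul
    (fun f g g' => by rw [hsymm f, hsymm f, hsymm f, hadd])
    (fun k f g => by rw [hsymm f, hsymm f, hsmul])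
  have hA : B.IsAlt := by
    intro f
    rcases hmem f with rfl | ⟨a, ha, ea⟩
    · exact hz _ 0 rfl
    · show B0 f f = 0
      rw [hB0 f f a ha ea, ea]
      simp [fv]
  have hsep : ∀ f : V, (∀ g, B0 f g = 0) → f = 0 := by
    intro f hf
    refine Subtype.ext (funext fun ⟨s, hs⟩ => ?_)
    have := hf ⟨fv D s, Or.inr ⟨s, hs, rfl⟩⟩
    rwa [hB0 f _ s hs rfl] at this
  have hnd : B.Nondegenerate := ⟨hsep, fun g hg => hsep g fun f => (hsymm g f).trans (hg f)⟩
  obtain ⟨m, bb, -⟩ := Forms.exists_symplectic_basis B hnd hA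
  have hdim : Module.finrank (ZMod 2) V = Module.finrank (ZMod 2) (Fin m ⊕ Fin m → ZMod 2) := by
    rw [Module.finrank_eq_card_basis bb, Module.finrank_pi]
  obtain ⟨e, he⟩ := Forms.alt_isometric B hnd hA (Omega.sympBilin m (ZMod 2)) Omega.sympBilin_nondeg'
    (fun v => Omega.sympBilin_self v) hdim
  let π : G → (Fin m ⊕ Fin m → ZMod 2) := fun a => if ha : a ∈ D then e ⟨fv D a, Or.inr ⟨a, ha, rfl⟩⟩ else 0
  have hπ : ∀ {a} (ha : a ∈ D), π a = e ⟨fv D a, Or.inr ⟨a, ha, rfl⟩⟩ := fun ha => dif_pos ha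
  have hne0 : ∀ a ∈ D, π a ≠ 0 := by
    intro a ha e0
    rw [hπ ha, LinearEquiv.map_eq_zero_iff] at e0
    have h0 := hz (⟨fv D a, Or.inr ⟨a, ha, rfl⟩⟩ : V) _ e0
    obtain ⟨g, rfl⟩ := h.conjugate x hx a ha
    obtain ⟨x₀, hx₀, a₀, ha₀, -⟩ := h.pair
    obtain ⟨s, hs, hns⟩ := exists_not_commute h hx₀ ha₀
    obtain ⟨g', e'⟩ := h.conjugate x₀ hx₀ (g * x * g⁻¹) ha
    have hs' : g' * s * g'⁻¹ ∈ D := h.grp.2.1 g' s hs
    have := congrFun (congrArg Subtype.val e0) ⟨_, hs'⟩
    simp only [fv] at this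
    rw [if_neg] at this
    · exact one_ne_zero this
    · rw [← e', conj_commute_iff]; exact fun c => hns c.symm
  refine ⟨m, π, hne0, fun a ha b hb hab => ?_, fun w hw => ?_, fun a ha b hb => ?_, fun a ha b hb hab => ?_⟩
  · rw [hπ ha, hπ hb] at hab
    exact fv_inj h ha hb (congrArg Subtype.val (e.injective hab))
  · rcases hmem (e.symm w) with h0 | ⟨a, ha, ea⟩
    · exact absurd (e.symm.map_eq_zero_iff.1 h0) hw
    · exact ⟨a, ha, by rw [hπ ha, ← e.apply_symm_apply w]; congr 1; exact Subtype.ext ea.symm⟩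
  · rw [← Omega.sympBilin_apply, hπ ha, hπ hb, he]
    show _ ↔ B0 _ _ = 0
    rw [hB0 _ _ b hb rfl]
    simp only [fv]
    by_cases hc : Commute a b
    · simp [hc, hc.symm]
    · simp only [hc, false_iff]
      rw [if_neg fun c => hc c.symm]
      exact one_ne_zero
  · rw [hπ ha, hπ hb, hπ (fl_mem h.grp ha hb), ← map_add]
    congr 1
    exact Subtype.ext (fv_third h h3 ha hb hab)

/-- The group is the symplectic group, with the members as the transvections. -/
theorem exists_symp_iso (hZ : Subgroup.center G = ⊥) : ∃ (m : ℕ) (e : G ≃* Matrix.symplecticGroup (Fin m) (ZMod 2)),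
    (∀ a ∈ D, ∃ w ≠ 0, e a = ClassicalLinear.spT w 1) ∧
      2 ≤ m ∧ (3 ≤ m → ∃ x ∈ D, ¬ Group.IsSolvable (Subgroup.closure (perp D x))) := by
  classical
  obtain ⟨x₀, hx₀, -⟩ := h.pair
  obtain ⟨m, π, hne, hinj, hsurj, hform, hadd⟩ := exists_model h h3 hx₀
  have hG := h.grp
  have hT : ∀ a ∈ D, ∀ b ∈ D, ClassicalLinear.spT (π a) (1 : ZMod 2) • π b = π (fl a b) := by
    intro a ha b hb
    rw [ClassicalLinear.spT_smul, one_mul]
    by_cases hc : Commute a b
    · rw [(hform b hb a ha).1 hc.symm, zero_smul, add_zero, fl_of_commute hG ha hc]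
    · have h1 : Cfsg.sympForm m (ZMod 2) (π b) (π a) = 1 := by
        have := mt (hform b hb a ha).2 fun c => hc c.symm
        revert this
        generalize Cfsg.sympForm m (ZMod 2) (π b) (π a) = k
        revert k
        decide
      rw [h1, one_smul, hadd a ha b hb hc, add_comm]
  let R : Subgroup (G × Matrix.symplecticGroup (Fin m) (ZMod 2)) :=
    { carrier := {gs | ∀ b ∈ D, gs.2 • π b = π (gs.1 * b * gs.1⁻¹)}
      one_mem' := fun b _ => by simp
      mul_mem' := fun {s t} hs ht b hb => by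
        rw [Prod.snd_mul, mul_smul, ht b hb, hs _ (hG.2.1 _ b hb)]
        congr 1
        simp only [Prod.fst_mul]; group
      inv_mem' := fun {s} hs b hb => by
        have := hs _ (hG.2.1 s.1⁻¹ b hb)
        rw [Prod.snd_inv, Prod.fst_inv, inv_smul_eq_iff, this]
        congr 1
        group }
  have hpair : ∀ a ∈ D, ((a, ClassicalLinear.spT (π a) (1 : ZMod 2)) :
      G × Matrix.symplecticGroup (Fin m) (ZMod 2)) ∈ R := fun a ha b hb => by
    show ClassicalLinear.spT (π a) (1 : ZMod 2) • π b = π (a * b * a⁻¹)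
    rw [hT a ha b hb, inv_eq hG.1 ha]; rfl
  let p1 : R →* G := (MonoidHom.fst _ _).comp R.subtype
  let p2 : R →* Matrix.symplecticGroup (Fin m) (ZMod 2) := (MonoidHom.snd _ _).comp R.subtype
  have b1 : Function.Bijective p1 := by
    refine ⟨(injective_iff_map_eq_one p1).2 fun s hs => Subtype.ext (Prod.ext hs ?_), fun g => ?_⟩
    · refine ClassicalLinear.sp_ext fun w => ?_
      show s.1.2 • w = (1 : Matrix.symplecticGroup (Fin m) (ZMod 2)) • w
      rw [one_smul]
      rcases eq_or_ne w 0 with rfl | hw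
      · exact smul_zero _
      obtain ⟨b, hb, rfl⟩ := hsurj w hw
      rw [s.2 b hb, show s.1.1 = 1 from hs]
      simp
    · have hle : Subgroup.closure D ≤ p1.range :=
        (Subgroup.closure_le _).2 fun a ha => ⟨⟨_, hpair a ha⟩, rfl⟩
      exact hle (hG.2.2.symm ▸ Subgroup.mem_top g)
  have b2 : Function.Bijective p2 := by
    refine ⟨(injective_iff_map_eq_one p2).2 fun s hs => Subtype.ext (Prod.ext ?_ hs), fun g => ?_⟩
    · show s.1.1 = 1
      have hfix : ∀ b ∈ D, Commute s.1.1 b := fun b hb => by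
        have := s.2 b hb
        rw [show s.1.2 = 1 from hs, one_smul] at this
        have := hinj b hb _ (hG.2.1 _ b hb) this
        exact (mul_inv_eq_iff_eq_mul.1 this.symm)
      have hcent : s.1.1 ∈ Subgroup.center G := by
        rw [Subgroup.mem_center_iff]
        intro g
        have hg : g ∈ Subgroup.centralizer ({s.1.1} : Set G) :=
          (Subgroup.closure_le _).2 (fun b hb => Subgroup.mem_centralizer_singleton_iff.2 (hfix b hb).symm.eq)
            (hG.2.2.symm ▸ Subgroup.mem_top g)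
        exact Subgroup.mem_centralizer_singleton_iff.1 hg
      rwa [hZ, Subgroup.mem_bot] at hcent
    · have hle : Subgroup.closure {g : Matrix.symplecticGroup (Fin m) (ZMod 2) |
          ∃ (w : Fin m ⊕ Fin m → ZMod 2) (c : ZMod 2), g = ClassicalLinear.spT w c} ≤ p2.range := by
        refine (Subgroup.closure_le _).2 ?_
        rintro _ ⟨w, c, rfl⟩
        obtain rfl | rfl : c = 0 ∨ c = 1 := by revert c; decide
        · rw [ClassicalLinear.spT_zero]; exact one_mem _
        rcases eq_or_ne w 0 with rfl | hw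
        · rw [show ClassicalLinear.spT (0 : Fin m ⊕ Fin m → ZMod 2) 1 = 1 from
            ClassicalLinear.sp_ext fun u => by rw [ClassicalLinear.spT_smul, smul_zero, add_zero, one_smul]]
          exact one_mem _
        obtain ⟨a, ha, rfl⟩ := hsurj w hw
        exact ⟨⟨_, hpair a ha⟩, rfl⟩
      exact hle (ClassicalLinear.closure_spT_eq_top (F := ZMod 2) (m := m) ▸ Subgroup.mem_top g)
  refine ⟨m, (MulEquiv.ofBijective p1 b1).symm.trans (MulEquiv.ofBijective p2 b2), fun a ha =>
    ⟨π a, hne a ha, ?_⟩, ?_, ?_⟩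
  rotate_left
  · obtain ⟨x, hx, a, ha, -⟩ := h.pair
    have h1 := (hform x hx a ha.1).1 ha.2.2
    have h2 : π a ≠ π x := fun e => ha.2.1 (hinj a ha.1 x hx e)
    have h3' := hne x hx
    have h4 := hne a ha.1
    revert h1 h2 h3' h4
    generalize π x = u
    generalize π a = v
    intro h1 h2 h3' h4
    by_contra hlt
    obtain rfl | rfl : m = 0 ∨ m = 1 := by omega
    · exact h4 (funext fun i => i.elim (fun j => j.elim0) fun j => j.elim0)
    · revert h1 h2 h3' h4
      revert u v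
      decide
  · intro hm
    obtain ⟨k, rfl⟩ : ∃ k, m = k + 3 := ⟨m - 3, by omega⟩
    let l : Fin (k + 3) → (Fin (k + 3) ⊕ Fin (k + 3) → ZMod 2) := fun i => Pi.single (Sum.inl i) 1
    let r : Fin (k + 3) → (Fin (k + 3) ⊕ Fin (k + 3) → ZMod 2) := fun i => Pi.single (Sum.inr i) 1
    have h01 : (0 : Fin (k + 3)) ≠ 1 := by simp
    have h02 : (0 : Fin (k + 3)) ≠ 2 := fun e => by
      simpa [Nat.mod_eq_of_lt (show 2 < k + 3 by omega)] using congrArg Fin.val e
    have h12 : (1 : Fin (k + 3)) ≠ 2 := fun e => by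
      simpa [Nat.mod_eq_of_lt (show 2 < k + 3 by omega)] using congrArg Fin.val e
    have key : ∀ v, v ≠ 0 → ∃ a ∈ D, π a = v := hsurj
    have hv0 : ∀ (v : Fin (k + 3) ⊕ Fin (k + 3) → ZMod 2) (i : Fin (k + 3) ⊕ Fin (k + 3)), v i = (1 : ZMod 2) → v ≠ 0 := fun v i hv e => by simp [e] at hv
    obtain ⟨x, hx, ex⟩ := key (l 0) (hv0 _ (Sum.inl 0) (by simp [l]))
    obtain ⟨a, ha, ea⟩ := key (l 1) (hv0 _ (Sum.inl 1) (by simp [l]))
    obtain ⟨b, hb, eb⟩ := key (r 1) (hv0 _ (Sum.inr 1) (by simp [r]))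
    obtain ⟨c, hc, ec⟩ := key (l 1 + l 2) (hv0 _ (Sum.inl 2) (by simp [l, Ne.symm h12]))
    obtain ⟨d, hd, ed⟩ := key (r 2) (hv0 _ (Sum.inr 2) (by simp [r]))
    have fadd : ∀ u v w, Cfsg.sympForm (k + 3) (ZMod 2) (u + v) w =
        Cfsg.sympForm (k + 3) (ZMod 2) u w + Cfsg.sympForm (k + 3) (ZMod 2) v w := fun u v w =>
      add_dotProduct u v _
    have fadd' : ∀ u v w, Cfsg.sympForm (k + 3) (ZMod 2) u (v + w) =
        Cfsg.sympForm (k + 3) (ZMod 2) u v + Cfsg.sympForm (k + 3) (ZMod 2) u w := fun u v w => by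
      simp [Cfsg.sympForm, Matrix.mulVec_add, dotProduct_add]
    have fsingle : ∀ i j, Cfsg.sympForm (k + 3) (ZMod 2) (Pi.single i 1) (Pi.single j 1) =
        Matrix.J (Fin (k + 3)) (ZMod 2) i j := fun i j => by simp [Cfsg.sympForm]
    have mem : ∀ {t : G}, t ∈ D → Cfsg.sympForm (k + 3) (ZMod 2) (π x) (π t) = 0 → π t ≠ π x → t ∈ perp D x :=
      fun {t} ht hf hne' => ⟨ht, fun e => hne' (by rw [e]), (hform x hx t ht).2 hf⟩
    have hax : a ∈ perp D x := mem ha (by rw [ex, ea, fsingle]; simp [l, Matrix.J])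
      (by rw [ex, ea]; exact fun e => by simpa [l, h01] using congrFun e (Sum.inl 1))
    have hbx : b ∈ perp D x := mem hb (by rw [ex, eb, fsingle]; simp [Matrix.J, h01])
      (by rw [ex, eb]; exact fun e => by simpa [l, r] using congrFun e (Sum.inr 1))
    have hcx : c ∈ perp D x := mem hc (by rw [ex, ec, fadd', fsingle, fsingle]; simp [Matrix.J])
      (by rw [ex, ec]; exact fun e => by simpa [l, h02, h12, Ne.symm h12, Ne.symm h02] using congrFun e (Sum.inl 2))
    have hdx : d ∈ perp D x := mem hd (by rw [ex, ed, fsingle]; simp [Matrix.J, h02])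
      (by rw [ex, ed]; exact fun e => by simpa [l, r] using congrFun e (Sum.inr 2))
    obtain ⟨φ, hφ, f1, f2, f3, f4⟩ := SymFive.exists_injective_of_string hG.1 ha hb hc hd
      (fun e => by
        have := congrArg π e
        rw [ea, ec] at this
        simpa [l, h12, Ne.symm h12] using congrFun this (Sum.inl 2))
      ((hform a ha c hc).2 (by rw [ea, ec, fadd', fsingle, fsingle]; simp [Matrix.J]))
      ((hform a ha d hd).2 (by rw [ea, ed, fsingle]; simp [Matrix.J, h12]))
      ((hform b hb d hd).2 (by rw [eb, ed, fsingle]; simp [Matrix.J]))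
      (fun e => by simpa [ea, eb, fsingle, l, r, Matrix.J] using (hform a ha b hb).1 e)
      (fun e => by simpa [eb, ec, fadd', fsingle, l, r, Matrix.J, h12] using (hform b hb c hc).1 e)
      (fun e => by simpa [ec, ed, fadd, fsingle, l, r, Matrix.J, h12] using (hform c hc d hd).1 e)
    refine ⟨x, hx, fun hsol => ?_⟩
    have hle : φ.range ≤ Subgroup.closure (perp D x) := by
      rintro _ ⟨σ, rfl⟩
      have : σ ∈ Subgroup.closure (Set.range fun i : Fin 4 => Equiv.swap i.castSucc i.succ) := by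
        rw [Equiv.Perm.mclosure_swap_castSucc_succ 4 |> fun e => (Subgroup.closure_eq_top_of_mclosure_eq_top e)]
        trivial
      induction this using Subgroup.closure_induction with
      | mem s hs =>
        obtain ⟨i, rfl⟩ := hs
        refine Subgroup.subset_closure ?_
        fin_cases i
        · exact f1.symm ▸ hax
        · exact f2.symm ▸ hbx
        · exact f3.symm ▸ hcx
        · exact f4.symm ▸ hdx
      | one => rw [map_one]; exact one_mem _
      | mul u v _ _ hu hv => rw [map_mul]; exact mul_mem hu hv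
      | inv u _ hu => rw [map_inv]; exact inv_mem hu
    exact Equiv.Perm.not_isSolvable_fin_5 (Group.isSolvable_of_isSolvable_injective
      (f := φ.codRestrict (Subgroup.closure (perp D x)) fun σ => hle ⟨σ, rfl⟩)
      fun s t e => hφ (congrArg Subtype.val e))
  have : (MulEquiv.ofBijective p1 b1).symm a = ⟨_, hpair a ha⟩ := by
    rw [MulEquiv.symm_apply_eq]; rfl
  rw [MulEquiv.trans_apply, this]
  rfl

end CfsgLib.Fischer.CoreTwo
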